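import Cfsg.Agent.H10.Frat
import Cfsg.Agent.H10.Prim

set_option autoImplicit false

namespace Cfsg.Agent.H10

/-- A normal abelian subgroup meeting the Frattini subgroup trivially is complemented. -/
theorem exists_complement_of_inf_frattini_eq_bot {G : Type*} [Group G] [Finite G]
    (A : Subgroup G) [A.Normal] [IsMulCommutative A] (hΦ : A ⊓ frattini G = ⊥) :
    ∃ H : Subgroup G, Subgroup.IsComplement' A H := by
  obtain ⟨H, hH, hmin⟩ : ∃ H : Subgroup G, A ⊔ H = ⊤ ∧ ∀ K : Subgroup G, A ⊔ K = ⊤ → K ≤ H → K = H := by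
    have hfin : ({H : Subgroup G | A ⊔ H = ⊤}).Finite := Set.toFinite _
    obtain ⟨H, hH⟩ := hfin.exists_minimal ⟨⊤, by simp⟩
    refine ⟨H, hH.prop, fun K hK hKH => le_antisymm hKH (hH.le_of_le hK hKH)⟩
  have hD : (A ⊓ H).Normal := by
    refine normal_of_normalizer_ge hH ?_ ?_
    · refine le_normalizer_of_conj_mem fun a ha d hd => ?_
      have : a * d = d * a := congrArg Subtype.val (mul_comm' (⟨a, ha⟩ : A) ⟨d, hd.1⟩)
      rw [this]
      simpa using hd
    · refine le_normalizer_of_conj_mem fun h hh d hd => ⟨?_, ?_⟩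
      · exact Subgroup.Normal.conj_mem inferInstance d hd.1 h
      · exact H.mul_mem (H.mul_mem hh hd.2) (H.inv_mem hh)
  have hDle : A ⊓ H ≤ (frattini H).map H.subtype := by
    have h1 : (A ⊓ H).subgroupOf H ≤ frattini H := by
      rw [frattini, Order.radical]
      refine le_iInf₂ fun M hM => ?_
      by_contra hNM
      have hMtop : M ⊔ (A ⊓ H).subgroupOf H = ⊤ := by
        rcases hM.le_iff.mp (le_sup_left : M ≤ M ⊔ (A ⊓ H).subgroupOf H) with h1 | h1
        · exact h1
        · exact absurd (le_sup_right.trans h1.le) hNM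
      have h2 : A ⊔ M.map H.subtype = ⊤ := by
        rw [eq_top_iff, ← hH]
        refine sup_le le_sup_left ?_
        have h3 : H ≤ (⊤ : Subgroup H).map H.subtype := by
          rw [← MonoidHom.range_eq_map, Subgroup.range_subtype]
        refine h3.trans ?_
        rw [← hMtop, Subgroup.map_sup]
        refine sup_le le_sup_right ?_
        rw [Subgroup.map_subgroupOf_eq_of_le inf_le_right]
        exact inf_le_left.trans le_sup_left
      have h4 := hmin _ h2 (Subgroup.map_subtype_le _)
      apply hM.1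
      rw [eq_top_iff]
      intro x _
      have hx : (x : G) ∈ M.map H.subtype := by rw [h4]; exact x.2
      obtain ⟨y, hy, hyx⟩ := hx
      rwa [← Subtype.ext hyx]
    have h2 := Subgroup.map_mono (f := H.subtype) h1
    rwa [Subgroup.map_subgroupOf_eq_of_le inf_le_right] at h2
  have hDbot : A ⊓ H = ⊥ := by
    have h1 := le_frattini_of_le_map_frattini H (A ⊓ H) hDle
    rw [eq_bot_iff, ← hΦ]
    exact le_inf inf_le_left h1
  refine ⟨H, ?_⟩
  apply Subgroup.isComplement'_of_disjoint_and_mul_eq_univ
  · exact disjoint_iff.mpr hDbot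
  · rw [← Subgroup.normal_mul, hH]
    rfl

end Cfsg.Agent.H10
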