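import Cfsg.Agent.H10.Imports

set_option autoImplicit false

namespace Cfsg.Agent.H10

open scoped commutatorElement

/-- Ito's commutator computation: in a product `G = AB` of two abelian subgroups the commutators
`⁅a, b⁆` pairwise commute. -/
theorem ito_commute {G : Type*} [Group G] (A B : Subgroup G) [IsMulCommutative A]
    [IsMulCommutative B] (hAB : ∀ g : G, ∃ a ∈ A, ∃ b ∈ B, g = a * b)
    {a a₁ b b₁ : G} (ha : a ∈ A) (ha₁ : a₁ ∈ A) (hb : b ∈ B) (hb₁ : b₁ ∈ B) :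
    Commute ⁅a, b⁆ ⁅a₁, b₁⁆ := by
  have hBA : ∀ g : G, ∃ b ∈ B, ∃ a ∈ A, g = b * a := by
    intro g
    obtain ⟨a, ha, b, hb, h⟩ := hAB g⁻¹
    exact ⟨b⁻¹, B.inv_mem hb, a⁻¹, A.inv_mem ha, by rw [← mul_inv_rev, ← h, inv_inv]⟩
  have cA : ∀ x ∈ A, ∀ y ∈ A, x * y = y * x := fun x hx y hy =>
    congrArg Subtype.val (mul_comm' (⟨x, hx⟩ : A) ⟨y, hy⟩)
  have cB : ∀ x ∈ B, ∀ y ∈ B, x * y = y * x := fun x hx y hy =>
    congrArg Subtype.val (mul_comm' (⟨x, hx⟩ : B) ⟨y, hy⟩)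
  -- first prove the commutation with `⁅b₁⁻¹, a₁⁻¹⁆`
  have main : ∀ a₁ ∈ A, ∀ b₁ ∈ B, Commute ⁅a, b⁆ ⁅b₁⁻¹, a₁⁻¹⁆ := by
    intro a₁ ha₁ b₁ hb₁
    obtain ⟨b2, hb2, a2, ha2, e1⟩ := hBA (a₁ * b * a₁⁻¹)
    obtain ⟨a3, ha3, b3, hb3, e2⟩ := hAB (b₁ * a * b₁⁻¹)
    have f1 : ∀ x ∈ A, ⁅x, a₁ * b * a₁⁻¹⁆ = ⁅x, b2⁆ := by
      intro x hx
      rw [e1, commutatorElement_mul_right_eq_mul_conj,
        (commutatorElement_eq_one_iff_mul_comm.mpr (cA x hx a2 ha2))]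
      group
    have f2 : ∀ x ∈ B, ⁅b₁ * a * b₁⁻¹, x⁆ = ⁅a3, x⁆ := by
      intro x hx
      rw [e2, commutatorElement_mul_left_eq_conj_mul,
        (commutatorElement_eq_one_iff_mul_comm.mpr (cB b3 hb3 x hx))]
      group
    have c1 : a₁ * a * a₁⁻¹ = a := by rw [cA a₁ ha₁ a ha]; group
    have c2 : b₁ * b * b₁⁻¹ = b := by rw [cB b₁ hb₁ b hb]; group
    have c3 : a₁ * a3 * a₁⁻¹ = a3 := by rw [cA a₁ ha₁ a3 ha3]; group
    have c4 : b₁ * b2 * b₁⁻¹ = b2 := by rw [cB b₁ hb₁ b2 hb2]; group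
    have g1 : (b₁ * a₁) * ⁅a, b⁆ * (b₁ * a₁)⁻¹ = ⁅a3, b2⁆ := by
      have : (b₁ * a₁) * ⁅a, b⁆ * (b₁ * a₁)⁻¹ = b₁ * (a₁ * ⁅a, b⁆ * a₁⁻¹) * b₁⁻¹ := by group
      rw [this, conjugate_commutatorElement, c1, f1 a ha, conjugate_commutatorElement, c4, f2 b2 hb2]
    have g2 : (a₁ * b₁) * ⁅a, b⁆ * (a₁ * b₁)⁻¹ = ⁅a3, b2⁆ := by
      have : (a₁ * b₁) * ⁅a, b⁆ * (a₁ * b₁)⁻¹ = a₁ * (b₁ * ⁅a, b⁆ * b₁⁻¹) * a₁⁻¹ := by group
      rw [this, conjugate_commutatorElement, c2, f2 b hb, conjugate_commutatorElement, c3, f1 a3 ha3]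
    have g3 := g1.trans g2.symm
    have g4 : ⁅b₁⁻¹, a₁⁻¹⁆ = (a₁ * b₁)⁻¹ * (b₁ * a₁) := by
      rw [commutatorElement_def]; group
    rw [g4]
    change ⁅a, b⁆ * ((a₁ * b₁)⁻¹ * (b₁ * a₁)) = ((a₁ * b₁)⁻¹ * (b₁ * a₁)) * ⁅a, b⁆
    calc ⁅a, b⁆ * ((a₁ * b₁)⁻¹ * (b₁ * a₁))
        = (a₁ * b₁)⁻¹ * ((a₁ * b₁) * ⁅a, b⁆ * (a₁ * b₁)⁻¹) * (b₁ * a₁) := by group
      _ = (a₁ * b₁)⁻¹ * ((b₁ * a₁) * ⁅a, b⁆ * (b₁ * a₁)⁻¹) * (b₁ * a₁) := by rw [g3]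
      _ = _ := by group
  have h := main a₁⁻¹ (A.inv_mem ha₁) b₁⁻¹ (B.inv_mem hb₁)
  rw [inv_inv, inv_inv, ← commutatorElement_inv] at h
  simpa using h.inv_right

theorem commutator_le_of_product_abelian {G : Type*} [Group G] (A B : Subgroup G)
    [IsMulCommutative A] [IsMulCommutative B] (hAB : ∀ g : G, ∃ a ∈ A, ∃ b ∈ B, g = a * b) :
    commutator G = ⁅A, B⁆ := by
  refine le_antisymm ?_ (Subgroup.commutator_mono le_top le_top)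
  have htop : A ⊔ B = ⊤ := by
    rw [eq_top_iff]
    intro g _
    obtain ⟨a, ha, b, hb, rfl⟩ := hAB g
    exact Subgroup.mul_mem_sup ha hb
  have hn : (⁅A, B⁆ : Subgroup G).Normal := by
    rw [← Subgroup.normalizer_eq_top_iff, eq_top_iff, ← htop]
    exact sup_le (Subgroup.normalizer_commutator_ge_left _ _) (Subgroup.normalizer_commutator_ge_right _ _)
  rw [← Subgroup.Normal.quotient_commutative_iff_commutator_le]
  set π := QuotientGroup.mk' ⁅A, B⁆ with hπ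
  have cA : ∀ x ∈ A, ∀ y ∈ A, x * y = y * x := fun x hx y hy =>
    congrArg Subtype.val (mul_comm' (⟨x, hx⟩ : A) ⟨y, hy⟩)
  have cB : ∀ x ∈ B, ∀ y ∈ B, x * y = y * x := fun x hx y hy =>
    congrArg Subtype.val (mul_comm' (⟨x, hx⟩ : B) ⟨y, hy⟩)
  have cAB : ∀ x ∈ A, ∀ y ∈ B, Commute (π x) (π y) := by
    intro x hx y hy
    rw [← commutatorElement_eq_one_iff_commute, ← map_commutatorElement]
    exact (QuotientGroup.eq_one_iff _).mpr (Subgroup.commutator_mem_commutator hx hy)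
  refine ⟨⟨fun x y => ?_⟩⟩
  obtain ⟨x, rfl⟩ := QuotientGroup.mk'_surjective _ x
  obtain ⟨y, rfl⟩ := QuotientGroup.mk'_surjective _ y
  obtain ⟨a, ha, b, hb, rfl⟩ := hAB x
  obtain ⟨c, hc, d, hd, rfl⟩ := hAB y
  rw [map_mul, map_mul]
  have e1 : Commute (π a) (π c) := by
    change π a * π c = π c * π a
    rw [← map_mul, ← map_mul, cA a ha c hc]
  have e2 : Commute (π b) (π d) := by
    change π b * π d = π d * π b
    rw [← map_mul, ← map_mul, cB b hb d hd]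
  exact Commute.mul_left (e1.mul_right (cAB a ha d hd)) ((cAB c hc b hb).symm.mul_right e2)

/-- Ito's theorem. -/
theorem ito {G : Type*} [Group G] (A B : Subgroup G)
    [IsMulCommutative A] [IsMulCommutative B] (hAB : ∀ g : G, ∃ a ∈ A, ∃ b ∈ B, g = a * b) :
    IsMulCommutative (commutator G) := by
  rw [commutator_le_of_product_abelian A B hAB, Subgroup.commutator_def]
  apply Subgroup.isMulCommutative_closure
  rintro _ ⟨a, ha, b, hb, rfl⟩ _ ⟨a₁, ha₁, b₁, hb₁, rfl⟩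
  exact ito_commute A B hAB ha ha₁ hb hb₁

end Cfsg.Agent.H10
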