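import Cfsg.Agent.H10.MathOrd
import Cfsg.Agent.CharBase.Ortho

/-!
# `M22` and `M24` have no character of 2-defect zero (helper10)
-/

set_option autoImplicit false
set_option linter.unusedSectionVars false

namespace Cfsg.Agent.H10.MathDeg

open scoped ComplexConjugate
open Cfsg Cfsg.Agent.CharBase Cfsg.Agent.H10.PrimeClass Cfsg.Agent.H10.MathOrd Cfsg.Agent.Golay Cfsg.Agent.H90

universe u

section General

variable {G : Type u} [Group G] [Finite G]

theorem sum_orders [Fintype G] {R : Type*} [AddCommMonoid R] (f : G → R) (ps : Finset ℕ) (h1 : 1 ∉ ps) :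
    ∑ g ∈ Finset.univ.filter (fun g : G => orderOf g ∈ insert 1 ps), f g =
      f 1 + ∑ p ∈ ps, ∑ g ∈ Finset.univ.filter (fun g : G => orderOf g = p), f g := by
  classical
  rw [← Finset.sum_fiberwise_of_maps_to (g := fun g : G => orderOf g) (t := insert 1 ps)
    (fun g hg => (Finset.mem_filter.1 hg).2), Finset.sum_insert h1]
  congr 1
  · rw [Finset.sum_eq_single (1 : G)]
    · intro b hb hb1
      have := (Finset.mem_filter.1 hb).2
      rw [orderOf_eq_one_iff] at this
      exact absurd this hb1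
    · intro h
      exfalso
      apply h
      rw [Finset.mem_filter, Finset.mem_filter]
      exact ⟨⟨Finset.mem_univ _, by rw [orderOf_one]; exact Finset.mem_insert_self _ _⟩, orderOf_one⟩
  · refine Finset.sum_congr rfl fun p hp => ?_
    congr 1
    ext g
    rw [Finset.mem_filter, Finset.mem_filter, Finset.mem_filter]
    constructor
    · rintro ⟨⟨h, _⟩, h'⟩; exact ⟨h, h'⟩
    · rintro ⟨h, h'⟩; exact ⟨⟨h, by rw [h']; exact Finset.mem_insert_of_mem hp⟩, h'⟩

theorem sum_normSq [Fintype G] (χ : IrrCharacter G) : ∑ g : G, Complex.normSq ((χ : G → ℂ) g) = Nat.card G := by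
  have h := classInner_irr_self χ
  unfold classInner at h
  have hG : (Nat.card G : ℂ) ≠ 0 := by exact_mod_cast Nat.card_pos.ne'
  rw [inv_mul_eq_one₀ hG] at h
  have h2 : ((∑ g : G, Complex.normSq ((χ : G → ℂ) g) : ℝ) : ℂ) = ((Nat.card G : ℝ) : ℂ) := by
    push_cast
    rw [h]
    exact Finset.sum_congr rfl fun g _ => (Complex.mul_conj _).symm
  exact_mod_cast h2

theorem sum_filter_order [Fintype G] (χ : IrrCharacter G) {p N : ℕ}
    (hN : ∀ g : G, orderOf g = p → Complex.normSq ((χ : G → ℂ) g) = N) :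
    ∑ g ∈ Finset.univ.filter (fun g : G => orderOf g = p), Complex.normSq ((χ : G → ℂ) g) =
      (Nat.card {g : G // orderOf g = p} : ℝ) * N := by
  classical
  rw [Finset.sum_congr rfl (fun g hg => hN g (Finset.mem_filter.1 hg).2), Finset.sum_const, nsmul_eq_mul,
    Nat.card_eq_fintype_card, Fintype.card_subtype]

/-- lower bound for the order of the group -/
theorem lower (χ : IrrCharacter G) (ps : Finset ℕ) (h1 : 1 ∉ ps) (N : ℕ → ℕ)
    (hN : ∀ p ∈ ps, ∀ g : G, orderOf g = p → Complex.normSq ((χ : G → ℂ) g) = N p) :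
    H75.deg χ ^ 2 + ∑ p ∈ ps, Nat.card {g : G // orderOf g = p} * N p ≤ Nat.card G := by
  classical
  have := Fintype.ofFinite G
  have h2 := sum_orders (fun g : G => Complex.normSq ((χ : G → ℂ) g)) ps h1
  have h3 : ∑ g ∈ Finset.univ.filter (fun g : G => orderOf g ∈ insert 1 ps), Complex.normSq ((χ : G → ℂ) g) ≤
      ∑ g : G, Complex.normSq ((χ : G → ℂ) g) :=
    Finset.sum_le_sum_of_subset_of_nonneg (Finset.filter_subset _ _) fun g _ _ => Complex.normSq_nonneg _
  rw [sum_normSq, h2, H75.deg_spec, Complex.normSq_natCast,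
    Finset.sum_congr rfl (fun p hp => sum_filter_order χ (hN p hp))] at h3
  rw [sq]
  exact_mod_cast h3

/-- equality case: the character vanishes on all other elements -/
theorem vanish (χ : IrrCharacter G) (ps : Finset ℕ) (h1 : 1 ∉ ps) (N : ℕ → ℕ)
    (hN : ∀ p ∈ ps, ∀ g : G, orderOf g = p → Complex.normSq ((χ : G → ℂ) g) = N p)
    (heq : H75.deg χ ^ 2 + ∑ p ∈ ps, Nat.card {g : G // orderOf g = p} * N p = Nat.card G) (g : G)
    (hg : orderOf g ∉ insert 1 ps) : (χ : G → ℂ) g = 0 := by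
  classical
  have := Fintype.ofFinite G
  have h2 := sum_orders (fun g : G => Complex.normSq ((χ : G → ℂ) g)) ps h1
  rw [H75.deg_spec, Complex.normSq_natCast, Finset.sum_congr rfl (fun p hp => sum_filter_order χ (hN p hp))] at h2
  have h3 := sum_normSq χ
  rw [← Finset.sum_filter_add_sum_filter_not Finset.univ (fun g : G => orderOf g ∈ insert 1 ps), h2] at h3
  have h4 : ((H75.deg χ : ℝ) * H75.deg χ + ∑ p ∈ ps, (Nat.card {g : G // orderOf g = p} : ℝ) * N p) = Nat.card G := by
    rw [sq] at heq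
    exact_mod_cast heq
  have h5 : ∑ g ∈ Finset.univ.filter (fun g : G => ¬ orderOf g ∈ insert 1 ps), Complex.normSq ((χ : G → ℂ) g) = 0 := by
    linarith
  rw [Finset.sum_eq_zero_iff_of_nonneg (fun g _ => Complex.normSq_nonneg _)] at h5
  exact Complex.normSq_eq_zero.1 (h5 g (Finset.mem_filter.2 ⟨Finset.mem_univ _, hg⟩))

/-- the sum of the values at the elements of order `p` -/
theorem sum_order {p : ℕ} [hp : Fact p.Prime] (hp2 : ¬ p ^ 2 ∣ Nat.card G) {χ : G → ℂ} (hχ : IsCharacter G χ)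
    {d : ℕ} (hd : χ 1 = d) {x : G} (hx : orderOf x = p) (hall : ∀ g : G, orderOf g = p → Complex.normSq (χ g) = 1)
    [Fintype G] :
    ∃ s : ℤ, (p : ℤ) ∣ s + d ∧ -((p : ℤ) - 1) ≤ s ∧ s ≤ (p : ℤ) - 1 ∧
      ((p : ℂ) - 1) * ∑ g ∈ Finset.univ.filter (fun g : G => orderOf g = p), χ g =
        (Nat.card {g : G // orderOf g = p} : ℂ) * s := by
  classical
  have : Fintype (Subgroup.zpowers x) := Fintype.ofFinite _
  have htriv : IsCharacter (Subgroup.zpowers x) (fun _ : Subgroup.zpowers x => (1 : ℂ)) :=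
    irr_isCharacter (oneIrr (Subgroup.zpowers x))
  obtain ⟨m, hm⟩ := classInner_natCast (isCharacter_restrict hχ (Subgroup.zpowers x)) htriv
  unfold classInner at hm
  have hcard : (Nat.card (Subgroup.zpowers x) : ℂ) = p := by rw [Nat.card_zpowers, hx]
  have hp0 : (p : ℂ) ≠ 0 := by exact_mod_cast hp.out.ne_zero
  simp only [map_one, mul_one] at hm
  rw [hcard, sum_zpowers hx χ, hd] at hm
  have hs : ∑ b : (ZMod p)ˣ, χ (xp x b) = ((p * m - d : ℤ) : ℂ) := by
    push_cast
    field_simp at hm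
    linear_combination hm
  refine ⟨p * m - d, ⟨m, by ring⟩, ?_, ?_, ?_⟩
  · have h1 : ‖∑ b : (ZMod p)ˣ, χ (xp x b)‖ ≤ (p : ℝ) - 1 := by
      refine (norm_sum_le _ _).trans ?_
      have h2 : ∀ b : (ZMod p)ˣ, ‖χ (xp x b)‖ = 1 := by
        intro b
        have := hall _ (orderOf_xp hx b)
        rw [Complex.normSq_eq_norm_sq] at this
        nlinarith [norm_nonneg (χ (xp x b))]
      rw [Finset.sum_congr rfl (fun b _ => h2 b), Finset.sum_const, Finset.card_univ, ZMod.card_units, nsmul_eq_mul,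
        mul_one, Nat.cast_sub hp.out.one_lt.le, Nat.cast_one]
    rw [hs, Complex.norm_intCast] at h1
    have h3 := abs_le.1 h1
    have h4 : (-((p : ℝ) - 1)) ≤ ((p * m - d : ℤ) : ℝ) := h3.1
    exact_mod_cast h4
  · have h1 : ‖∑ b : (ZMod p)ˣ, χ (xp x b)‖ ≤ (p : ℝ) - 1 := by
      refine (norm_sum_le _ _).trans ?_
      have h2 : ∀ b : (ZMod p)ˣ, ‖χ (xp x b)‖ = 1 := by
        intro b
        have := hall _ (orderOf_xp hx b)
        rw [Complex.normSq_eq_norm_sq] at this
        nlinarith [norm_nonneg (χ (xp x b))]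
      rw [Finset.sum_congr rfl (fun b _ => h2 b), Finset.sum_const, Finset.card_univ, ZMod.card_units, nsmul_eq_mul,
        mul_one, Nat.cast_sub hp.out.one_lt.le, Nat.cast_one]
    rw [hs, Complex.norm_intCast] at h1
    have h3 := abs_le.1 h1
    have h4 : ((p * m - d : ℤ) : ℝ) ≤ (p : ℝ) - 1 := h3.2
    exact_mod_cast h4
  · have hconst : ∀ g : G, orderOf g = p → ∑ b : (ZMod p)ˣ, χ (xp g b) = ((p * m - d : ℤ) : ℂ) := by
      intro g hg
      obtain ⟨b0, hb0⟩ := exists_isConj_xp hp2 hx hg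
      rw [← hs]
      have h1 : ∀ b : (ZMod p)ˣ, χ (xp g b) = χ (xp x (b0 * b)) := by
        intro b
        rw [← xp_xp hx]
        exact (classFun_eq_of_isConj (isClassFunction_of_isCharacter hχ) (isConj_xp hb0 b)).symm
      rw [Finset.sum_congr rfl (fun b _ => h1 b)]
      exact Fintype.sum_equiv (Equiv.mulLeft b0) _ _ (fun _ => rfl)
    have hperm : ∀ b : (ZMod p)ˣ, ∑ g ∈ Finset.univ.filter (fun g : G => orderOf g = p), χ (xp g b) =
        ∑ g ∈ Finset.univ.filter (fun g : G => orderOf g = p), χ g := by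
      intro b
      refine Finset.sum_bij' (fun g _ => xp g b) (fun g _ => xp g b⁻¹) ?_ ?_ ?_ ?_ ?_
      · intro g hg
        exact Finset.mem_filter.2 ⟨Finset.mem_univ _, orderOf_xp (Finset.mem_filter.1 hg).2 b⟩
      · intro g hg
        exact Finset.mem_filter.2 ⟨Finset.mem_univ _, orderOf_xp (Finset.mem_filter.1 hg).2 b⁻¹⟩
      · intro g hg
        have h := (Finset.mem_filter.1 hg).2
        rw [xp_xp h, mul_inv_cancel, xp_one h]
      · intro g hg
        have h := (Finset.mem_filter.1 hg).2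
        rw [xp_xp h, inv_mul_cancel, xp_one h]
      · intro g hg
        rfl
    have h1 : ∑ b : (ZMod p)ˣ, ∑ g ∈ Finset.univ.filter (fun g : G => orderOf g = p), χ (xp g b) =
        ((p : ℂ) - 1) * ∑ g ∈ Finset.univ.filter (fun g : G => orderOf g = p), χ g := by
      rw [Finset.sum_congr rfl (fun b _ => hperm b), Finset.sum_const, Finset.card_univ, ZMod.card_units, nsmul_eq_mul,
        Nat.cast_sub hp.out.one_lt.le, Nat.cast_one]
    rw [← h1, Finset.sum_comm, Finset.sum_congr rfl (fun g hg => hconst g (Finset.mem_filter.1 hg).2), Finset.sum_const,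
      nsmul_eq_mul, Nat.card_eq_fintype_card, Fintype.card_subtype]

theorem card_autS_le {p : ℕ} [hp : Fact p.Prime] {x : G} (hx : orderOf x = p) :
    Nat.card (autS p x hx) ≤ p - 1 ∧ 0 < Nat.card (autS p x hx) ∧ Nat.card (autS p x hx) ∣ p - 1 := by
  have h : Nat.card (ZMod p)ˣ = p - 1 := by rw [Nat.card_eq_fintype_card, ZMod.card_units]
  have h2 : Nat.card (autS p x hx) ∣ p - 1 := by
    rw [← h]; exact Subgroup.card_subgroup_dvd_card _
  have := hp.out.one_lt
  exact ⟨Nat.le_of_dvd (by omega) h2, Nat.card_pos, h2⟩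

end General

section M22

theorem card22 : Nat.card Spor.M22 = 443520 := card_M22'

theorem exists_elt22 {p : ℕ} (hp : p.Prime) (h : p ∣ 443520) : ∃ x : Spor.M22, orderOf x = p := by
  have : Fact p.Prime := ⟨hp⟩
  exact exists_prime_orderOf_dvd_card' p (by rw [card22]; exact h)

theorem cent22 {p : ℕ} (hp : p = 5 ∨ p = 7 ∨ p = 11) {x : Spor.M22} (hx : orderOf x = p) :
    Nat.card (Subgroup.centralizer ({x} : Set Spor.M22)) = p := by
  rw [card_centralizer_eq]
  exact card_cen_M22 hp x.2 (by rw [Subgroup.orderOf_coe]; exact hx)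

theorem aut22_5 [Fact (Nat.Prime 5)] {x : Spor.M22} (hx : orderOf x = 5) : Nat.card (autS 5 x hx) = 4 := by
  have h1 := autS_mod (p := 5) (by rw [card22]; norm_num) hx (m := 88704) (c := 1) (by rw [card22])
    (by rw [cent22 (by norm_num) hx])
  obtain ⟨h2, h3, _⟩ := card_autS_le hx
  rw [Nat.ModEq] at h1
  omega

theorem aut22_7 [Fact (Nat.Prime 7)] {x : Spor.M22} (hx : orderOf x = 7) : Nat.card (autS 7 x hx) = 3 := by
  have h1 := autS_mod (p := 7) (by rw [card22]; norm_num) hx (m := 63360) (c := 1) (by rw [card22])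
    (by rw [cent22 (by norm_num) hx])
  obtain ⟨h2, h3, _⟩ := card_autS_le hx
  rw [Nat.ModEq] at h1
  omega

theorem aut22_11 [Fact (Nat.Prime 11)] {x : Spor.M22} (hx : orderOf x = 11) : Nat.card (autS 11 x hx) = 5 := by
  have h1 := autS_mod (p := 11) (by rw [card22]; norm_num) hx (m := 40320) (c := 1) (by rw [card22])
    (by rw [cent22 (by norm_num) hx])
  obtain ⟨h2, h3, _⟩ := card_autS_le hx
  rw [Nat.ModEq] at h1
  omega

theorem no_defect_zero_M22 (χ : IrrCharacter Spor.M22) :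
    (charDegree (χ : Spor.M22 → ℂ)).factorization 2 ≠ (Nat.card Spor.M22).factorization 2 := by
  classical
  intro hdeg
  have := Fintype.ofFinite Spor.M22
  have h5p : Fact (Nat.Prime 5) := ⟨by norm_num⟩
  have h7p : Fact (Nat.Prime 7) := ⟨by norm_num⟩
  have h11p : Fact (Nat.Prime 11) := ⟨by norm_num⟩
  rw [H75.charDegree_eq_deg] at hdeg
  have hd : (χ : Spor.M22 → ℂ) 1 = H75.deg χ := H75.deg_spec χ
  have hχ := irr_isCharacter χ
  obtain ⟨x5, hx5⟩ := exists_elt22 (p := 5) (by norm_num) (by norm_num)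
  obtain ⟨x7, hx7⟩ := exists_elt22 (p := 7) (by norm_num) (by norm_num)
  obtain ⟨x11, hx11⟩ := exists_elt22 (p := 11) (by norm_num) (by norm_num)
  have n5 : ¬ 5 ^ 2 ∣ Nat.card Spor.M22 := by rw [card22]; norm_num
  have n7 : ¬ 7 ^ 2 ∣ Nat.card Spor.M22 := by rw [card22]; norm_num
  have n11 : ¬ 11 ^ 2 ∣ Nat.card Spor.M22 := by rw [card22]; norm_num
  have a5 := aut22_5 hx5
  have a7 := aut22_7 hx7
  have a11 := aut22_11 hx11
  have t5 := card_order_mul n5 hx5
  have t7 := card_order_mul n7 hx7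
  have t11 := card_order_mul n11 hx11
  rw [a5, cent22 (by norm_num) hx5, card22] at t5
  rw [a7, cent22 (by norm_num) hx7, card22] at t7
  rw [a11, cent22 (by norm_num) hx11, card22] at t11
  obtain ⟨N5, hN5, c5⟩ := exists_normSq n5 hχ hd hx5 (Or.inl a5)
  obtain ⟨N7, hN7, c7⟩ := exists_normSq n7 hχ hd hx7 (Or.inr ⟨by rw [a7], by rw [a7]; decide⟩)
  obtain ⟨N11, hN11, c11⟩ := exists_normSq n11 hχ hd hx11 (Or.inr ⟨by rw [a11], by rw [a11]; decide⟩)
  -- the degree
  have hfac : (443520 : ℕ).factorization 2 = 7 := by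
    rw [show (443520 : ℕ) = 2 ^ 7 * 3465 by norm_num, Nat.factorization_mul (by norm_num) (by norm_num),
      Nat.Prime.factorization_pow Nat.prime_two]
    simp [Nat.factorization_eq_zero_of_not_dvd (show ¬ 2 ∣ 3465 by norm_num)]
  rw [card22, hfac] at hdeg
  have hdvd : 2 ^ 7 * (H75.deg χ / 2 ^ 7) = H75.deg χ := by
    have := Nat.ordProj_mul_ordCompl_eq_self (H75.deg χ) 2
    rwa [hdeg] at this
  have hodd : ¬ 2 ∣ H75.deg χ / 2 ^ 7 := by
    have := Nat.not_dvd_ordCompl Nat.prime_two (H75.deg_pos χ).ne'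
    rwa [hdeg] at this
  set k := H75.deg χ / 2 ^ 7 with hk
  -- the bound
  let N : ℕ → ℕ := fun q => if q = 5 then N5 else if q = 7 then N7 else N11
  have hN : ∀ p ∈ ({5, 7, 11} : Finset ℕ), ∀ g : Spor.M22, orderOf g = p →
      Complex.normSq ((χ : Spor.M22 → ℂ) g) = N p := by
    intro p hp g hg
    simp only [Finset.mem_insert, Finset.mem_singleton] at hp
    rcases hp with rfl | rfl | rfl
    · exact hN5 g hg
    · exact hN7 g hg
    · exact hN11 g hg
  have hlow := lower χ {5, 7, 11} (by decide) N hN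
  have hsum : ∑ p ∈ ({5, 7, 11} : Finset ℕ), Nat.card {g : Spor.M22 // orderOf g = p} * N p =
      Nat.card {g : Spor.M22 // orderOf g = 5} * N5 + (Nat.card {g : Spor.M22 // orderOf g = 7} * N7 +
        Nat.card {g : Spor.M22 // orderOf g = 11} * N11) := by
    rw [Finset.sum_insert (by decide), Finset.sum_insert (by decide), Finset.sum_singleton]
    rfl
  have e5 : Nat.card {g : Spor.M22 // orderOf g = 5} = 88704 := by omega
  have e7 : Nat.card {g : Spor.M22 // orderOf g = 7} = 126720 := by omega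
  have e11 : Nat.card {g : Spor.M22 // orderOf g = 11} = 80640 := by omega
  rw [hsum, e5, e7, e11, card22] at hlow
  rw [← hdvd] at c5 c7 c11 hlow
  rw [Nat.ModEq] at c5 c7 c11
  have hk5 : k ≤ 5 := by
    by_contra hcon
    have : 6 ≤ k := by omega
    have : 6 * 6 ≤ k * k := Nat.mul_le_mul this this
    have h2 : (2 ^ 7 * k) ^ 2 = 16384 * (k * k) := by ring
    omega
  have hk3 : k = 3 := by
    interval_cases k
    · omega
    · omega
    · omega
    · rfl
    · omega
    · omega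
  rw [hk3] at hlow c5 c7 c11
  have f5 : N5 = 1 := by omega
  have f7 : N7 = 1 := by omega
  have f11 : N11 = 1 := by omega
  have hd384 : H75.deg χ = 384 := by rw [← hdvd, hk3]; norm_num
  have hvan := vanish χ {5, 7, 11} (by decide) N hN
    (by rw [hsum, e5, e7, e11, card22, hd384, f5, f7, f11]; norm_num)
  rw [hd384] at hd
  obtain ⟨s5, d5, l5, u5, S5⟩ := sum_order n5 hχ hd hx5 (fun g hg => by rw [hN5 g hg, f5]; norm_num)
  obtain ⟨s7, d7, l7, u7, S7⟩ := sum_order n7 hχ hd hx7 (fun g hg => by rw [hN7 g hg, f7]; norm_num)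
  obtain ⟨s11, d11, l11, u11, S11⟩ := sum_order n11 hχ hd hx11 (fun g hg => by rw [hN11 g hg, f11]; norm_num)
  have hz : ∑ g : Spor.M22, (χ : Spor.M22 → ℂ) g = 0 := by
    have h1 : classInner (χ : Spor.M22 → ℂ) ((oneIrr Spor.M22 : IrrCharacter Spor.M22) : Spor.M22 → ℂ) = 0 := by
      apply classInner_irr_of_ne
      intro h
      have h2 : (χ : Spor.M22 → ℂ) 1 = 1 := by rw [h]; rfl
      rw [hd] at h2
      norm_num at h2
    unfold classInner at h1
    have h3 : (Nat.card Spor.M22 : ℂ)⁻¹ ≠ 0 := inv_ne_zero (by exact_mod_cast Nat.card_pos.ne')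
    have h4 := (mul_eq_zero.1 h1).resolve_left h3
    rw [← h4]
    refine Finset.sum_congr rfl fun g _ => ?_
    show _ = (χ : Spor.M22 → ℂ) g * conj (1 : ℂ)
    rw [map_one, mul_one]
  have hz2 : ∑ g ∈ Finset.univ.filter (fun g : Spor.M22 => orderOf g ∈ insert 1 ({5, 7, 11} : Finset ℕ)),
      (χ : Spor.M22 → ℂ) g = 0 := by
    rw [← hz]
    apply Finset.sum_subset (Finset.filter_subset _ _)
    intro g _ hg
    apply hvan
    intro h
    exact hg (Finset.mem_filter.2 ⟨Finset.mem_univ _, h⟩)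
  rw [sum_orders _ _ (by decide), Finset.sum_insert (by decide), Finset.sum_insert (by decide), Finset.sum_singleton,
    hd] at hz2
  rw [e5] at S5
  rw [e7] at S7
  rw [e11] at S11
  have hfin : ((384 + 22176 * s5 + 21120 * s7 + 8064 * s11 : ℤ) : ℂ) = 0 := by
    push_cast at S5 S7 S11 hz2 ⊢
    linear_combination hz2 - S5 / 4 - S7 / 6 - S11 / 10
  have hfin' : 384 + 22176 * s5 + 21120 * s7 + 8064 * s11 = 0 := by exact_mod_cast hfin
  push_cast at d5 l5 u5 d7 l7 u7 d11 l11 u11
  omega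

end M22

section M24

theorem card24 : Nat.card M24 = 244823040 := card_M24

theorem exists_elt24 {p : ℕ} (hp : p.Prime) (h : p ∣ 244823040) : ∃ x : M24, orderOf x = p := by
  have : Fact p.Prime := ⟨hp⟩
  exact exists_prime_orderOf_dvd_card' p (by rw [card24]; exact h)

theorem cent24_23 {x : M24} (hx : orderOf x = 23) :
    Nat.card (Subgroup.centralizer ({x} : Set M24)) = 23 := by
  rw [card_centralizer_eq]
  exact card_cen23 x.2 (by rw [Subgroup.orderOf_coe]; exact hx)

theorem cent24_11 {x : M24} (hx : orderOf x = 11) :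
    Nat.card (Subgroup.centralizer ({x} : Set M24)) = 11 := by
  rw [card_centralizer_eq]
  exact card_cen11 x.2 (by rw [Subgroup.orderOf_coe]; exact hx)

theorem cent24_7 {x : M24} (hx : orderOf x = 7) :
    Nat.card (Subgroup.centralizer ({x} : Set M24)) = 42 := by
  have h := (Cfsg.Agent.S5604.result (Subgroup.zpowers x) (by rw [Nat.card_zpowers, hx])).2.1
  rwa [Subgroup.zpowers_eq_closure, Subgroup.centralizer_closure] at h

theorem aut24_23 [Fact (Nat.Prime 23)] {x : M24} (hx : orderOf x = 23) : Nat.card (autS 23 x hx) = 11 := by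
  have h1 := autS_mod (p := 23) (by rw [card24]; norm_num) hx (m := 10644480) (c := 1) (by rw [card24])
    (by rw [cent24_23 hx])
  obtain ⟨h2, h3, _⟩ := card_autS_le hx
  rw [Nat.ModEq] at h1
  omega

theorem aut24_11 [Fact (Nat.Prime 11)] {x : M24} (hx : orderOf x = 11) : Nat.card (autS 11 x hx) = 10 := by
  have h1 := autS_mod (p := 11) (by rw [card24]; norm_num) hx (m := 22256640) (c := 1) (by rw [card24])
    (by rw [cent24_11 hx])
  obtain ⟨h2, h3, _⟩ := card_autS_le hx
  rw [Nat.ModEq] at h1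
  omega

theorem aut24_7 [Fact (Nat.Prime 7)] {x : M24} (hx : orderOf x = 7) : Nat.card (autS 7 x hx) = 3 := by
  have h1 := autS_mod (p := 7) (by rw [card24]; norm_num) hx (m := 34974720) (c := 6) (by rw [card24])
    (by rw [cent24_7 hx])
  obtain ⟨h2, h3, _⟩ := card_autS_le hx
  rw [Nat.ModEq] at h1
  omega

theorem exists_five [Fact (Nat.Prime 5)] : ∃ (x : M24) (hx : orderOf x = 5), Nat.card (autS 5 x hx) = 4 := by
  obtain ⟨y, hy⟩ := exists_elt22 (p := 5) (by norm_num) (by norm_num)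
  have hy4 := aut22_5 hy
  have hc : Nat.card (ZMod 5)ˣ = 4 := by rw [Nat.card_eq_fintype_card, ZMod.card_units]
  have htop : autS 5 y hy = ⊤ := by rw [← Subgroup.card_eq_iff_eq_top, hy4, hc]
  refine ⟨⟨(y : PG), M22_le y.2⟩, by rw [Subgroup.orderOf_mk, Subgroup.orderOf_coe]; exact hy, ?_⟩
  rw [← hc, Subgroup.card_eq_iff_eq_top, Subgroup.eq_top_iff']
  intro b
  rw [mem_autS]
  have h1 : b ∈ autS 5 y hy := by rw [htop]; exact Subgroup.mem_top _
  rw [mem_autS] at h1
  obtain ⟨c, hc⟩ := isConj_iff.1 h1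
  refine isConj_iff.2 ⟨⟨(c : PG), M22_le c.2⟩, Subtype.ext ?_⟩
  have h2 := congrArg (Subtype.val) hc
  exact h2

theorem no_defect_zero_M24 (χ : IrrCharacter M24) :
    (charDegree (χ : M24 → ℂ)).factorization 2 ≠ (Nat.card M24).factorization 2 := by
  classical
  intro hdeg
  have := Fintype.ofFinite M24
  have h5p : Fact (Nat.Prime 5) := ⟨by norm_num⟩
  have h7p : Fact (Nat.Prime 7) := ⟨by norm_num⟩
  have h11p : Fact (Nat.Prime 11) := ⟨by norm_num⟩
  have h23p : Fact (Nat.Prime 23) := ⟨by norm_num⟩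
  rw [H75.charDegree_eq_deg] at hdeg
  have hdeg' := hdeg
  have hd : (χ : M24 → ℂ) 1 = H75.deg χ := H75.deg_spec χ
  have hχ := irr_isCharacter χ
  obtain ⟨x5, hx5, a5⟩ := exists_five
  obtain ⟨x7, hx7⟩ := exists_elt24 (p := 7) (by norm_num) (by norm_num)
  obtain ⟨x11, hx11⟩ := exists_elt24 (p := 11) (by norm_num) (by norm_num)
  obtain ⟨x23, hx23⟩ := exists_elt24 (p := 23) (by norm_num) (by norm_num)
  have n5 : ¬ 5 ^ 2 ∣ Nat.card M24 := by rw [card24]; norm_num
  have n7 : ¬ 7 ^ 2 ∣ Nat.card M24 := by rw [card24]; norm_num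
  have n11 : ¬ 11 ^ 2 ∣ Nat.card M24 := by rw [card24]; norm_num
  have n23 : ¬ 23 ^ 2 ∣ Nat.card M24 := by rw [card24]; norm_num
  have a7 := aut24_7 hx7
  have a11 := aut24_11 hx11
  have a23 := aut24_23 hx23
  obtain ⟨c, hc24, hc12, hcc⟩ := card_cen5 x5.2 (by rw [Subgroup.orderOf_coe]; exact hx5)
  rw [← card_centralizer_eq] at hcc
  have m5 := autS_mod n5 hx5 (m := 48964608) (c := c) (by rw [card24]) hcc
  rw [a5, Nat.ModEq] at m5
  have hc' : c = 2 ∨ c = 12 := by
    have hc0 : 0 < c := Nat.pos_of_ne_zero (by rintro rfl; omega)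
    interval_cases c <;> omega
  have t5 := card_order_mul n5 hx5
  have t7 := card_order_mul n7 hx7
  have t11 := card_order_mul n11 hx11
  have t23 := card_order_mul n23 hx23
  rw [a5, hcc, card24] at t5
  rw [a7, cent24_7 hx7, card24] at t7
  rw [a11, cent24_11 hx11, card24] at t11
  rw [a23, cent24_23 hx23, card24] at t23
  obtain ⟨N5, hN5, c5⟩ := exists_normSq n5 hχ hd hx5 (Or.inl a5)
  obtain ⟨N7, hN7, c7⟩ := exists_normSq n7 hχ hd hx7 (Or.inr ⟨by rw [a7], by rw [a7]; decide⟩)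
  obtain ⟨N11, hN11, c11⟩ := exists_normSq n11 hχ hd hx11 (Or.inl a11)
  obtain ⟨N23, hN23, c23⟩ := exists_normSq n23 hχ hd hx23 (Or.inr ⟨by rw [a23], by rw [a23]; decide⟩)
  have h4 : 2 ^ (2 * 1) ∣ N5 := by
    refine pow_dvd_normSq Nat.prime_two χ hdeg' (x := x5) ?_ (hN5 x5 hx5)
    rw [hcc]
    rcases hc' with rfl | rfl <;> norm_num
  -- the degree
  have hfac : (244823040 : ℕ).factorization 2 = 10 := by
    rw [show (244823040 : ℕ) = 2 ^ 10 * 239085 by norm_num, Nat.factorization_mul (by norm_num) (by norm_num),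
      Nat.Prime.factorization_pow Nat.prime_two]
    simp [Nat.factorization_eq_zero_of_not_dvd (show ¬ 2 ∣ 239085 by norm_num)]
  rw [card24, hfac] at hdeg
  have hdvd : 2 ^ 10 * (H75.deg χ / 2 ^ 10) = H75.deg χ := by
    have := Nat.ordProj_mul_ordCompl_eq_self (H75.deg χ) 2
    rwa [hdeg] at this
  have hodd : ¬ 2 ∣ H75.deg χ / 2 ^ 10 := by
    have := Nat.not_dvd_ordCompl Nat.prime_two (H75.deg_pos χ).ne'
    rwa [hdeg] at this
  set k := H75.deg χ / 2 ^ 10 with hk
  let N : ℕ → ℕ := fun q => if q = 5 then N5 else if q = 7 then N7 else if q = 11 then N11 else N23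
  have hN : ∀ p ∈ ({5, 7, 11, 23} : Finset ℕ), ∀ g : M24, orderOf g = p →
      Complex.normSq ((χ : M24 → ℂ) g) = N p := by
    intro p hp g hg
    simp only [Finset.mem_insert, Finset.mem_singleton] at hp
    rcases hp with rfl | rfl | rfl | rfl
    · exact hN5 g hg
    · exact hN7 g hg
    · exact hN11 g hg
    · exact hN23 g hg
  have hlow := lower χ {5, 7, 11, 23} (by decide) N hN
  have hsum : ∑ p ∈ ({5, 7, 11, 23} : Finset ℕ), Nat.card {g : M24 // orderOf g = p} * N p =
      Nat.card {g : M24 // orderOf g = 5} * N5 + (Nat.card {g : M24 // orderOf g = 7} * N7 +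
        (Nat.card {g : M24 // orderOf g = 11} * N11 + Nat.card {g : M24 // orderOf g = 23} * N23)) := by
    rw [Finset.sum_insert (by decide), Finset.sum_insert (by decide), Finset.sum_insert (by decide),
      Finset.sum_singleton]
    rfl
  have e5 : 4080384 ≤ Nat.card {g : M24 // orderOf g = 5} := by
    rcases hc' with rfl | rfl <;> omega
  have e7 : Nat.card {g : M24 // orderOf g = 7} = 11658240 :=
    Nat.eq_of_mul_eq_mul_right (by norm_num : 0 < 3 * 42) (t7.trans (by norm_num))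
  have e11 : Nat.card {g : M24 // orderOf g = 11} = 22256640 :=
    Nat.eq_of_mul_eq_mul_right (by norm_num : 0 < 10 * 11) (t11.trans (by norm_num))
  have e23 : Nat.card {g : M24 // orderOf g = 23} = 21288960 :=
    Nat.eq_of_mul_eq_mul_right (by norm_num : 0 < 11 * 23) (t23.trans (by norm_num))
  rw [hsum, e7, e11, e23, card24] at hlow
  have hlow5 : 4080384 * N5 ≤ Nat.card {g : M24 // orderOf g = 5} * N5 := Nat.mul_le_mul_right _ e5
  rw [← hdvd] at c5 c7 c11 c23 hlow
  rw [Nat.ModEq] at c5 c7 c11 c23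
  obtain ⟨n, hn⟩ := h4
  norm_num at hn
  have hk5 : k ≤ 15 := by
    by_contra hcon
    have : 16 ≤ k := by omega
    have : 16 * 16 ≤ k * k := Nat.mul_le_mul this this
    have h2 : (2 ^ 10 * k) ^ 2 = 1048576 * (k * k) := by ring
    omega
  generalize Nat.card {g : M24 // orderOf g = 5} * N5 = W at hlow hlow5
  clear hN hsum N t5 t7 t11 t23 e5 e7 e11 e23 hN5 hN7 hN11 hN23
  clear_value k
  interval_cases k <;> omega

end M24

end Cfsg.Agent.H10.MathDeg
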