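import Cfsg.Agent.H10.PrimeClass
import Cfsg.Agent.H90.M24Fix
import Cfsg.Agent.Golay.OrbThree
import Cfsg.Agent.H90.OutMathieu
import Cfsg.Agent.H90.MathieuIdx
import Cfsg.Agent.S5604
import Cfsg.Agent.S5607
import Cfsg.Agent.S5601

/-!
# Centralizers of elements of prime order `≥ 5` in `M24` and `M22` (helper10)
-/

set_option autoImplicit false
set_option linter.unusedSectionVars false

namespace Cfsg.Agent.H10.MathOrd

open Cfsg Cfsg.Agent.Golay Cfsg.Agent.Golay.Orb Cfsg.Agent.H90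

abbrev PG := Equiv.Perm GolayPt

theorem fix3 {y : PG} (hy : y ∈ M24) (h : orderOf y = 3) : (fixS y).card = 6 ∨ (fixS y).card = 0 := by
  have h3 : y ^ 3 = 1 := by rw [← h]; exact pow_orderOf_eq_one y
  have hne : y ≠ 1 := by rintro rfl; rw [orderOf_one] at h; omega
  obtain ⟨g, hg, h1 | h1⟩ := three_classify hy h3 hne
  · left
    have h2 := fixCount_spec h1
    rw [fixCount_conj, fixCount_tab36] at h2
    exact h2
  · right
    have h2 := fixCount_spec h1
    rw [fixCount_conj, fixCount_tab30] at h2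
    exact h2

theorem fix2 {y : PG} (hy : y ∈ M24) (h : orderOf y = 2) : (fixS y).card = 8 ∨ (fixS y).card = 0 := by
  have h3 : y * y = 1 := by rw [← sq, ← h]; exact pow_orderOf_eq_one y
  have hne : y ≠ 1 := by rintro rfl; rw [orderOf_one] at h; omega
  exact inv_fix_card hy h3 hne

/-- the fixed points of two commuting elements of prime orders `p` and `q` -/
theorem pair {x y : PG} {p q : ℕ} (hp : p.Prime) (hq : q.Prime) (hx : orderOf x = p) (hy : orderOf y = q)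
    (hc : x * y = y * x) :
    (fixS x).card ≡ (fixS x ∩ fixS y).card [MOD q] ∧ (fixS y).card ≡ (fixS x ∩ fixS y).card [MOD p] ∧
      (fixS x ∩ fixS y).card ≤ (fixS x).card ∧ (fixS x ∩ fixS y).card ≤ (fixS y).card := by
  refine ⟨?_, ?_, Finset.card_le_card Finset.inter_subset_left, Finset.card_le_card Finset.inter_subset_right⟩
  · refine fix_in_mod hq (by rw [← hy]; exact pow_orderOf_eq_one y) (fixS x) ?_
    intro a ha
    rw [mem_fixS] at ha ⊢
    have := congrArg (fun z : PG => z a) hc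
    simp only [Equiv.Perm.mul_apply] at this
    rw [this, ha]
  · rw [Finset.inter_comm]
    refine fix_in_mod hp (by rw [← hx]; exact pow_orderOf_eq_one x) (fixS y) ?_
    intro a ha
    rw [mem_fixS] at ha ⊢
    have := congrArg (fun z : PG => z a) hc
    simp only [Equiv.Perm.mul_apply] at this
    rw [← this, ha]

theorem prime_dvd_M24 {q : ℕ} (hq : q.Prime) (h : q ∣ 244823040) :
    q = 2 ∨ q = 3 ∨ q = 5 ∨ q = 7 ∨ q = 11 ∨ q = 23 := by
  have e : 244823040 = 2 ^ 10 * (3 ^ 3 * (5 * (7 * (11 * 23)))) := by norm_num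
  rw [e] at h
  rcases (Nat.Prime.dvd_mul hq).1 h with h | h
  · exact Or.inl ((Nat.prime_dvd_prime_iff_eq hq Nat.prime_two).1 (hq.dvd_of_dvd_pow h))
  rcases (Nat.Prime.dvd_mul hq).1 h with h | h
  · exact Or.inr (Or.inl ((Nat.prime_dvd_prime_iff_eq hq Nat.prime_three).1 (hq.dvd_of_dvd_pow h)))
  rcases (Nat.Prime.dvd_mul hq).1 h with h | h
  · exact Or.inr (Or.inr (Or.inl ((Nat.prime_dvd_prime_iff_eq hq Nat.prime_five).1 h)))
  rcases (Nat.Prime.dvd_mul hq).1 h with h | h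
  · exact Or.inr (Or.inr (Or.inr (Or.inl ((Nat.prime_dvd_prime_iff_eq hq (by norm_num)).1 h))))
  rcases (Nat.Prime.dvd_mul hq).1 h with h | h
  · exact Or.inr (Or.inr (Or.inr (Or.inr (Or.inl ((Nat.prime_dvd_prime_iff_eq hq (by norm_num)).1 h)))))
  · exact Or.inr (Or.inr (Or.inr (Or.inr (Or.inr ((Nat.prime_dvd_prime_iff_eq hq (by norm_num)).1 h)))))

/-- the number of fixed points of an element of prime order of `M24` -/
theorem fix_cases {y : PG} (hy : y ∈ M24) {q : ℕ} (hq : q.Prime) (h : orderOf y = q) :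
    (q = 2 ∧ ((fixS y).card = 8 ∨ (fixS y).card = 0)) ∨ (q = 3 ∧ ((fixS y).card = 6 ∨ (fixS y).card = 0)) ∨
    (q = 5 ∧ (fixS y).card = 4) ∨ (q = 7 ∧ (fixS y).card = 3) ∨ (q = 11 ∧ (fixS y).card = 2) ∨
    (q = 23 ∧ (fixS y).card = 1) := by
  have h1 : q ∣ 244823040 := by
    rw [← card_M24, ← h]
    have := orderOf_dvd_natCard (⟨y, hy⟩ : M24)
    rwa [Subgroup.orderOf_mk] at this
  rcases prime_dvd_M24 hq h1 with rfl | rfl | rfl | rfl | rfl | rfl
  · exact Or.inl ⟨rfl, fix2 hy h⟩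
  · exact Or.inr (Or.inl ⟨rfl, fix3 hy h⟩)
  · exact Or.inr (Or.inr (Or.inl ⟨rfl, fix_order5 hy h⟩))
  · exact Or.inr (Or.inr (Or.inr (Or.inl ⟨rfl, fix_order7 hy h⟩)))
  · exact Or.inr (Or.inr (Or.inr (Or.inr (Or.inl ⟨rfl, fix_order11 hy h⟩))))
  · exact Or.inr (Or.inr (Or.inr (Or.inr (Or.inr ⟨rfl, fix_order23 hy h⟩))))

/-- the centralizer of an element in a subgroup, as a subgroup of the symmetric group -/
def cen (K : Subgroup PG) (x : PG) : Subgroup PG := K ⊓ Subgroup.centralizer ({x} : Set PG)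

theorem mem_cen {K : Subgroup PG} {x y : PG} : y ∈ cen K x ↔ y ∈ K ∧ y * x = x * y := by
  unfold cen
  rw [Subgroup.mem_inf]
  exact and_congr_right fun _ => Subgroup.mem_centralizer_singleton_iff

theorem card_centralizer_eq {K : Subgroup PG} (x : K) :
    Nat.card (Subgroup.centralizer ({x} : Set K)) = Nat.card (cen K (x : PG)) := by
  refine Nat.card_congr ⟨fun y => ⟨((y : K) : PG), mem_cen.2 ⟨(y : K).2, ?_⟩⟩,
    fun y => ⟨⟨(y : PG), (mem_cen.1 y.2).1⟩, ?_⟩, fun _ => rfl, fun _ => rfl⟩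
  · have := Subgroup.mem_centralizer_singleton_iff.1 y.2
    exact congrArg Subtype.val this
  · rw [Subgroup.mem_centralizer_singleton_iff]
    exact Subtype.ext (mem_cen.1 y.2).2

theorem card_dvd_M24 {K : Subgroup PG} (hK : K ≤ M24) : Nat.card K ∣ 244823040 := by
  rw [← card_M24]
  exact Subgroup.card_dvd_of_le hK

theorem not_sq_dvd {p : ℕ} (h : p = 5 ∨ p = 7 ∨ p = 11 ∨ p = 23) : ¬ p ^ 2 ∣ 244823040 := by
  rcases h with rfl | rfl | rfl | rfl <;> norm_num

/-- a subgroup `L` of `M24` of elements commuting with `x ∈ L` of order `p`, with no element of another prime order -/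
theorem card_eq_of {L : Subgroup PG} (hL : L ≤ M24) {x : PG} (hxL : x ∈ L) {p : ℕ} (hp : p.Prime) (hx : orderOf x = p)
    (h5 : p = 5 ∨ p = 7 ∨ p = 11 ∨ p = 23) (h : ∀ y ∈ L, ∀ q, q.Prime → orderOf y = q → q = p) : Nat.card L = p := by
  have h0 : Nat.card L ≠ 0 := Nat.card_pos.ne'
  have hd : p ∣ Nat.card L := by
    have := orderOf_dvd_natCard (⟨x, hxL⟩ : L)
    rwa [Subgroup.orderOf_mk, hx] at this
  refine card_eq_prime_of_unique (card_dvd_M24 hL) hp hd (not_sq_dvd h5) h0 ?_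
  intro q hq hqd
  obtain ⟨y, hy, hyo⟩ := exists_order hq hqd
  exact h y hy q hq hyo

theorem card_cen23 {x : PG} (hx : x ∈ M24) (h : orderOf x = 23) : Nat.card (cen M24 x) = 23 := by
  refine card_eq_of (L := cen M24 x) inf_le_left (mem_cen.2 ⟨hx, rfl⟩) (by norm_num) h (by norm_num) ?_
  intro y hy q hq hyo
  obtain ⟨hyM, hyc⟩ := mem_cen.1 hy
  obtain ⟨h1, h2, h3, h4⟩ := pair (by norm_num : Nat.Prime 23) hq h hyo hyc.symm
  have h5 := fix_order23 hx h
  rw [Nat.ModEq] at h1 h2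
  rcases fix_cases hyM hq hyo with ⟨rfl, h6 | h6⟩ | ⟨rfl, h6 | h6⟩ | ⟨rfl, h6⟩ | ⟨rfl, h6⟩ | ⟨rfl, h6⟩ | ⟨rfl, h6⟩
  all_goals first
    | rfl
    | (exfalso; omega)

theorem card_cen11 {x : PG} (hx : x ∈ M24) (h : orderOf x = 11) : Nat.card (cen M24 x) = 11 := by
  refine card_eq_of (L := cen M24 x) inf_le_left (mem_cen.2 ⟨hx, rfl⟩) (by norm_num) h (by norm_num) ?_
  intro y hy q hq hyo
  obtain ⟨hyM, hyc⟩ := mem_cen.1 hy
  obtain ⟨h1, h2, h3, h4⟩ := pair (by norm_num : Nat.Prime 11) hq h hyo hyc.symm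
  have h5 := fix_order11 hx h
  rw [Nat.ModEq] at h1 h2
  rcases fix_cases hyM hq hyo with ⟨rfl, h6 | h6⟩ | ⟨rfl, h6 | h6⟩ | ⟨rfl, h6⟩ | ⟨rfl, h6⟩ | ⟨rfl, h6⟩ | ⟨rfl, h6⟩
  all_goals first
    | rfl
    | (exfalso; omega)
    | skip
  -- `y` is a fixed point free involution
  exfalso
  have hfp : ∀ p, y p ≠ p := by
    intro p hp
    have : p ∈ fixS y := mem_fixS.2 hp
    rw [Finset.card_eq_zero.1 h6] at this
    exact absurd this (Finset.notMem_empty p)
  have h7 := (Cfsg.Agent.S5607.result y hyM hyo hfp).1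
  have h8 : 11 ∣ 7680 := by
    rw [← h7]
    have e : {c : PG // c ∈ M24 ∧ c * y = y * c} ≃ cen M24 y :=
      ⟨fun c => ⟨c.1, mem_cen.2 c.2⟩, fun c => ⟨c.1, mem_cen.1 c.2⟩, fun _ => rfl, fun _ => rfl⟩
    rw [Nat.card_congr e, ← h]
    have h9 := orderOf_dvd_natCard (⟨x, mem_cen.2 ⟨hx, hyc.symm⟩⟩ : cen M24 y)
    rwa [Subgroup.orderOf_mk] at h9
  omega

theorem two_le_inter {x y : PG} (hx : x ∈ Spor.M22) (hy : y ∈ Spor.M22) : 2 ≤ (fixS x ∩ fixS y).card := by
  obtain ⟨⟨_, h1⟩, h2⟩ := mem_M22_iff.1 hx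
  obtain ⟨⟨_, h3⟩, h4⟩ := mem_M22_iff.1 hy
  have h5 : ({none, some 0} : Finset GolayPt) ⊆ fixS x ∩ fixS y := by
    intro a ha
    rw [Finset.mem_insert, Finset.mem_singleton] at ha
    rw [Finset.mem_inter, mem_fixS, mem_fixS]
    rcases ha with rfl | rfl
    · exact ⟨h1, h3⟩
    · exact ⟨h2, h4⟩
  calc 2 = ({none, some 0} : Finset GolayPt).card := by rw [Finset.card_pair]; simp
    _ ≤ _ := Finset.card_le_card h5

theorem M22_le : Spor.M22 ≤ M24 := fun x hx => (mem_M22_iff.1 hx).1.1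

theorem card_cen_M22 {x : PG} {p : ℕ} (hp : p = 5 ∨ p = 7 ∨ p = 11) (hx : x ∈ Spor.M22) (h : orderOf x = p) :
    Nat.card (cen Spor.M22 x) = p := by
  have hpp : p.Prime := by rcases hp with rfl | rfl | rfl <;> norm_num
  refine card_eq_of (L := cen Spor.M22 x) (inf_le_left.trans M22_le) (mem_cen.2 ⟨hx, rfl⟩) hpp h
    (by rcases hp with rfl | rfl | rfl <;> norm_num) ?_
  intro y hy q hq hyo
  obtain ⟨hyM, hyc⟩ := mem_cen.1 hy
  obtain ⟨h1, h2, h3, h4⟩ := pair hpp hq h hyo hyc.symm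
  have h5 := two_le_inter hx hyM
  have hxM := M22_le hx
  rw [Nat.ModEq] at h1 h2
  rcases hp with rfl | rfl | rfl
  · have h7 := fix_order5 hxM h
    rcases fix_cases (M22_le hyM) hq hyo with ⟨rfl, h6 | h6⟩ | ⟨rfl, h6 | h6⟩ | ⟨rfl, h6⟩ | ⟨rfl, h6⟩ | ⟨rfl, h6⟩ | ⟨rfl, h6⟩
    all_goals first
      | rfl
      | (exfalso; omega)
  · have h7 := fix_order7 hxM h
    rcases fix_cases (M22_le hyM) hq hyo with ⟨rfl, h6 | h6⟩ | ⟨rfl, h6 | h6⟩ | ⟨rfl, h6⟩ | ⟨rfl, h6⟩ | ⟨rfl, h6⟩ | ⟨rfl, h6⟩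
    all_goals first
      | rfl
      | (exfalso; omega)
  · have h7 := fix_order11 hxM h
    rcases fix_cases (M22_le hyM) hq hyo with ⟨rfl, h6 | h6⟩ | ⟨rfl, h6 | h6⟩ | ⟨rfl, h6⟩ | ⟨rfl, h6⟩ | ⟨rfl, h6⟩ | ⟨rfl, h6⟩
    all_goals first
      | rfl
      | (exfalso; omega)

/-- an involution commuting with an element of order 5 has no fixed point -/
theorem inv_comm_five {x t : PG} (hx : x ∈ M24) (h : orderOf x = 5) (ht : t ∈ M24) (h2 : orderOf t = 2)
    (hc : x * t = t * x) : (fixS t).card = 0 := by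
  obtain ⟨h1, h3, h4, h5⟩ := pair (by norm_num : Nat.Prime 5) Nat.prime_two h h2 hc
  have h7 := fix_order5 hx h
  rw [Nat.ModEq] at h1 h3
  rcases fix2 ht h2 with h6 | h6 <;> omega

/-- the elements of the centralizer of `x` fixing all fixed points of `x` -/
def ker5 (x : PG) : Subgroup PG where
  carrier := {y | y ∈ cen M24 x ∧ ∀ a ∈ fixS x, y a = a}
  one_mem' := ⟨one_mem _, fun _ _ => rfl⟩
  mul_mem' := by
    rintro y z ⟨hy, hy'⟩ ⟨hz, hz'⟩
    refine ⟨mul_mem hy hz, fun a ha => ?_⟩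
    rw [Equiv.Perm.mul_apply, hz' a ha, hy' a ha]
  inv_mem' := by
    rintro y ⟨hy, hy'⟩
    refine ⟨inv_mem hy, fun a ha => ?_⟩
    rw [Equiv.Perm.inv_eq_iff_eq]
    exact (hy' a ha).symm

theorem mem_ker5 {x y : PG} : y ∈ ker5 x ↔ y ∈ cen M24 x ∧ ∀ a ∈ fixS x, y a = a := Iff.rfl

theorem card_ker5 {x : PG} (hx : x ∈ M24) (h : orderOf x = 5) : Nat.card (ker5 x) = 5 := by
  refine card_eq_of (L := ker5 x) (fun y hy => (mem_cen.1 (mem_ker5.1 hy).1).1)
    (mem_ker5.2 ⟨mem_cen.2 ⟨hx, rfl⟩, fun a ha => mem_fixS.1 ha⟩) (by norm_num) h (by norm_num) ?_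
  intro y hy q hq hyo
  obtain ⟨hy1, hy2⟩ := mem_ker5.1 hy
  obtain ⟨hyM, hyc⟩ := mem_cen.1 hy1
  obtain ⟨h1, h2, h3, h4⟩ := pair (by norm_num : Nat.Prime 5) hq h hyo hyc.symm
  have h5 := fix_order5 hx h
  have h6 : fixS x ∩ fixS y = fixS x := by
    rw [Finset.inter_eq_left]
    intro a ha
    exact mem_fixS.2 (hy2 a ha)
  rw [h6] at h2 h4
  rw [Nat.ModEq] at h2
  rcases fix_cases hyM hq hyo with ⟨rfl, h6 | h6⟩ | ⟨rfl, h6 | h6⟩ | ⟨rfl, h6⟩ | ⟨rfl, h6⟩ | ⟨rfl, h6⟩ | ⟨rfl, h6⟩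
  all_goals first
    | rfl
    | (exfalso; omega)

/-- the action of the centralizer of `x` on the fixed points of `x` -/
noncomputable def act5 (x : PG) : cen M24 x →* Equiv.Perm (fixS x) where
  toFun y :=
    { toFun := fun a => ⟨(y : PG) a, by
        have hc := (mem_cen.1 y.2).2
        have := congrArg (fun z : PG => z a) hc
        simp only [Equiv.Perm.mul_apply] at this
        rw [mem_fixS, ← this, mem_fixS.1 a.2]⟩
      invFun := fun a => ⟨(y : PG)⁻¹ a, by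
        have hc := (mem_cen.1 (inv_mem y.2 : ((y : PG)⁻¹) ∈ cen M24 x)).2
        have := congrArg (fun z : PG => z a) hc
        simp only [Equiv.Perm.mul_apply] at this
        rw [mem_fixS, ← this, mem_fixS.1 a.2]⟩
      left_inv := fun a => Subtype.ext (by simp)
      right_inv := fun a => Subtype.ext (by simp) }
  map_one' := by ext a; rfl
  map_mul' y z := by ext a; rfl

theorem act5_apply {x : PG} (y : cen M24 x) (a : fixS x) : ((act5 x y a : fixS x) : GolayPt) = (y : PG) a := rfl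

theorem card_ker_act5 {x : PG} (hx : x ∈ M24) (h : orderOf x = 5) : Nat.card (act5 x).ker = 5 := by
  rw [← card_ker5 hx h]
  refine Nat.card_congr ⟨fun y => ⟨((y : cen M24 x) : PG), mem_ker5.2 ⟨(y : cen M24 x).2, ?_⟩⟩,
    fun y => ⟨⟨(y : PG), (mem_ker5.1 y.2).1⟩, ?_⟩, fun _ => rfl, fun _ => rfl⟩
  · intro a ha
    have h1 := MonoidHom.mem_ker.1 y.2
    have h2 := congrArg (fun z : Equiv.Perm (fixS x) => ((z ⟨a, ha⟩ : fixS x) : GolayPt)) h1
    exact h2
  · rw [MonoidHom.mem_ker]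
    exact Equiv.ext fun a => Subtype.ext ((mem_ker5.1 y.2).2 a a.2)

theorem card_range_act5 {x : PG} (hx : x ∈ M24) (h : orderOf x = 5) :
    Nat.card (cen M24 x) = 5 * Nat.card (act5 x).range := by
  rw [← card_ker_act5 hx h]
  have h1 := Subgroup.card_mul_index (act5 x).ker
  rw [Subgroup.index_ker] at h1
  exact h1.symm

theorem card_perm_fix {x : PG} (hx : x ∈ M24) (h : orderOf x = 5) : Nat.card (Equiv.Perm (fixS x)) = 24 := by
  rw [Nat.card_eq_fintype_card, Fintype.card_perm, Fintype.card_coe, fix_order5 hx h]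
  rfl

theorem range_act5_ne_top {x : PG} (hx : x ∈ M24) (h : orderOf x = 5) : (act5 x).range ≠ ⊤ := by
  intro htop
  have h4 := fix_order5 hx h
  -- a transposition of the fixed points
  have h1 : 1 < (fixS x).card := by omega
  obtain ⟨a, ha, b, hb, hab⟩ := Finset.one_lt_card.1 h1
  obtain ⟨c, hc⟩ : ∃ c ∈ fixS x, c ≠ a ∧ c ≠ b := by
    by_contra hcon
    push Not at hcon
    have h2 : fixS x ⊆ {a, b} := by
      intro c hc
      rw [Finset.mem_insert, Finset.mem_singleton]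
      by_cases hca : c = a
      · exact Or.inl hca
      · exact Or.inr (hcon c hc hca)
    have h3 := Finset.card_le_card h2
    have h5 := Finset.card_le_two (a := a) (b := b)
    omega
  obtain ⟨y, hy⟩ : Equiv.swap (⟨a, ha⟩ : fixS x) ⟨b, hb⟩ ∈ (act5 x).range := by rw [htop]; trivial
  set t : cen M24 x := y ^ 5 with ht
  have hswap5 : act5 x t = Equiv.swap (⟨a, ha⟩ : fixS x) ⟨b, hb⟩ := by
    rw [ht, map_pow, hy]
    have h2 : (Equiv.swap (⟨a, ha⟩ : fixS x) ⟨b, hb⟩) ^ 2 = 1 := by rw [sq, Equiv.swap_mul_self]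
    calc _ = ((Equiv.swap (⟨a, ha⟩ : fixS x) ⟨b, hb⟩) ^ 2) ^ 2 * Equiv.swap (⟨a, ha⟩ : fixS x) ⟨b, hb⟩ := by
          rw [← pow_mul, ← pow_succ]
      _ = _ := by rw [h2, one_pow, one_mul]
  have ht2 : (t : PG) ^ 2 = 1 := by
    have h6 : y ^ 2 ∈ (act5 x).ker := by
      rw [MonoidHom.mem_ker, map_pow, hy, sq, Equiv.swap_mul_self]
    have h7 := orderOf_dvd_natCard (⟨y ^ 2, h6⟩ : (act5 x).ker)
    rw [card_ker_act5 hx h, Subgroup.orderOf_mk, orderOf_dvd_iff_pow_eq_one, ← pow_mul] at h7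
    have h8 : t ^ 2 = 1 := by rw [ht, ← pow_mul]; exact h7
    have := congrArg Subtype.val h8
    simpa using this
  have htne : (t : PG) ≠ 1 := by
    intro h0
    have h9 : t = 1 := Subtype.ext h0
    rw [h9, map_one] at hswap5
    have h10 := congrArg (fun z : Equiv.Perm (fixS x) => z ⟨a, ha⟩) hswap5
    simp only [Equiv.Perm.one_apply, Equiv.swap_apply_left] at h10
    exact hab (congrArg Subtype.val h10)
  have hto : orderOf (t : PG) = 2 := orderOf_eq_prime ht2 htne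
  obtain ⟨htM, htc⟩ := mem_cen.1 t.2
  have h0 := inv_comm_five hx h htM hto htc.symm
  have h11 : c ∈ fixS (t : PG) := by
    rw [mem_fixS]
    have h12 := act5_apply t ⟨c, hc.1⟩
    rw [hswap5, Equiv.swap_apply_of_ne_of_ne] at h12
    · exact h12.symm
    · intro h; exact hc.2.1 (congrArg Subtype.val h)
    · intro h; exact hc.2.2 (congrArg Subtype.val h)
  rw [Finset.card_eq_zero.1 h0] at h11
  exact absurd h11 (Finset.notMem_empty c)

/-- The centralizer in `M24` of an element of order 5 has order `5c` with `c ∣ 24`, `c ≤ 12`. -/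
theorem card_cen5 {x : PG} (hx : x ∈ M24) (h : orderOf x = 5) :
    ∃ c, c ∣ 24 ∧ c ≤ 12 ∧ Nat.card (cen M24 x) = 5 * c := by
  refine ⟨Nat.card (act5 x).range, ?_, ?_, card_range_act5 hx h⟩
  · rw [← card_perm_fix hx h]
    exact Subgroup.card_subgroup_dvd_card _
  · have h1 : Nat.card (act5 x).range ∣ 24 := by
      rw [← card_perm_fix hx h]
      exact Subgroup.card_subgroup_dvd_card _
    have h2 : Nat.card (act5 x).range ≠ 24 := by
      intro h3
      apply range_act5_ne_top hx h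
      rw [← Subgroup.card_eq_iff_eq_top, h3, card_perm_fix hx h]
    obtain ⟨k, hk⟩ := h1
    have hk2 : 2 ≤ k := by
      rcases k with _ | _ | k
      · omega
      · omega
      · omega
    nlinarith [Nat.card_pos (α := (act5 x).range)]

end Cfsg.Agent.H10.MathOrd
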