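import Cfsg.Agent.Golay.OrbCent0
import Cfsg.Agent.Golay.Octad
import Cfsg.Agent.H10.MathOrd
import Cfsg.Agent.H10.OneBlock

/-!
# Centralizers of involutions of `M24` and `M22`: the local condition for one 2-block (helper10)
-/

set_option autoImplicit false
set_option linter.unusedSectionVars false

namespace Cfsg.Agent.H10.MathLoc

open Cfsg Cfsg.Agent.Golay Cfsg.Agent.Golay.Orb Cfsg.Agent.H90 Cfsg.Agent.H10.MathOrd
open scoped Pointwise

/-- the local condition at an element `t` -/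
def Loc {G : Type*} [Group G] (p : ℕ) (t : G) : Prop :=
  ∃ R : Subgroup G, IsPGroup p R ∧ R ≤ Subgroup.centralizer ({t} : Set G) ∧
    Subgroup.centralizer ({t} : Set G) ≤ Subgroup.normalizer (R : Set G) ∧
    ∀ x ∈ Subgroup.centralizer ({t} : Set G), x ∈ Subgroup.centralizer (R : Set G) → x ≠ 1 → p ∣ orderOf x

theorem orderOf_conj {G : Type*} [Group G] (g x : G) : orderOf (g⁻¹ * x * g) = orderOf x := by
  have h := orderOf_injective (MulAut.conj g⁻¹).toMonoidHom (MulAut.conj g⁻¹).injective x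
  have h1 : (MulAut.conj g⁻¹).toMonoidHom x = g⁻¹ * x * g := by
    show g⁻¹ * x * g⁻¹⁻¹ = _
    rw [inv_inv]
  rw [← h, h1]

theorem Loc.conj {G : Type*} [Group G] [Finite G] {p : ℕ} {t : G} (h : Loc p t) (g : G) : Loc p (g * t * g⁻¹) := by
  obtain ⟨R, h1, h2, h3, h4⟩ := h
  have hmem : ∀ x : G, x ∈ R.map (MulAut.conj g).toMonoidHom ↔ g⁻¹ * x * g ∈ R := fun x => Blk.mem_map_conj_iff R g x
  have hcen : ∀ x : G, x ∈ Subgroup.centralizer ({g * t * g⁻¹} : Set G) →
      g⁻¹ * x * g ∈ Subgroup.centralizer ({t} : Set G) := by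
    intro x hx
    rw [Subgroup.mem_centralizer_singleton_iff] at hx ⊢
    calc g⁻¹ * x * g * t = g⁻¹ * (x * (g * t * g⁻¹)) * g := by group
      _ = g⁻¹ * ((g * t * g⁻¹) * x) * g := by rw [hx]
      _ = t * (g⁻¹ * x * g) := by group
  refine ⟨R.map (MulAut.conj g).toMonoidHom, h1.map _, ?_, ?_, ?_⟩
  · intro x hx
    rw [hmem] at hx
    have := Subgroup.mem_centralizer_singleton_iff.1 (h2 hx)
    rw [Subgroup.mem_centralizer_singleton_iff]
    calc x * (g * t * g⁻¹) = g * ((g⁻¹ * x * g) * t) * g⁻¹ := by group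
      _ = g * (t * (g⁻¹ * x * g)) * g⁻¹ := by rw [this]
      _ = _ := by group
  · intro c hc
    have h5 := h3 (hcen c hc)
    rw [Subgroup.mem_normalizer_iff] at h5 ⊢
    intro y
    rw [hmem, hmem]
    have h6 := h5 (g⁻¹ * y * g)
    have h7 : g⁻¹ * c * g * (g⁻¹ * y * g) * (g⁻¹ * c * g)⁻¹ = g⁻¹ * (c * y * c⁻¹) * g := by group
    rwa [h7] at h6
  · intro x hx hxR hx1
    rw [← orderOf_conj g x]
    refine h4 _ (hcen x hx) ?_ ?_
    · rw [Subgroup.mem_centralizer_iff] at hxR ⊢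
      intro r hr
      have h5 := hxR (g * r * g⁻¹) (by
        rw [SetLike.mem_coe, hmem]
        have : g⁻¹ * (g * r * g⁻¹) * g = r := by group
        rw [this]; exact hr)
      calc r * (g⁻¹ * x * g) = g⁻¹ * ((g * r * g⁻¹) * x) * g := by group
        _ = g⁻¹ * (x * (g * r * g⁻¹)) * g := by rw [h5]
        _ = _ := by group
    · intro h
      apply hx1
      calc x = g * (g⁻¹ * x * g) * g⁻¹ := by group
        _ = 1 := by rw [h]; group

/-- an element of odd order is trivial as soon as it has no power of odd prime order -/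
theorem two_dvd_of {G : Type*} [Group G] [Finite G] (S : Subgroup G)
    (h : ∀ y ∈ S, ∀ q, q.Prime → q ≠ 2 → orderOf y = q → False) {x : G} (hx : x ∈ S) (hx1 : x ≠ 1) :
    2 ∣ orderOf x := by
  by_contra hodd
  have h1 : orderOf x ≠ 1 := fun h => hx1 (orderOf_eq_one_iff.1 h)
  obtain ⟨q, hq, hqd⟩ := Nat.exists_prime_and_dvd h1
  have hq2 : q ≠ 2 := by rintro rfl; exact hodd hqd
  have h2 : orderOf (x ^ (orderOf x / q)) = q := by
    have h3 := orderOf_pow_of_dvd (x := x) (n := orderOf x / q)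
      (Nat.div_pos (Nat.le_of_dvd (orderOf_pos x) hqd) hq.pos).ne' (Nat.div_dvd_of_dvd hqd)
    rw [h3]
    exact Nat.div_div_self hqd (orderOf_pos x).ne'
  exact h _ (pow_mem hx _) q hq hq2 h2

section A

theorem comm_apply {x y : PG} (h : x * y = y * x) (p : GolayPt) : x (y p) = y (x p) := by
  have := congrArg (fun z : PG => z p) h
  simpa only [Equiv.Perm.mul_apply] using this

theorem fixS_octad {t : PG} (ht : t ∈ M24) (h2 : orderOf t = 2) (h0 : (fixS t).card ≠ 0) : fixS t ∈ octads := by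
  obtain ⟨p, hp⟩ := Finset.card_pos.1 (Nat.pos_of_ne_zero h0)
  have h3 : t * t = 1 := by rw [← sq, ← h2]; exact pow_orderOf_eq_one t
  have hne : t ≠ 1 := by rintro rfl; rw [orderOf_one] at h2; omega
  exact inv_fix_octad ht h3 hne (mem_fixS.1 hp)

theorem mem_fixM24_self {t : PG} (ht : t ∈ M24) : t ∈ fixM24 (fixS t) :=
  mem_fixM24.2 ⟨ht, fun _ hp => mem_fixS.1 hp⟩

theorem fixM24_comm {o : Finset GolayPt} (ho : o ∈ octads) {σ τ : PG} (hσ : σ ∈ fixM24 o) (hτ : τ ∈ fixM24 o) :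
    σ * τ = τ * σ := by
  have h1 := fixM24_octad_square ho hσ
  have h2 := fixM24_octad_square ho hτ
  have h3 := fixM24_octad_square ho (mul_mem hσ hτ)
  calc σ * τ = σ⁻¹ * τ⁻¹ := by rw [inv_eq_of_mul_eq_one_right h1, inv_eq_of_mul_eq_one_right h2]
    _ = (τ * σ)⁻¹ := by rw [mul_inv_rev]
    _ = τ * σ := inv_eq_of_mul_eq_one_right (fixM24_octad_square ho (mul_mem hτ hσ))

theorem card_octad {o : Finset GolayPt} (ho : o ∈ octads) : o.card = 8 := ho.2

theorem card_compl_octad {o : Finset GolayPt} (ho : o ∈ octads) : (oᶜ : Finset GolayPt).card = 16 := by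
  rw [Finset.card_compl, card_octad ho]
  rfl

/-- no element of odd prime order centralizes `t` and the pointwise stabilizer of the octad of `t` -/
theorem no_odd_A {t : PG} (ht : t ∈ M24) (h2 : orderOf t = 2) (h0 : (fixS t).card ≠ 0) {y : PG} (hy : y ∈ M24)
    {q : ℕ} (hq : q.Prime) (hq2 : q ≠ 2) (hyo : orderOf y = q) (hyt : y * t = t * y)
    (hyR : ∀ σ ∈ fixM24 (fixS t), y * σ = σ * y) : False := by
  classical
  have ho := fixS_octad ht h2 h0
  set o := fixS t with hodef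
  have hyq : y ^ q = 1 := by rw [← hyo]; exact pow_orderOf_eq_one y
  have hpres : ∀ a ∈ (oᶜ : Finset GolayPt), y a ∈ (oᶜ : Finset GolayPt) := by
    intro a ha
    rw [Finset.mem_compl, hodef, mem_fixS] at ha ⊢
    intro h
    apply ha
    rw [← comm_apply hyt] at h
    exact y.injective h
  have hmod := fix_in_mod hq hyq oᶜ hpres
  rw [card_compl_octad ho] at hmod
  have hne : (oᶜ ∩ fixS y : Finset GolayPt).card ≠ 0 := by
    intro h
    rw [h] at hmod
    have h16 : q ∣ 2 ^ 4 := (Nat.modEq_zero_iff_dvd.1 hmod)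
    exact hq2 ((Nat.prime_dvd_prime_iff_eq hq Nat.prime_two).1 (hq.dvd_of_dvd_pow h16))
  obtain ⟨a, ha⟩ := Finset.card_pos.1 (Nat.pos_of_ne_zero hne)
  obtain ⟨ha1, ha2⟩ := Finset.mem_inter.1 ha
  rw [Finset.mem_compl] at ha1
  -- the group `fixM24 o` acts semiregularly on the complement of `o`
  have hinj : Function.Injective (fun σ : fixM24 o => (σ : PG) a) := by
    intro σ τ h
    by_contra hne'
    set ρ : PG := (τ : PG)⁻¹ * σ with hρ
    have hρm : ρ ∈ fixM24 o := mul_mem (inv_mem τ.2) σ.2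
    have hρa : ρ a = a := by
      have h' : (σ : PG) a = (τ : PG) a := h
      rw [hρ, Equiv.Perm.mul_apply, h']
      exact (τ : PG).symm_apply_apply a
    have hρ1 : ρ ≠ 1 := by
      intro h1
      apply hne'
      apply Subtype.ext
      have : (τ : PG) * ρ = σ := by rw [hρ]; group
      rw [← this, h1, mul_one]
    have hsub : insert a o ⊆ fixS ρ := by
      intro b hb
      rw [mem_fixS]
      rcases Finset.mem_insert.1 hb with rfl | hb
      · exact hρa
      · exact (mem_fixM24.1 hρm).2 b hb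
    have h9 := Finset.card_le_card hsub
    rw [Finset.card_insert_of_notMem ha1, card_octad ho] at h9
    rcases inv_fix_card (mem_fixM24.1 hρm).1 (fixM24_octad_square ho hρm) hρ1 with h8 | h8 <;> omega
  have hcard : 16 ≤ (fixS y).card := by
    rw [← card_fixM24_octad ho]
    have := Fintype.ofFinite (fixM24 o)
    rw [Nat.card_eq_fintype_card, ← Finset.card_univ]
    refine Finset.card_le_card_of_injOn (fun σ : fixM24 o => (σ : PG) a) ?_ (hinj.injOn)
    intro σ _
    rw [Finset.mem_coe, mem_fixS]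
    rw [comm_apply (hyR σ σ.2), mem_fixS.1 ha2]
  rcases fix_cases hy hq hyo with ⟨_, h6 | h6⟩ | ⟨_, h6 | h6⟩ | ⟨_, h6⟩ | ⟨_, h6⟩ | ⟨_, h6⟩ | ⟨_, h6⟩ <;> omega

theorem loc_A {K : Subgroup PG} (hK : K ≤ M24) (t : K) (h2 : orderOf t = 2) (h0 : (fixS (t : PG)).card ≠ 0)
    (hle : fixM24 (fixS (t : PG)) ≤ K) : Loc 2 t := by
  have htM : (t : PG) ∈ M24 := hK t.2
  have h2' : orderOf (t : PG) = 2 := by rw [Subgroup.orderOf_coe]; exact h2
  have ho := fixS_octad htM h2' h0
  refine ⟨(fixM24 (fixS (t : PG))).subgroupOf K, ?_, ?_, ?_, ?_⟩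
  · intro g
    refine ⟨1, ?_⟩
    apply Subtype.ext
    apply Subtype.ext
    have h3 := fixM24_octad_square ho (Subgroup.mem_subgroupOf.1 g.2)
    simpa [sq] using h3
  · intro g hg
    rw [Subgroup.mem_centralizer_singleton_iff]
    exact Subtype.ext (fixM24_comm ho (Subgroup.mem_subgroupOf.1 hg) (mem_fixM24_self htM))
  · intro c hc
    have hc' := congrArg Subtype.val (Subgroup.mem_centralizer_singleton_iff.1 hc)
    have key : ∀ c : PG, c ∈ M24 → c * (t : PG) = t * c → ∀ g ∈ fixM24 (fixS (t : PG)),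
        c * g * c⁻¹ ∈ fixM24 (fixS (t : PG)) := by
      intro c hcM hcc g hg
      have h4 := conj_mem_fixM24 hcM hg
      rw [← fixS_conj] at h4
      have h5 : c * (t : PG) * c⁻¹ = t := by rw [hcc]; group
      rwa [h5] at h4
    rw [Subgroup.mem_normalizer_iff]
    intro g
    rw [Subgroup.mem_subgroupOf, Subgroup.mem_subgroupOf]
    constructor
    · intro hg
      exact key c (hK c.2) hc' g hg
    · intro hg
      have h6 := key (c : PG)⁻¹ (inv_mem (hK c.2)) (by
        have h7 : (c : PG) * t = t * c := hc'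
        calc (c : PG)⁻¹ * t = (c : PG)⁻¹ * (t * c) * (c : PG)⁻¹ := by group
          _ = (c : PG)⁻¹ * (c * t) * (c : PG)⁻¹ := by rw [h7]
          _ = _ := by group) _ hg
      have h8 : (c : PG)⁻¹ * ((c * g * c⁻¹ : K) : PG) * (c : PG)⁻¹⁻¹ = g := by
        show (c : PG)⁻¹ * ((c : PG) * g * (c : PG)⁻¹) * (c : PG)⁻¹⁻¹ = g
        group
      rwa [h8] at h6
  · intro x hx hxR hx1
    refine two_dvd_of (Subgroup.centralizer ({t} : Set K) ⊓
      Subgroup.centralizer (((fixM24 (fixS (t : PG))).subgroupOf K : Subgroup K) : Set K)) ?_ ⟨hx, hxR⟩ hx1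
    rintro y ⟨hy1, hy2⟩ q hq hq2 hyo
    refine no_odd_A htM h2' h0 (hK y.2) hq hq2 (by rw [Subgroup.orderOf_coe]; exact hyo) ?_ ?_
    · exact congrArg Subtype.val (Subgroup.mem_centralizer_singleton_iff.1 hy1)
    · intro σ hσ
      have h9 := Subgroup.mem_centralizer_iff.1 hy2 ⟨σ, hle hσ⟩ (Subgroup.mem_subgroupOf.2 hσ)
      exact (congrArg Subtype.val h9).symm

end A

section B

def tv : ℕ := 0xbb674ab064796d24292b31dd088820
def tw : ℕ := 0xbc269ac9d65448c5be8831c6d28820
def tr : ℕ := 0x142aa9c8b648c8c5d1e839a2d75c01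

theorem rB_check : allB [tv, tw, tr] (fun n => match validM24 n with
    | false => false
    | true => match comm0 n with
      | false => false
      | true => allB tets0 (fun u => Nat.beq (pmask n u) u)) = true := by decide +kernel

/-- the kernel of the action of `C0` on the tetrads -/
def RB : Subgroup PG where
  carrier := {σ | σ ∈ C0 ∧ ∀ u ∈ decS 3186, σ • u = u}
  one_mem' := ⟨one_mem _, fun u _ => one_smul _ u⟩
  mul_mem' := by
    rintro σ τ ⟨h1, h2⟩ ⟨h3, h4⟩
    exact ⟨mul_mem h1 h3, fun u hu => by rw [mul_smul, h4 u hu, h2 u hu]⟩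
  inv_mem' := by
    rintro σ ⟨h1, h2⟩
    exact ⟨inv_mem h1, fun u hu => by rw [inv_smul_eq_iff, h2 u hu]⟩

theorem mem_RB {σ : PG} : σ ∈ RB ↔ σ ∈ C0 ∧ ∀ u ∈ decS 3186, σ • u = u := Iff.rfl

theorem exists_RB {n : ℕ} (hn : n ∈ [tv, tw, tr]) : ∃ σ ∈ RB, IsTable n σ := by
  have h := allB_iff.1 rB_check n hn
  have h1 : validM24 n = true := by
    cases hv : validM24 n
    · rw [hv] at h; exact absurd h Bool.false_ne_true
    · rfl
  rw [h1] at h
  have h2 : comm0 n = true := by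
    cases hv : comm0 n
    · rw [hv] at h; exact absurd h Bool.false_ne_true
    · rfl
  rw [h2] at h
  obtain ⟨σ, hσ, hT⟩ := exists_mem_M24 h1
  refine ⟨σ, mem_RB.2 ⟨mem_C0.2 ⟨hσ, (comm0_iff hT).1 h2⟩, ?_⟩, hT⟩
  intro u hu
  rw [decS_3186_eq, List.mem_toFinset, List.mem_map] at hu
  obtain ⟨m, hm, rfl⟩ := hu
  rw [smul_ofMask hT (tets0_spec m hm).1, Nat.eq_of_beq_eq_true (allB_iff.1 h m hm)]

theorem RB_le_C0 {σ : PG} (h : σ ∈ RB) : σ ∈ C0 := (mem_RB.1 h).1

theorem conj_mem_RB {c σ : PG} (hc : c ∈ C0) (hσ : σ ∈ RB) : c * σ * c⁻¹ ∈ RB := by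
  obtain ⟨h1, h2⟩ := mem_RB.1 hσ
  refine mem_RB.2 ⟨mul_mem (mul_mem hc h1) (inv_mem hc), fun u hu => ?_⟩
  have h3 : c⁻¹ • u ∈ decS 3186 := by
    rw [← C0_fixes_sextet (inv_mem hc)]
    exact Finset.smul_mem_smul_finset hu
  rw [mul_smul, mul_smul, h2 _ h3, smul_inv_smul]

theorem tau_tau (p : GolayPt) : τ0 (τ0 p) = p := by
  have h1 : ∀ i < 24, papp tab0 (papp tab0 i) = i := by decide +kernel
  have h2 := τ0_tab (τ0 p)
  rw [τ0_tab p, h1 _ (idx_lt p)] at h2
  exact idx_injective h2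

theorem tau_ne (p : GolayPt) : τ0 p ≠ p := by
  intro h
  have h1 : ∀ i < 24, papp tab0 i ≠ i := by decide +kernel
  have h2 := τ0_tab p
  rw [h] at h2
  exact h1 _ (idx_lt p) h2.symm

theorem exists_tetrad (p : GolayPt) : ∃ u ∈ decS 3186, p ∈ u := by
  have h1 : ∀ i < 24, ∃ m ∈ tets0, m.testBit i = true := by decide +kernel
  obtain ⟨m, hm, hb⟩ := h1 _ (idx_lt p)
  refine ⟨ofMask m, (tets0_spec m hm).2.1, ?_⟩
  rw [mem_ofMask]
  exact hb

theorem RB_pow_four {σ : PG} (hσ : σ ∈ RB) : σ ^ 4 = 1 := by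
  classical
  obtain ⟨h1, h2⟩ := mem_RB.1 hσ
  have hcomm : ∀ p, σ (τ0 p) = τ0 (σ p) := comm_apply (mem_C0.1 h1).2
  have key : ∀ a : GolayPt, σ (σ a) = a ∨ σ (σ a) = τ0 a := by
    intro a
    obtain ⟨u, hu, hau⟩ := exists_tetrad a
    have hmem : ∀ p ∈ u, σ p ∈ u := by
      intro p hp
      have h3 := Finset.smul_mem_smul_finset (a := σ) hp
      rw [h2 u hu] at h3
      exact h3
    have hmem' : ∀ p ∈ u, τ0 p ∈ u := by
      intro p hp
      have h3 := Finset.smul_mem_smul_finset (a := τ0) hp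
      rw [S0_tetrads_inv u hu] at h3
      exact h3
    have hcard : u.card = 4 := (mem_decS.1 hu).1
    by_cases c1 : σ a = a
    · left; rw [c1, c1]
    by_cases c2 : σ a = τ0 a
    · left; rw [c2, hcomm, c2, tau_tau]
    set c := σ a with hc
    have hcu : c ∈ u := hmem a hau
    have d1 : a ≠ τ0 a := fun h => tau_ne a h.symm
    have d2 : c ≠ τ0 c := fun h => tau_ne c h.symm
    have d3 : τ0 c ≠ a := fun h => c2 (by rw [← h, tau_tau])
    have d4 : τ0 c ≠ τ0 a := fun h => c1 (τ0.injective h)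
    have hset : ({a, τ0 a, c, τ0 c} : Finset GolayPt) = u := by
      apply Finset.eq_of_subset_of_card_le
      · intro p hp
        simp only [Finset.mem_insert, Finset.mem_singleton] at hp
        rcases hp with rfl | rfl | rfl | rfl
        · exact hau
        · exact hmem' _ hau
        · exact hcu
        · exact hmem' _ hcu
      · rw [hcard, Finset.card_insert_of_notMem, Finset.card_insert_of_notMem, Finset.card_insert_of_notMem,
          Finset.card_singleton]
        · rw [Finset.mem_singleton]; exact d2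
        · simp only [Finset.mem_insert, Finset.mem_singleton, not_or]
          exact ⟨fun h => c2 h.symm, fun h => d4 h.symm⟩
        · simp only [Finset.mem_insert, Finset.mem_singleton, not_or]
          exact ⟨d1, fun h => c1 h.symm, fun h => d3 h.symm⟩
    have h5 := hmem c hcu
    rw [← hset] at h5
    simp only [Finset.mem_insert, Finset.mem_singleton] at h5
    rcases h5 with h5 | h5 | h5 | h5
    · exact Or.inl h5
    · exact Or.inr h5
    · exfalso
      rw [hc] at h5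
      exact c1 (σ.injective h5)
    · exfalso
      rw [hc, ← hcomm] at h5
      exact c2 (σ.injective h5)
  ext a : 1
  rw [Equiv.Perm.one_apply]
  have h6 : (σ ^ 4) a = σ (σ (σ (σ a))) := rfl
  rw [h6]
  rcases key a with h | h
  · rw [h, h]
  · rw [h, hcomm, hcomm, h, tau_tau]

theorem no_odd_B {y : PG} (hy : y ∈ C0) {q : ℕ} (hq : q.Prime) (hq2 : q ≠ 2) (hyo : orderOf y = q)
    (hyR : ∀ σ ∈ RB, y * σ = σ * y) : False := by
  -- every such element fixes `pt 23`
  have key : ∀ y : PG, y ∈ C0 → orderOf y = q → (∀ σ ∈ RB, y * σ = σ * y) → y (pt 23) = pt 23 := by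
    intro y hy hyo hyR
    obtain ⟨v, hv, hvT⟩ := exists_RB (n := tv) (by simp)
    obtain ⟨w, hw, hwT⟩ := exists_RB (n := tw) (by simp)
    obtain ⟨r, hr, hrT⟩ := exists_RB (n := tr) (by simp)
    have i23 : idx (pt 23) = 23 := idx_pt (by norm_num)
    have hyτ : ∀ p, y (τ0 p) = τ0 (y p) := comm_apply (mem_C0.1 hy).2
    have hyr : ∀ p, y (r p) = r (y p) := comm_apply (hyR r hr)
    have hrτ : ∀ p, r (τ0 p) = τ0 (r p) := comm_apply (mem_C0.1 (RB_le_C0 hr)).2
    have hv23 : v (pt 23) = pt 23 := by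
      apply idx_injective
      rw [hvT, i23]; decide +kernel
    have hw23 : w (pt 23) = pt 23 := by
      apply idx_injective
      rw [hwT, i23]; decide +kernel
    have hr23 : r (pt 23) = pt 2 := by
      apply idx_injective
      rw [hrT, i23, idx_pt (by norm_num)]; decide +kernel
    have hr2 : r (pt 2) = pt 23 := by
      apply idx_injective
      rw [hrT, i23, idx_pt (by norm_num)]; decide +kernel
    have hτ23 : τ0 (pt 23) = pt 0 := by
      apply idx_injective
      rw [τ0_tab, i23, idx_pt (by norm_num)]; decide +kernel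
    have hτ2 : τ0 (pt 2) = pt 1 := by
      apply idx_injective
      rw [τ0_tab, idx_pt (by norm_num), idx_pt (by norm_num)]; decide +kernel
    have hyv : v (y (pt 23)) = y (pt 23) := by rw [← comm_apply (hyR v hv), hv23]
    have hyw : w (y (pt 23)) = y (pt 23) := by rw [← comm_apply (hyR w hw), hw23]
    have hcases : ∀ i < 24, papp tv i = i → papp tw i = i → i = 0 ∨ i = 1 ∨ i = 2 ∨ i = 23 := by decide +kernel
    have h1 := hvT (y (pt 23))
    have h2 := hwT (y (pt 23))
    rw [hyv] at h1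
    rw [hyw] at h2
    have h3 := hcases _ (idx_lt _) h1.symm h2.symm
    have hsq : y (y (pt 23)) = pt 23 := by
      rcases h3 with h | h | h | h
      · have e : y (pt 23) = pt 0 := idx_injective (by rw [h, idx_pt (by norm_num)])
        rw [e, ← hτ23, hyτ, e, ← hτ23, tau_tau]
      · have e : y (pt 23) = pt 1 := idx_injective (by rw [h, idx_pt (by norm_num)])
        rw [e, ← hτ2, hyτ, ← hr23, hyr, e, ← hτ2, hrτ, tau_tau, hr2]
      · have e : y (pt 23) = pt 2 := idx_injective (by rw [h, idx_pt (by norm_num)])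
        rw [e, ← hr23, hyr, e, hr2]
      · have e : y (pt 23) = pt 23 := idx_injective (by rw [h, i23])
        rw [e, e]
    obtain ⟨k, hk⟩ := hq.odd_of_ne_two hq2
    have h4 : (y ^ q) (pt 23) = y (pt 23) := by
      have h5 : ∀ k : ℕ, ((y ^ 2) ^ k) (pt 23) = pt 23 := by
        intro k
        induction k with
        | zero => rfl
        | succ k ih =>
          rw [pow_succ, Equiv.Perm.mul_apply]
          have : (y ^ 2) (pt 23) = pt 23 := hsq
          rw [this, ih]
      rw [hk, pow_succ', pow_mul, Equiv.Perm.mul_apply, h5]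
    rw [← hyo, pow_orderOf_eq_one] at h4
    exact h4.symm
  have hy1 : y = 1 := by
    ext b : 1
    obtain ⟨c, hc, hcb⟩ := C0_transitive (pt 23) b
    have h1 := key (c⁻¹ * y * c) (mul_mem (mul_mem (inv_mem hc) hy) hc) (by rw [orderOf_conj]; exact hyo) (by
      intro σ hσ
      have h2 := hyR _ (conj_mem_RB hc hσ)
      calc c⁻¹ * y * c * σ = c⁻¹ * (y * (c * σ * c⁻¹)) * c := by group
        _ = c⁻¹ * ((c * σ * c⁻¹) * y) * c := by rw [h2]
        _ = _ := by group)
    have h3 : c ((c⁻¹ * y * c) (pt 23)) = y (c (pt 23)) := by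
      have : c * (c⁻¹ * y * c) = y * c := by group
      have := congrArg (fun z : PG => z (pt 23)) this
      simpa only [Equiv.Perm.mul_apply] using this
    rw [h1, hcb] at h3
    rw [Equiv.Perm.one_apply]
    exact h3.symm
  rw [hy1, orderOf_one] at hyo
  exact hq.one_lt.ne hyo

theorem loc_B : Loc 2 (⟨τ0, τ0_mem⟩ : M24) := by
  refine ⟨RB.subgroupOf M24, ?_, ?_, ?_, ?_⟩
  · intro g
    refine ⟨2, ?_⟩
    apply Subtype.ext
    apply Subtype.ext
    have h3 := RB_pow_four (Subgroup.mem_subgroupOf.1 g.2)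
    simpa using h3
  · intro g hg
    rw [Subgroup.mem_centralizer_singleton_iff]
    exact Subtype.ext (mem_C0.1 (RB_le_C0 (Subgroup.mem_subgroupOf.1 hg))).2
  · intro c hc
    have hc' : (c : PG) ∈ C0 := mem_C0.2 ⟨c.2, congrArg Subtype.val (Subgroup.mem_centralizer_singleton_iff.1 hc)⟩
    rw [Subgroup.mem_normalizer_iff]
    intro g
    rw [Subgroup.mem_subgroupOf, Subgroup.mem_subgroupOf]
    constructor
    · intro hg
      exact conj_mem_RB hc' hg
    · intro hg
      have h6 := conj_mem_RB (inv_mem hc') hg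
      have h8 : (c : PG)⁻¹ * ((c * g * c⁻¹ : M24) : PG) * (c : PG)⁻¹⁻¹ = g := by
        show (c : PG)⁻¹ * ((c : PG) * g * (c : PG)⁻¹) * (c : PG)⁻¹⁻¹ = g
        group
      rwa [h8] at h6
  · intro x hx hxR hx1
    refine two_dvd_of (Subgroup.centralizer ({(⟨τ0, τ0_mem⟩ : M24)} : Set M24) ⊓
      Subgroup.centralizer ((RB.subgroupOf M24 : Subgroup M24) : Set M24)) ?_ ⟨hx, hxR⟩ hx1
    rintro y ⟨hy1, hy2⟩ q hq hq2 hyo
    refine no_odd_B (mem_C0.2 ⟨y.2, congrArg Subtype.val (Subgroup.mem_centralizer_singleton_iff.1 hy1)⟩) hq hq2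
      (by rw [Subgroup.orderOf_coe]; exact hyo) ?_
    intro σ hσ
    have h9 := Subgroup.mem_centralizer_iff.1 hy2 ⟨σ, (mem_C0.1 (RB_le_C0 hσ)).1⟩ (Subgroup.mem_subgroupOf.2 hσ)
    exact (congrArg Subtype.val h9).symm

end B

theorem loc_M24 (t : M24) (h2 : orderOf t = 2) : Loc 2 t := by
  have h2' : orderOf (t : PG) = 2 := by rw [Subgroup.orderOf_coe]; exact h2
  by_cases h0 : (fixS (t : PG)).card = 0
  · obtain ⟨g, hg, hT⟩ := inv_fix0 t.2 h2' (by
      have : (Finset.univ.filter fun p => (t : PG) p = p) = fixS (t : PG) := rfl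
      rw [this, h0]; norm_num)
    have h3 : g * (t : PG) * g⁻¹ = τ0 := isTable_unique hT τ0_tab
    have h4 := loc_B.conj (⟨g, hg⟩⁻¹ : M24)
    have h5 : (⟨g, hg⟩⁻¹ : M24) * ⟨τ0, τ0_mem⟩ * (⟨g, hg⟩⁻¹ : M24)⁻¹ = t := by
      apply Subtype.ext
      show g⁻¹ * τ0 * g⁻¹⁻¹ = t
      rw [← h3]; group
    rwa [h5] at h4
  · exact loc_A le_rfl t h2 h0 (fun σ hσ => (mem_fixM24.1 hσ).1)

theorem loc_M22 (t : Spor.M22) (h2 : orderOf t = 2) : Loc 2 t := by
  have h3 := mem_M22_iff.1 t.2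
  have hn : (none : GolayPt) ∈ fixS (t : PG) := mem_fixS.2 h3.1.2
  have hs : (some 0 : GolayPt) ∈ fixS (t : PG) := mem_fixS.2 h3.2
  refine loc_A M22_le t h2 (Finset.card_ne_zero_of_mem hn) fun σ hσ => ?_
  obtain ⟨h4, h5⟩ := mem_fixM24.1 hσ
  exact mem_M22_iff.2 ⟨⟨h4, h5 _ hn⟩, h5 _ hs⟩

end Cfsg.Agent.H10.MathLoc
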