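import Cfsg.Agent.H10.HarE

set_option autoImplicit false
set_option linter.unusedSectionVars false

/-! `Q₈ * Q₈` self-centralizing in a 2-group (S1233): duality in the extraspecial group and the
reduction to Harada's cases. -/

namespace Cfsg.Agent.H10.QQ
open Subgroup Cfsg.Agent.H20.Har

structure XS {S : Type*} [Group S] (Q : Subgroup S) (z : S) : Prop where
  two : IsPGroup 2 S
  zQ : z ∈ Q
  z1 : z ≠ 1
  zz : z * z = 1
  zc : ∀ s : S, s * z = z * s
  com : ∀ x ∈ Q, ∀ y ∈ Q, x * y * x⁻¹ * y⁻¹ = 1 ∨ x * y * x⁻¹ * y⁻¹ = z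
  sq : ∀ x ∈ Q, x * x = 1 ∨ x * x = z
  card : Nat.card Q = 32
  cent : ∀ s : S, (∀ q ∈ Q, s * q = q * s) → s = 1 ∨ s = z

variable {S : Type*} [Group S] [Finite S] {Q : Subgroup S} {z : S}

theorem comm_iff {x y : S} : x * y * x⁻¹ * y⁻¹ = 1 ↔ x * y = y * x := by
  rw [mul_inv_eq_one, mul_inv_eq_iff_eq_mul]

theorem XS.com' (h : XS Q z) {x y : S} (hx : x ∈ Q) (hy : y ∈ Q) : x * y = y * x ∨ x * y = z * (y * x) := by
  rcases h.com x hx y hy with h1 | h1
  · exact Or.inl (comm_iff.1 h1)
  · right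
    calc x * y = (x * y * x⁻¹ * y⁻¹) * (y * x) := by group
      _ = z * (y * x) := by rw [h1]

theorem XS.dual_step (h : XS Q z) : ∀ (n : ℕ) (K L : Subgroup S), Nat.card L - Nat.card K = n →
    z ∈ K → K ≤ L → L ≤ Q →
    Nat.card ↥(Q ⊓ centralizer (K : Set S)) * Nat.card K ≤
      Nat.card ↥(Q ⊓ centralizer (L : Set S)) * Nat.card L := by
  intro n
  induction n using Nat.strong_induction_on with
  | _ n ih =>
    intro K L hn hzK hKL hLQ
    rcases eq_or_lt_of_le hKL with rfl | hlt
    · exact le_rfl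
    · have hMn : (K.subgroupOf L).Normal := by
        constructor
        intro k hk g
        rw [mem_subgroupOf] at hk ⊢
        have h1 : ((g * k * g⁻¹ : L) : S) = ((g : S) * (k : S) * (g : S)⁻¹ * (k : S)⁻¹) * (k : S) := by
          push_cast; group
        rw [h1]
        refine K.mul_mem ?_ hk
        rcases h.com g (hLQ g.2) k (hLQ k.2) with h2 | h2
        · rw [h2]; exact one_mem _
        · rw [h2]; exact hzK
      have hMt : K.subgroupOf L < ⊤ := by
        rw [lt_top_iff_ne_top]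
        intro he
        rw [subgroupOf_eq_top] at he
        exact hlt.not_ge he
      obtain ⟨x, -, hxM, -, -, -, hxc⟩ := Cfsg.Agent.H23.exists_step (p := 2)
        (h.two.to_subgroup L) hMn (inferInstance : (⊤ : Subgroup L).Normal) hMt
      obtain ⟨K', hK'⟩ : ∃ K' : Subgroup S,
        K' = (K.subgroupOf L ⊔ zpowers x).map L.subtype := ⟨_, rfl⟩
      have hKc : Nat.card (K.subgroupOf L) = Nat.card K :=
        Nat.card_congr (subgroupOfEquivOfLe hKL).toEquiv
      have hK'c : Nat.card K' = Nat.card K * 2 := by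
        rw [hK', card_map_of_injective L.subtype_injective, hxc, hKc]
      have hK'e : K' = K ⊔ zpowers (x : S) := by
        rw [hK', Subgroup.map_sup, MonoidHom.map_zpowers, subgroupOf_map_subtype, inf_eq_left.2 hKL]
        rfl
      have hKK' : K ≤ K' := by rw [hK'e]; exact le_sup_left
      have hK'L : K' ≤ L := by rw [hK']; exact map_subtype_le _
      have hxQ : (x : S) ∈ Q := hLQ x.2
      have h1 : Nat.card ↥(Q ⊓ centralizer (K : Set S)) ≤
          2 * Nat.card ↥((Q ⊓ centralizer (K : Set S)) ⊓ centralizer ({(x : S)} : Set S)) := by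
        apply card_le_two
        intro s hs s' hs' hsx hs'x
        rw [mem_centralizer_singleton_iff] at hsx hs'x ⊢
        have h2 : s * x = z * (x * s) := (h.com' hs.1 hxQ).resolve_left hsx
        have h3 : s' * x = z * (x * s') := (h.com' hs'.1 hxQ).resolve_left hs'x
        have h4 : s⁻¹ * x = z * (x * s⁻¹) := by
          have h5 : x * s⁻¹ = s⁻¹ * (s * x) * s⁻¹ := by group
          rw [h5, h2]
          calc s⁻¹ * x = (z * z) * (s⁻¹ * x) := by rw [h.zz, one_mul]
            _ = z * ((z * s⁻¹) * x) := by group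
            _ = z * ((s⁻¹ * z) * x) := by rw [h.zc s⁻¹]
            _ = z * (s⁻¹ * (z * (x * s)) * s⁻¹) := by group
        calc s⁻¹ * s' * x = s⁻¹ * (s' * x) := by group
          _ = s⁻¹ * (z * (x * s')) := by rw [h3]
          _ = (s⁻¹ * z) * x * s' := by group
          _ = z * (s⁻¹ * x) * s' := by rw [h.zc s⁻¹]; group
          _ = z * (z * (x * s⁻¹)) * s' := by rw [h4]
          _ = (z * z) * (x * (s⁻¹ * s')) := by group
          _ = x * (s⁻¹ * s') := by rw [h.zz, one_mul]
      have h2 : (Q ⊓ centralizer (K : Set S)) ⊓ centralizer ({(x : S)} : Set S) ≤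
          Q ⊓ centralizer (K' : Set S) := by
        intro y hy
        refine ⟨hy.1.1, ?_⟩
        have h3 : K' ≤ centralizer ({y} : Set S) := by
          rw [hK'e, sup_le_iff, zpowers_le]
          refine ⟨fun k hk => ?_, ?_⟩
          · rw [mem_centralizer_singleton_iff]
            exact mem_centralizer_iff.1 hy.1.2 k hk
          · rw [mem_centralizer_singleton_iff]
            exact (mem_centralizer_singleton_iff.1 hy.2).symm
        refine mem_centralizer_iff.2 fun k hk => ?_
        exact mem_centralizer_singleton_iff.1 (h3 hk)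
      have h3 := card_le_of_le h2
      have h4 := ih (Nat.card L - Nat.card K') (by
        have := card_le_of_le hK'L
        have : 0 < Nat.card K := Nat.card_pos
        omega) K' L rfl (hKK' hzK) hK'L hLQ
      calc Nat.card ↥(Q ⊓ centralizer (K : Set S)) * Nat.card K
          ≤ (2 * Nat.card ↥(Q ⊓ centralizer (K' : Set S))) * Nat.card K :=
            Nat.mul_le_mul_right _ (h1.trans (Nat.mul_le_mul_left _ h3))
        _ = Nat.card ↥(Q ⊓ centralizer (K' : Set S)) * Nat.card K' := by rw [hK'c]; ring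
        _ ≤ _ := h4

theorem XS.zmem (h : XS Q z) : ∀ x, x ∈ zpowers z ↔ x = 1 ∨ x = z := by
  intro x
  constructor
  · rintro ⟨n, rfl⟩
    rcases Int.even_or_odd n with ⟨k, hk⟩ | ⟨k, hk⟩
    · left
      have : z ^ n = (z * z) ^ k := by rw [hk, ← pow_two, ← zpow_natCast, ← zpow_mul]; congr 1; push_cast; ring
      show z ^ n = 1
      rw [this, h.zz, one_zpow]
    · right
      have : z ^ n = (z * z) ^ k * z := by
        rw [hk, ← pow_two, ← zpow_natCast, ← zpow_mul, ← zpow_add_one]; congr 1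
      show z ^ n = z
      rw [this, h.zz, one_zpow, one_mul]
  · rintro (rfl | rfl)
    · exact one_mem _
    · exact mem_zpowers _

theorem XS.card_z (h : XS Q z) : Nat.card (zpowers z) = 2 := by
  rw [Nat.card_zpowers]
  exact orderOf_eq_prime (by rw [pow_two, h.zz]) h.z1

theorem XS.dual (h : XS Q z) {K : Subgroup S} (hzK : z ∈ K) (hKQ : K ≤ Q) :
    Nat.card ↥(Q ⊓ centralizer (K : Set S)) * Nat.card K = 64 := by
  apply le_antisymm
  · have h1 := h.dual_step _ K Q rfl hzK hKQ le_rfl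
    have h2 : Q ⊓ centralizer (Q : Set S) ≤ zpowers z := by
      intro x hx
      rw [h.zmem]
      exact h.cent x (fun q hq => (mem_centralizer_iff.1 hx.2 q hq).symm)
    have h3 := card_le_of_le h2
    rw [h.card_z] at h3
    rw [h.card] at h1
    omega
  · have h1 := h.dual_step _ (zpowers z) K rfl (mem_zpowers z) (by rw [zpowers_le]; exact hzK) hKQ
    have h2 : Q ⊓ centralizer (zpowers z : Set S) = Q := by
      apply inf_eq_left.2
      intro q _
      refine mem_centralizer_iff.2 fun x hx => ?_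
      rcases (h.zmem x).1 hx with rfl | rfl
      · rw [one_mul, mul_one]
      · exact (h.zc q).symm
    rw [h2, h.card, h.card_z] at h1
    omega

theorem idx2 {X B : Subgroup S} (hXB : X ≤ B) (hc : Nat.card B ≤ 2 * Nat.card X) {a b : S}
    (ha : a ∈ B) (hb : b ∈ B) (haX : a ∉ X) (hbX : b ∉ X) : a⁻¹ * b ∈ X := by
  obtain ⟨K, hK⟩ : ∃ K : Subgroup B, K = X.subgroupOf B := ⟨_, rfl⟩
  have hKc : Nat.card K = Nat.card X := by
    rw [hK]; exact Nat.card_congr (Subgroup.subgroupOfEquivOfLe hXB).toEquiv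
  have hXp : 0 < Nat.card X := Nat.card_pos
  have hKi : K.index ≤ 2 := by
    have h1 := Subgroup.card_mul_index K
    rw [hKc] at h1
    rw [← h1, mul_comm 2] at hc
    exact Nat.le_of_mul_le_mul_left hc hXp
  have hKm : ∀ x : B, x ∈ K ↔ (x : S) ∈ X := by
    intro x; rw [hK, Subgroup.mem_subgroupOf]
  have hK1 : K.index ≠ 1 := by
    intro h1
    rw [Subgroup.index_eq_one] at h1
    apply haX
    have : (⟨a, ha⟩ : B) ∈ K := by rw [h1]; exact Subgroup.mem_top _
    exact (hKm _).1 this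
  have hK0 : K.index ≠ 0 := Subgroup.index_ne_zero_of_finite
  have hK2 : K.index = 2 := by omega
  have h1 := (Subgroup.mul_mem_iff_of_index_two hK2 (a := (⟨a, ha⟩ : B)⁻¹)
    (b := ⟨b, hb⟩)).2 (by
      rw [inv_mem_iff, hKm, hKm]
      exact ⟨fun h => absurd h haX, fun h => absurd h hbX⟩)
  exact (hKm _).1 h1

theorem XS.comQ (h : XS Q z) {x y : S} (hx : x ∈ Q) (hy : y ∈ Q) (hn : ¬ x * y = y * x) :
    x * y = z * (y * x) := (h.com' hx hy).resolve_left hn

theorem XS.step1 (h : XS Q z) {V : Subgroup S} (Vn : ∀ v ∈ V, ∀ g : S, g * v * g⁻¹ ∈ V)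
    (Vcomm : ∀ v ∈ V, ∀ w ∈ V, v * w = w * v) (Vsq : ∀ v ∈ V, v * v = 1) (hzV : z ∈ V)
    (V8 : 8 ≤ Nat.card V) : 8 ≤ Nat.card ↥(V ⊓ Q) := by
  by_contra hcon
  have VN : V.Normal := ⟨fun v hv g => Vn v hv g⟩
  obtain ⟨I, hI⟩ : ∃ I : Subgroup S, I = V ⊓ Q := ⟨_, rfl⟩
  rw [← hI] at hcon
  have hIm : ∀ x, x ∈ I ↔ x ∈ V ∧ x ∈ Q := by intro x; rw [hI, mem_inf]
  have hI4 : Nat.card I ≤ 4 := by
    obtain ⟨n, hn⟩ := (h.two.to_subgroup I).exists_card_eq
    rw [hn] at hcon ⊢
    have h3 : n < 3 := by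
      by_contra h4
      rw [not_lt] at h4
      have := Nat.pow_le_pow_right (show 0 < 2 by norm_num) h4
      omega
    calc 2 ^ n ≤ 2 ^ 2 := Nat.pow_le_pow_right (by norm_num) (by omega)
      _ = 4 := by norm_num
  have hzI : z ∈ I := (hIm z).2 ⟨hzV, h.zQ⟩
  have hZI : zpowers z ≤ I := by rw [zpowers_le]; exact hzI
  -- the element v
  obtain ⟨v, hvV, hvI, hve⟩ : ∃ v ∈ V, v ∉ I ∧ ∀ q ∈ Q, v * q * v⁻¹ * q⁻¹ ∈ I := by
    obtain ⟨T, hT⟩ : ∃ T : Subgroup S, T = V ⊔ Q := ⟨_, rfl⟩
    have hVT : V ≤ T := by rw [hT]; exact le_sup_left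
    have hQT : Q ≤ T := by rw [hT]; exact le_sup_right
    have hTn : T ≤ normalizer (I : Set S) := by
      rw [hT, sup_le_iff]
      constructor
      · intro v hv
        rw [mem_normalizer_iff]
        intro x
        constructor
        · intro hx
          have : v * x * v⁻¹ = x := by
            rw [Vcomm v hv x ((hIm x).1 hx).1, mul_inv_cancel_right]
          rw [this]; exact hx
        · intro hx
          have h1 := ((hIm _).1 hx).1
          have h2 : x ∈ V := by
            have := Vn _ h1 v⁻¹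
            simpa [mul_assoc] using this
          have : v * x * v⁻¹ = x := by
            rw [Vcomm v hv x h2, mul_inv_cancel_right]
          rw [this] at hx; exact hx
      · intro q hq
        rw [mem_normalizer_iff]
        intro x
        constructor
        · intro hx
          exact (hIm _).2 ⟨Vn x ((hIm x).1 hx).1 q, Q.mul_mem (Q.mul_mem hq ((hIm x).1 hx).2) (Q.inv_mem hq)⟩
        · intro hx
          have h1 := (hIm _).1 hx
          refine (hIm _).2 ⟨?_, ?_⟩
          · have := Vn _ h1.1 q⁻¹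
            simpa [mul_assoc] using this
          · have := Q.mul_mem (Q.mul_mem (Q.inv_mem hq) h1.2) hq
            simpa [mul_assoc] using this
    have hIn : (I.subgroupOf T).Normal := normal_subgroupOf_of_le_normalizer hTn
    have hVn : (V.subgroupOf T).Normal := inferInstance
    have hlt : I.subgroupOf T < V.subgroupOf T := by
      have hIV : I ≤ V := fun x hx => ((hIm x).1 hx).1
      refine lt_of_le_of_ne (comap_mono hIV) ?_
      intro he
      have h1 : Nat.card (I.subgroupOf T) = Nat.card I :=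
        Nat.card_congr (subgroupOfEquivOfLe (hIV.trans hVT)).toEquiv
      have h2 : Nat.card (V.subgroupOf T) = Nat.card V :=
        Nat.card_congr (subgroupOfEquivOfLe hVT).toEquiv
      rw [he, h2] at h1
      omega
    obtain ⟨x, hxV, hxI, -, hxc, -, -⟩ := Cfsg.Agent.H23.exists_step (p := 2)
      (h.two.to_subgroup T) hIn hVn hlt
    exact ⟨x, hxV, hxI, fun q hq => hxc ⟨q, hQT hq⟩⟩
  have hvQ : v ∉ Q := fun h1 => hvI ((hIm v).2 ⟨hvV, h1⟩)
  have hsqc : ∀ q ∈ Q, v * (q * q) * v⁻¹ = q * q := by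
    intro q hq
    rcases h.sq q hq with h1 | h1
    · rw [h1]; group
    · rw [h1, h.zc v, mul_inv_cancel_right]
  have hec : ∀ q ∈ Q, (v * q * v⁻¹ * q⁻¹) * q = q * (v * q * v⁻¹ * q⁻¹) := by
    intro q hq
    obtain ⟨e, he⟩ : ∃ e, e = v * q * v⁻¹ * q⁻¹ := ⟨_, rfl⟩
    have heV : e ∈ V := by rw [he]; exact ((hIm _).1 (hve q hq)).1
    rw [← he]
    have h1 : e * q = v * q * v⁻¹ := by rw [he]; group
    have h2 : (e * q) * (e * q) = q * q := by
      rw [h1, ← hsqc q hq]; group
    have h3 : e * q * e = q := by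
      have : (e * q * e) * q = q * q := by rw [← h2]; group
      exact mul_right_cancel this
    calc e * q = (e * q * e) * e := by rw [mul_assoc (e * q) e e, Vsq e heV, mul_one]
      _ = q * e := by rw [h3]
  have hmul : ∀ q ∈ Q, ∀ r ∈ Q, (v * r * v⁻¹ * r⁻¹ = 1 ∨ v * r * v⁻¹ * r⁻¹ = z) →
      v * (q * r) * v⁻¹ * (q * r)⁻¹ = (v * q * v⁻¹ * q⁻¹) * (v * r * v⁻¹ * r⁻¹) := by
    intro q _ r _ hr
    obtain ⟨e, he⟩ : ∃ e, e = v * r * v⁻¹ * r⁻¹ := ⟨_, rfl⟩
    rw [← he] at hr ⊢
    have hc : q * e = e * q := by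
      rcases hr with rfl | rfl
      · rw [one_mul, mul_one]
      · exact h.zc q
    calc v * (q * r) * v⁻¹ * (q * r)⁻¹ = v * q * v⁻¹ * (v * r * v⁻¹ * r⁻¹) * q⁻¹ := by group
      _ = v * q * v⁻¹ * e * q⁻¹ := by rw [← he]
      _ = v * q * v⁻¹ * q⁻¹ * (q * e) * q⁻¹ := by group
      _ = v * q * v⁻¹ * q⁻¹ * (e * q) * q⁻¹ := by rw [hc]
      _ = _ := by group
  have hZ : ∀ q ∈ Q, v * q * v⁻¹ * q⁻¹ = 1 ∨ v * q * v⁻¹ * q⁻¹ = z := by
    by_contra hcon2
    push Not at hcon2
    obtain ⟨q0, hq0, hf1, hfz⟩ := hcon2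
    obtain ⟨f, hf⟩ : ∃ f, f = v * q0 * v⁻¹ * q0⁻¹ := ⟨_, rfl⟩
    have hfI : f ∈ I := by rw [hf]; exact hve q0 hq0
    have hfq0 : f * q0 = q0 * f := by rw [hf]; exact hec q0 hq0
    rw [← hf] at hf1 hfz
    have hfZ : f ∉ zpowers z := by
      rw [h.zmem]; push Not; exact ⟨hf1, hfz⟩
    have key : ∀ q ∈ Q, ¬ (v * q * v⁻¹ * q⁻¹ = 1 ∨ v * q * v⁻¹ * q⁻¹ = z) → f * q = q * f := by
      intro q hq hn
      obtain ⟨e, he⟩ : ∃ e, e = v * q * v⁻¹ * q⁻¹ := ⟨_, rfl⟩
      have heq : e * q = q * e := by rw [he]; exact hec q hq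
      have heI : e ∈ I := by rw [he]; exact hve q hq
      rw [← he] at hn
      have heZ : e ∉ zpowers z := by rw [h.zmem]; exact hn
      have h1 := idx2 hZI (by rw [h.card_z]; omega) hfI heI hfZ heZ
      rw [h.zmem] at h1
      rcases h1 with h1 | h1
      · have : e = f := (inv_mul_eq_one.1 h1).symm
        rw [← this]; exact heq
      · have h2 : e = f * z := by rw [← h1]; group
        rw [h2] at heq
        have h3 : (f * q) * z = (q * f) * z := by
          calc (f * q) * z = f * (q * z) := by group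
            _ = f * (z * q) := by rw [h.zc q]
            _ = f * z * q := by group
            _ = q * (f * z) := heq
            _ = (q * f) * z := by group
        exact mul_right_cancel h3
    have hall : ∀ q ∈ Q, f * q = q * f := by
      intro q hq
      by_cases hn : v * q * v⁻¹ * q⁻¹ = 1 ∨ v * q * v⁻¹ * q⁻¹ = z
      · have h1 := key (q0 * q) (Q.mul_mem hq0 hq) (by
          rw [hmul q0 hq0 q hq hn, ← hf]
          intro h2
          rcases hn with h3 | h3
          · rw [h3, mul_one] at h2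
            rcases h2 with h2 | h2
            · exact hf1 h2
            · exact hfz h2
          · rw [h3] at h2
            rcases h2 with h2 | h2
            · apply hfz
              calc f = (f * z) * z := by rw [mul_assoc, h.zz, mul_one]
                _ = z := by rw [h2, one_mul]
            · exact hf1 (mul_eq_right.1 h2))
        have h2 : q0 * (f * q) = q0 * (q * f) := by
          calc q0 * (f * q) = (q0 * f) * q := by group
            _ = (f * q0) * q := by rw [hfq0]
            _ = f * (q0 * q) := by group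
            _ = (q0 * q) * f := h1
            _ = q0 * (q * f) := by group
        exact mul_left_cancel h2
      · exact key q hq hn
    rcases h.cent f hall with h1 | h1
    · exact hf1 h1
    · exact hfz h1
  -- v acts as an element of Q
  have hvc : ∀ q ∈ Q, ¬ v * q = q * v → v * q = z * (q * v) := by
    intro q hq hn
    rcases hZ q hq with h1 | h1
    · exact absurd (comm_iff.1 h1) hn
    · calc v * q = (v * q * v⁻¹ * q⁻¹) * (q * v) := by group
        _ = z * (q * v) := by rw [h1]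
  obtain ⟨K, hK⟩ : ∃ K : Subgroup S, K = Q ⊓ centralizer ({v} : Set S) := ⟨_, rfl⟩
  have hKm : ∀ q, q ∈ K ↔ q ∈ Q ∧ q * v = v * q := by
    intro q; rw [hK, mem_inf, mem_centralizer_singleton_iff]
  have hKQ : K ≤ Q := fun q hq => ((hKm q).1 hq).1
  have hzK : z ∈ K := (hKm z).2 ⟨h.zQ, (h.zc v).symm⟩
  have hinvz : ∀ s x : S, s * x = z * (x * s) → s⁻¹ * x = z * (x * s⁻¹) := by
    intro s x hsx
    have h5 : x * s⁻¹ = s⁻¹ * (s * x) * s⁻¹ := by group
    rw [h5, hsx]
    calc s⁻¹ * x = (z * z) * (s⁻¹ * x) := by rw [h.zz, one_mul]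
      _ = z * ((z * s⁻¹) * x) := by group
      _ = z * ((s⁻¹ * z) * x) := by rw [h.zc s⁻¹]
      _ = z * (s⁻¹ * (z * (x * s)) * s⁻¹) := by group
  have hsym : ∀ s x : S, s * x = z * (x * s) → x * s = z * (s * x) := by
    intro s x hsx
    rw [hsx, ← mul_assoc, h.zz, one_mul]
  have hdiff : ∀ s ∈ Q, ∀ s' ∈ Q, s ∉ K → s' ∉ K → s⁻¹ * s' ∈ K := by
    intro s hs s' hs' hsK hs'K
    have h1 : ¬ v * s = s * v := fun h1 => hsK ((hKm s).2 ⟨hs, h1.symm⟩)
    have h1' : ¬ v * s' = s' * v := fun h1 => hs'K ((hKm s').2 ⟨hs', h1.symm⟩)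
    have h2 := hinvz s v (hsym v s (hvc s hs h1))
    have h3 := hsym v s' (hvc s' hs' h1')
    refine (hKm _).2 ⟨Q.mul_mem (Q.inv_mem hs) hs', ?_⟩
    calc s⁻¹ * s' * v = s⁻¹ * (s' * v) := by group
      _ = s⁻¹ * (z * (v * s')) := by rw [h3]
      _ = (s⁻¹ * z) * v * s' := by group
      _ = z * (s⁻¹ * v) * s' := by rw [h.zc s⁻¹]; group
      _ = z * (z * (v * s⁻¹)) * s' := by rw [h2]
      _ = (z * z) * (v * (s⁻¹ * s')) := by group
      _ = v * (s⁻¹ * s') := by rw [h.zz, one_mul]
  have hK16 : 16 ≤ Nat.card K := by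
    have h1 := card_le_two Q K hdiff
    rw [inf_eq_right.2 hKQ, h.card] at h1
    omega
  have hKne : ¬ Q ≤ K := by
    intro h1
    rcases h.cent v (fun q hq => ((hKm q).1 (h1 hq)).2.symm) with h2 | h2
    · exact hvQ (by rw [h2]; exact one_mem _)
    · exact hvQ (by rw [h2]; exact h.zQ)
  have hK16' : Nat.card K = 16 := by
    have h1 : Nat.card K ∣ 32 := by rw [← h.card]; exact card_dvd_of_le hKQ
    have h2 : Nat.card K ≠ 32 := by
      intro h3
      apply hKne
      have := Subgroup.eq_of_le_of_card_ge hKQ (by rw [h3, h.card])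
      rw [this]
    have h3 : Nat.card K ∈ Nat.divisors 32 := Nat.mem_divisors.2 ⟨h1, by norm_num⟩
    have h4 : Nat.divisors 32 = {1, 2, 4, 8, 16, 32} := by decide
    rw [h4] at h3
    simp only [Finset.mem_insert, Finset.mem_singleton] at h3
    omega
  have hd := h.dual hzK hKQ
  rw [hK16'] at hd
  obtain ⟨q0, hq0, hq0Z⟩ : ∃ q0 ∈ Q ⊓ centralizer (K : Set S), q0 ∉ zpowers z := by
    by_contra hcon3
    push Not at hcon3
    have := card_le_of_le (H := Q ⊓ centralizer (K : Set S)) (K := zpowers z) hcon3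
    rw [h.card_z] at this
    omega
  have hq0Q := hq0.1
  have hq0K : ∀ k ∈ K, q0 * k = k * q0 := fun k hk => (mem_centralizer_iff.1 hq0.2 k hk).symm
  obtain ⟨q1, hq1, hq1n⟩ : ∃ q1 ∈ Q, ¬ q0 * q1 = q1 * q0 := by
    by_contra hcon3
    push Not at hcon3
    exact hq0Z ((h.zmem _).2 (h.cent q0 hcon3))
  have hq1K : q1 ∉ K := fun h1 => hq1n (hq0K q1 h1)
  have hfinal : ∀ q ∈ Q, (v * q0⁻¹) * q = q * (v * q0⁻¹) := by
    intro q hq
    by_cases hqK : q ∈ K
    · have h1 := hq0K q hqK
      have h2 := ((hKm q).1 hqK).2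
      have h3 : q0⁻¹ * q = q * q0⁻¹ := ((show Commute q0 q from h1).inv_left).eq
      calc (v * q0⁻¹) * q = v * (q0⁻¹ * q) := by group
        _ = v * (q * q0⁻¹) := by rw [h3]
        _ = (v * q) * q0⁻¹ := by group
        _ = (q * v) * q0⁻¹ := by rw [h2]
        _ = _ := by group
    · have h1 : ¬ v * q = q * v := fun h1 => hqK ((hKm q).2 ⟨hq, h1.symm⟩)
      have h2 := hvc q hq h1
      have h3 : ¬ q0 * q = q * q0 := by
        intro h3
        apply hq1n
        have h4 := hdiff q hq q1 hq1 hqK hq1K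
        have h5 := hq0K _ h4
        have h6 : Commute q0 (q * (q⁻¹ * q1)) := (show Commute q0 q from h3).mul_right h5
        have h7 : q * (q⁻¹ * q1) = q1 := by group
        rw [h7] at h6
        exact h6.eq
      have h4 := hinvz q0 q (h.comQ hq0Q hq h3)
      calc (v * q0⁻¹) * q = v * (q0⁻¹ * q) := by group
        _ = v * (z * (q * q0⁻¹)) := by rw [h4]
        _ = (v * z) * q * q0⁻¹ := by group
        _ = z * (v * q) * q0⁻¹ := by rw [h.zc v]; group
        _ = z * (z * (q * v)) * q0⁻¹ := by rw [h2]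
        _ = (z * z) * (q * (v * q0⁻¹)) := by group
        _ = _ := by rw [h.zz, one_mul]
  apply hvQ
  have h1 : v = (v * q0⁻¹) * q0 := by group
  rw [h1]
  rcases h.cent _ hfinal with h2 | h2
  · rw [h2, one_mul]; exact hq0Q
  · rw [h2]; exact Q.mul_mem h.zQ hq0Q

end Cfsg.Agent.H10.QQ
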