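import Cfsg.Agent.H10.Q8Q8
import Cfsg.Agent.H39.HarC
import Cfsg.Agent.H10.HarE2

set_option autoImplicit false
set_option linter.unusedSectionVars false

namespace Cfsg.Agent.H10.QQ
open Subgroup Cfsg.Agent.H20.Har Cfsg.Agent.H10.HarE

variable {S : Type*} [Group S] [Finite S] {Q : Subgroup S} {z : S}

theorem cm_mul {x y a : S} (hx : x * a = a * x) (hy : y * a = a * y) : x * y * a = a * (x * y) :=
  ((show Commute x a from hx).mul_left (show Commute y a from hy)).eq

theorem cm_cancel {x y a : S} (hx : x * a = a * x) (hxy : x * y * a = a * (x * y)) : y * a = a * y := by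
  have h1 : Commute x⁻¹ a := (show Commute x a from hx).inv_left
  have h2 : Commute (x⁻¹ * (x * y)) a := h1.mul_left hxy
  rw [inv_mul_cancel_left] at h2
  exact h2.eq

theorem cm_cancel' {x y a : S} (hy : y * a = a * y) (hxy : x * y * a = a * (x * y)) : x * a = a * x := by
  have h1 : Commute y⁻¹ a := (show Commute y a from hy).inv_left
  have h2 : Commute ((x * y) * y⁻¹) a := (show Commute (x * y) a from hxy).mul_left h1
  rw [mul_inv_cancel_right] at h2
  exact h2.eq

/-- `K ∪ K a` for an involution `a` centralizing `K`. -/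
def ext (K : Subgroup S) (a : S) (haa : a * a = 1) (hc : ∀ k ∈ K, k * a = a * k) : Subgroup S where
  carrier := {x | x ∈ K ∨ x * a ∈ K}
  one_mem' := Or.inl (one_mem _)
  mul_mem' := by
    rintro x y (hx | hx) (hy | hy)
    · exact Or.inl (K.mul_mem hx hy)
    · right
      rw [mul_assoc]; exact K.mul_mem hx hy
    · right
      rw [mul_assoc, hc y hy, ← mul_assoc]; exact K.mul_mem hx hy
    · left
      have h1 : y * a = a * y := cm_cancel' rfl (hc _ hy)
      have h3 : x * y = (x * a) * (y * a) := by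
        calc x * y = x * (a * a) * y := by rw [haa, mul_one]
          _ = (x * a) * (a * y) := by group
          _ = _ := by rw [h1]
      rw [h3]; exact K.mul_mem hx hy
  inv_mem' := by
    rintro x (hx | hx)
    · exact Or.inl (K.inv_mem hx)
    · right
      have h1 : x * a = a * x := cm_cancel' rfl (hc _ hx)
      have h2 : x⁻¹ * a = (x * a)⁻¹ := by
        rw [h1, mul_inv_rev, inv_eq_of_mul_eq_one_left haa]
      rw [h2]; exact K.inv_mem hx

theorem mem_ext {K : Subgroup S} {a : S} (haa : a * a = 1) (hc : ∀ k ∈ K, k * a = a * k) {x : S} :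
    x ∈ ext K a haa hc ↔ x ∈ K ∨ x * a ∈ K := Iff.rfl

/-- Properties of `K ∪ K a`. -/
theorem ext_prop {K : Subgroup S} {a : S} (haa : a * a = 1) (hc : ∀ k ∈ K, k * a = a * k) (haK : a ∉ K)
    (Kc : ∀ x ∈ K, ∀ y ∈ K, x * y = y * x) (Ks : ∀ x ∈ K, x * x = 1) :
    ∃ B : Subgroup S, K ≤ B ∧ a ∈ B ∧ (∀ x ∈ B, x ∈ K ∨ x * a ∈ K) ∧ Nat.card B = 2 * Nat.card K ∧
      (∀ x ∈ B, ∀ y ∈ B, x * y = y * x) ∧ (∀ x ∈ B, x * x = 1) ∧
      (∀ C : Subgroup S, K ≤ C → a ∈ C → B ≤ C) := by
  have hKB : K ≤ ext K a haa hc := fun x hx => Or.inl hx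
  have haB : a ∈ ext K a haa hc := Or.inr (by rw [haa]; exact one_mem _)
  have hca : ∀ x ∈ ext K a haa hc, x * a = a * x := by
    rintro x (hx | hx)
    · exact hc x hx
    · exact cm_cancel' rfl (hc _ hx)
  have hck : ∀ x ∈ ext K a haa hc, ∀ k ∈ K, x * k = k * x := by
    rintro x (hx | hx) k hk
    · exact Kc x hx k hk
    · exact cm_cancel' (hc k hk).symm (Kc _ hx k hk)
  have hmin : ∀ C : Subgroup S, K ≤ C → a ∈ C → ext K a haa hc ≤ C := by
    rintro C hKC haC x (hx | hx)
    · exact hKC hx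
    · have h1 : x = (x * a) * a := by rw [mul_assoc, haa, mul_one]
      rw [h1]; exact C.mul_mem (hKC hx) haC
  have hcc : ∀ x ∈ ext K a haa hc, ∀ y ∈ ext K a haa hc, x * y = y * x := by
    rintro x hx y (hy | hy)
    · exact hck x hx y hy
    · have h1 := hck x hx _ hy
      have h2 : (y * a) * x = x * (y * a) := h1.symm
      exact (cm_cancel' (hca x hx).symm h2).symm
  refine ⟨ext K a haa hc, hKB, haB, fun x hx => hx, ?_, hcc, ?_, hmin⟩
  · have h1 : Nat.card ↥(ext K a haa hc) ≤ 2 * Nat.card K := by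
      have h2 := card_le_two (ext K a haa hc) K (by
        intro s hs s' hs' hsK hs'K
        have h3 : s * a ∈ K := hs.resolve_left hsK
        have h4 : s' * a ∈ K := hs'.resolve_left hs'K
        have h5 : s⁻¹ * s' = (s * a)⁻¹ * (s' * a) := by
          rw [hca s hs, hca s' hs']; group
        rw [h5]; exact K.mul_mem (K.inv_mem h3) h4)
      rwa [inf_eq_right.2 hKB] at h2
    obtain ⟨m, hm⟩ := card_dvd_of_le hKB
    have h2 : Nat.card ↥(ext K a haa hc) ≠ Nat.card K := by
      intro h3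
      apply haK
      have h4 := Subgroup.eq_of_le_of_card_ge hKB h3.le
      rw [h4]; exact haB
    have h3 : 0 < Nat.card K := Nat.card_pos
    rw [hm] at h1 h2 ⊢
    have h4 : m ≤ 2 := by
      rw [mul_comm 2] at h1
      exact Nat.le_of_mul_le_mul_left h1 h3
    have h5 : m ≠ 1 := by
      rintro rfl
      exact h2 (mul_one _)
    have h6 : m ≠ 0 := by
      rintro rfl
      rw [mul_zero] at hm
      have : 0 < Nat.card ↥(ext K a haa hc) := Nat.card_pos
      omega
    have h7 : m = 2 := by omega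
    rw [h7, mul_comm]
  · rintro x hx
    have h2 := hca x hx
    rcases hx with hx' | hx'
    · exact Ks x hx'
    · have h1 := Ks _ hx'
      calc x * x = x * (a * a) * x := by rw [haa, mul_one]
        _ = (x * a) * (a * x) := by group
        _ = (x * a) * (x * a) := by rw [h2]
        _ = 1 := h1

theorem XS.cardc (h : XS Q z) {x : S} (hx : x ∈ Q) :
    16 ≤ Nat.card ↥(Q ⊓ centralizer ({x} : Set S)) := by
  have h1 := card_le_two Q (centralizer ({x} : Set S)) (by
    intro s hs s' hs' hsx hs'x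
    rw [mem_centralizer_singleton_iff] at hsx hs'x ⊢
    have h2 : s * x = z * (x * s) := h.comQ hs hx hsx
    have h3 : s' * x = z * (x * s') := h.comQ hs' hx hs'x
    have h4 : s⁻¹ * x = z * (x * s⁻¹) := by
      have h5 : x * s⁻¹ = s⁻¹ * (s * x) * s⁻¹ := by group
      rw [h5, h2]
      calc s⁻¹ * x = (z * z) * (s⁻¹ * x) := by rw [h.zz, one_mul]
        _ = z * ((z * s⁻¹) * x) := by group
        _ = z * ((s⁻¹ * z) * x) := by rw [h.zc s⁻¹]
        _ = z * (s⁻¹ * (z * (x * s)) * s⁻¹) := by group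
    calc s⁻¹ * s' * x = s⁻¹ * (s' * x) := by group
      _ = s⁻¹ * (z * (x * s')) := by rw [h3]
      _ = (s⁻¹ * z) * x * s' := by group
      _ = z * (s⁻¹ * x) * s' := by rw [h.zc s⁻¹]; group
      _ = z * (z * (x * s⁻¹)) * s' := by rw [h4]
      _ = (z * z) * (x * (s⁻¹ * s')) := by group
      _ = x * (s⁻¹ * s') := by rw [h.zz, one_mul])
  rw [h.card] at h1
  omega

/-- product of two elements not commuting with `x` commutes with `x`. -/
theorem XS.mulc (h : XS Q z) {x a b : S} (hx : x ∈ Q) (ha : a ∈ Q) (hb : b ∈ Q) (hax : ¬ a * x = x * a)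
    (hbx : ¬ b * x = x * b) : a * b * x = x * (a * b) := by
  have h1 := h.comQ ha hx hax
  have h2 := h.comQ hb hx hbx
  calc a * b * x = a * (b * x) := by group
    _ = a * (z * (x * b)) := by rw [h2]
    _ = (a * z) * (x * b) := by group
    _ = (z * a) * (x * b) := by rw [h.zc a]
    _ = z * (a * x) * b := by group
    _ = z * (z * (x * a)) * b := by rw [h1]
    _ = (z * z) * (x * (a * b)) := by group
    _ = _ := by rw [h.zz, one_mul]

theorem XS.sq_mul (h : XS Q z) {q f : S} (hq : q ∈ Q) (hf : f ∈ Q) (hn : ¬ q * f = f * q) (hff : f * f = 1) :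
    (q * f) * (q * f) = z * (q * q) := by
  have h1 : q * f = z * (f * q) := h.comQ hq hf hn
  calc (q * f) * (q * f) = (q * f) * (z * (f * q)) := by rw [← h1]
    _ = (q * f * z) * (f * q) := by group
    _ = (z * (q * f)) * (f * q) := by rw [h.zc]
    _ = z * q * (f * f) * q := by group
    _ = z * q * q := by rw [hff, mul_one]
    _ = _ := by group

theorem XS.step2 (h : XS Q z) {F : Subgroup S} (hFQ : F ≤ Q) (Fc : ∀ x ∈ F, ∀ y ∈ F, x * y = y * x)
    (Fs : ∀ x ∈ F, x * x = 1) (hzF : z ∈ F) (F8' : 8 ≤ Nat.card F) :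
    Nat.card F = 8 ∧ ∃ A : Subgroup S, A ≤ Q ∧ z ∈ A ∧ (∀ x ∈ A, ∀ y ∈ A, x * y = y * x) ∧
      (∀ x ∈ A, x * x = 1) ∧ Nat.card A = 8 ∧
      (∀ a ∈ A, (∀ f ∈ F, a * f = f * a) → a = 1 ∨ a = z) ∧
      (∀ s : S, (∀ a ∈ A, s * a = a * s) → (∀ f ∈ F, s * f = f * s) → s = 1 ∨ s = z) := by
  have hFc : F ≤ Q ⊓ centralizer (F : Set S) := by
    intro x hx
    exact ⟨hFQ hx, mem_centralizer_iff.2 fun y hy => Fc y hy x hx⟩
  have hd := h.dual hzF hFQ
  have hle := card_le_of_le hFc
  have F8 : Nat.card F = 8 := by nlinarith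
  have hcF : Q ⊓ centralizer (F : Set S) = F := by
    rw [F8] at hd
    exact (Subgroup.eq_of_le_of_card_ge hFc (by omega)).symm
  refine ⟨F8, ?_⟩
  have hZF : zpowers z ≤ F := by rw [zpowers_le]; exact hzF
  obtain ⟨f1, hf1, -, hf1Z⟩ := exists_third F (zpowers z) F8 h.card_z hZF 1
  rw [inv_one, one_mul] at hf1Z
  obtain ⟨f2, hf2, hf2Z, hf12⟩ := exists_third F (zpowers z) F8 h.card_z hZF f1
  have hgenF : ∀ B : Subgroup S, z ∈ B → f1 ∈ B → f2 ∈ B → F ≤ B := fun B h1 h2 h3 =>
    gen3 F (zpowers z) B F8 h.card_z hZF hf1 hf1Z hf2 hf2Z hf12 (by rw [zpowers_le]; exact h1) h2 h3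
  have hF_of : ∀ x : S, x * f1 = f1 * x → x * f2 = f2 * x → ∀ f ∈ F, x * f = f * x := by
    intro x h1 h2 f hf
    have h3 := hgenF (centralizer ({x} : Set S)) (by
      rw [mem_centralizer_singleton_iff]; exact (h.zc x).symm) (by
      rw [mem_centralizer_singleton_iff]; exact h1.symm) (by
      rw [mem_centralizer_singleton_iff]; exact h2.symm) hf
    exact (mem_centralizer_singleton_iff.1 h3).symm
  -- an element commuting with one of `f1`, `f2` but not the other
  have hq : ∀ e1 ∈ Q, ∀ e2 ∈ Q, (∀ x : S, x * e1 = e1 * x → x * e2 = e2 * x → ∀ f ∈ F, x * f = f * x) →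
      ∃ q ∈ Q, q * e1 = e1 * q ∧ ¬ q * e2 = e2 * q := by
    intro e1 he1 e2 he2 hgen
    by_contra hcon
    push Not at hcon
    have h1 : Q ⊓ centralizer ({e1} : Set S) ≤ Q ⊓ centralizer (F : Set S) := by
      intro x hx
      have h2 := mem_centralizer_singleton_iff.1 hx.2
      refine ⟨hx.1, mem_centralizer_iff.2 fun f hf => ?_⟩
      exact (hgen x h2 (hcon x hx.1 h2) f hf).symm
    have h2 := card_le_of_le h1
    have h3 := h.cardc he1
    rw [hcF, F8] at h2
    omega
  obtain ⟨q, hqQ, hq2, hq1⟩ := hq f2 (hFQ hf2) f1 (hFQ hf1) (fun x h1 h2 => hF_of x h2 h1)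
  obtain ⟨r, hrQ, hr1, hr2⟩ := hq f1 (hFQ hf1) f2 (hFQ hf2) hF_of
  have hf1f2 : f1 * f2 = f2 * f1 := Fc f1 hf1 f2 hf2
  -- `a1`
  obtain ⟨a1, ha1Q, ha1s, ha12, ha11⟩ : ∃ a1 ∈ Q, a1 * a1 = 1 ∧ a1 * f2 = f2 * a1 ∧ ¬ a1 * f1 = f1 * a1 := by
    rcases h.sq q hqQ with h1 | h1
    · exact ⟨q, hqQ, h1, hq2, hq1⟩
    · refine ⟨q * f1, Q.mul_mem hqQ (hFQ hf1), ?_, cm_mul hq2 hf1f2, fun h2 => hq1 (cm_cancel' rfl h2)⟩
      rw [h.sq_mul hqQ (hFQ hf1) hq1 (Fs f1 hf1), h1, h.zz]
  obtain ⟨r', hr'Q, hr'1, hr'2, hr'a⟩ : ∃ r ∈ Q, r * f1 = f1 * r ∧ ¬ r * f2 = f2 * r ∧ r * a1 = a1 * r := by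
    by_cases h1 : r * a1 = a1 * r
    · exact ⟨r, hrQ, hr1, hr2, h1⟩
    · refine ⟨r * f1, Q.mul_mem hrQ (hFQ hf1), cm_mul hr1 rfl, fun h2 => hr2 (cm_cancel' hf1f2 h2),
        h.mulc ha1Q hrQ (hFQ hf1) h1 (fun h2 => ha11 h2.symm)⟩
  obtain ⟨a2, ha2Q, ha2s, ha21, ha22, ha2a⟩ : ∃ a2 ∈ Q, a2 * a2 = 1 ∧ a2 * f1 = f1 * a2 ∧
      ¬ a2 * f2 = f2 * a2 ∧ a2 * a1 = a1 * a2 := by
    rcases h.sq r' hr'Q with h1 | h1
    · exact ⟨r', hr'Q, h1, hr'1, hr'2, hr'a⟩
    · refine ⟨r' * f2, Q.mul_mem hr'Q (hFQ hf2), ?_, cm_mul hr'1 hf1f2.symm,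
        fun h2 => hr'2 (cm_cancel' rfl h2), cm_mul hr'a ha12.symm⟩
      rw [h.sq_mul hr'Q (hFQ hf2) hr'2 (Fs f2 hf2), h1, h.zz]
  -- the group `A`
  have hzcom : ∀ k ∈ zpowers z, ∀ s : S, k * s = s * k := by
    intro k hk s
    rcases (h.zmem k).1 hk with rfl | rfl
    · rw [one_mul, mul_one]
    · exact (h.zc s).symm
  have hZs : ∀ k ∈ zpowers z, k * k = 1 := by
    intro k hk
    rcases (h.zmem k).1 hk with rfl | rfl
    · rw [mul_one]
    · exact h.zz
  obtain ⟨B, hZB, ha1B, hBd, hBc, hBcom, hBs, hBmin⟩ := ext_prop ha1s (fun k hk => hzcom k hk a1)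
    (fun h1 => ha11 (hzcom a1 h1 f1)) (fun x hx y _ => hzcom x hx y) hZs
  have hBa2 : ∀ k ∈ B, k * a2 = a2 * k := by
    intro k hk
    have h1 := hBmin (centralizer ({a2} : Set S)) (fun x hx => mem_centralizer_singleton_iff.2 (hzcom x hx a2))
      (mem_centralizer_singleton_iff.2 ha2a.symm) hk
    exact mem_centralizer_singleton_iff.1 h1
  have hBf2 : ∀ k ∈ B, k * f2 = f2 * k := by
    intro k hk
    have h1 := hBmin (centralizer ({f2} : Set S)) (fun x hx => mem_centralizer_singleton_iff.2 (hzcom x hx f2))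
      (mem_centralizer_singleton_iff.2 ha12) hk
    exact mem_centralizer_singleton_iff.1 h1
  obtain ⟨A, hBA, ha2A, hAd, hAc, hAcom, hAs, hAmin⟩ := ext_prop ha2s hBa2
    (fun h1 => ha22 (hBf2 a2 h1)) hBcom hBs
  have hzB : z ∈ B := hZB (mem_zpowers z)
  refine ⟨A, ?_, hBA hzB, hAcom, hAs, ?_, ?_, ?_⟩
  · refine hAmin Q (hBmin Q ?_ ha1Q) ha2Q
    rw [zpowers_le]; exact h.zQ
  · rw [hAc, hBc, h.card_z]
  · intro a ha haF
    have h1 := haF f1 hf1
    have h2 := haF f2 hf2
    have h3 : a ∈ B := by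
      refine (hAd a ha).resolve_right fun h4 => ?_
      exact ha22 (cm_cancel h2 (hBf2 _ h4))
    have h5 : a ∈ zpowers z := by
      refine (hBd a h3).resolve_right fun h4 => ?_
      exact ha11 (cm_cancel h1 (hzcom _ h4 f1))
    exact (h.zmem a).1 h5
  · intro s hsA hsF
    -- `A ⊔ F = Q`
    obtain ⟨T, hT⟩ : ∃ T : Subgroup S, T = A ⊔ F := ⟨_, rfl⟩
    have hAT : A ≤ T := by rw [hT]; exact le_sup_left
    have hFT : F ≤ T := by rw [hT]; exact le_sup_right
    have hAQ : A ≤ Q := by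
      refine hAmin Q (hBmin Q ?_ ha1Q) ha2Q
      rw [zpowers_le]; exact h.zQ
    have hTQ : T ≤ Q := by rw [hT, sup_le_iff]; exact ⟨hAQ, hFQ⟩
    have hcT : Q ⊓ centralizer (T : Set S) ≤ zpowers z := by
      intro x hx
      have h1 := mem_centralizer_iff.1 hx.2
      have hxF : x ∈ F := by
        rw [← hcF]
        exact ⟨hx.1, mem_centralizer_iff.2 fun f hf => h1 f (hFT hf)⟩
      have hxa1 : x * a1 = a1 * x := (h1 a1 (hAT (hBA ha1B))).symm
      have hxa2 : x * a2 = a2 * x := (h1 a2 (hAT ha2A)).symm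
      -- write `x` in terms of `f1, f2`
      obtain ⟨B', hZB', hf1B', hB'd, hB'c, hB'com, hB's, hB'min⟩ := ext_prop (Fs f1 hf1)
        (fun k hk => hzcom k hk f1) hf1Z (fun x hx y _ => hzcom x hx y) hZs
      have hB'a2 : ∀ k ∈ B', k * a2 = a2 * k := by
        intro k hk
        have h1 := hB'min (centralizer ({a2} : Set S))
          (fun x hx => mem_centralizer_singleton_iff.2 (hzcom x hx a2))
          (mem_centralizer_singleton_iff.2 ha21.symm) hk
        exact mem_centralizer_singleton_iff.1 h1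
      have hB'f2 : ∀ k ∈ B', k * f2 = f2 * k := by
        intro k hk
        have h1 := hB'min (centralizer ({f2} : Set S))
          (fun x hx => mem_centralizer_singleton_iff.2 (hzcom x hx f2))
          (mem_centralizer_singleton_iff.2 hf1f2) hk
        exact mem_centralizer_singleton_iff.1 h1
      obtain ⟨F', hB'F', hf2F', hF'd, -, -, -, -⟩ := ext_prop (Fs f2 hf2) hB'f2
        (fun h1 => ha22 (hB'a2 f2 h1).symm) hB'com hB's
      have hxF' : x ∈ F' := hgenF F' (hB'F' (hZB' (mem_zpowers z))) (hB'F' hf1B') hf2F' hxF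
      have h3 : x ∈ B' := by
        refine (hF'd x hxF').resolve_right fun h4 => ?_
        exact ha22 (cm_cancel hxa2 (hB'a2 _ h4)).symm
      refine (hB'd x h3).resolve_right fun h4 => ?_
      exact ha11 (cm_cancel hxa1 (hzcom _ h4 a1)).symm
    have h1 := h.dual (hFT hzF) hTQ
    have h2 := card_le_of_le hcT
    rw [h.card_z] at h2
    have h3 : T = Q := Subgroup.eq_of_le_of_card_ge hTQ (by rw [h.card]; nlinarith)
    refine h.cent s fun q hq => ?_
    have h4 : Q ≤ centralizer ({s} : Set S) := by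
      rw [← h3, hT, sup_le_iff]
      constructor
      · intro a ha
        exact mem_centralizer_singleton_iff.2 (hsA a ha).symm
      · intro f hf
        exact mem_centralizer_singleton_iff.2 (hsF f hf).symm
    exact (mem_centralizer_singleton_iff.1 (h4 hq)).symm

theorem fp (T : Subgroup S) (a : S) (haa : a * a = 1) (hTa : ∀ s ∈ T, a * s * a ∈ T)
    (Tc : ∀ x ∈ T, ∀ y ∈ T, x * y = y * x) (Ts : ∀ x ∈ T, x * x = 1) :
    Nat.card T ≤ Nat.card ↥(T ⊓ centralizer ({a} : Set S)) * Nat.card ↥(T ⊓ centralizer ({a} : Set S)) := by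
  have h1 := fixed_points T ⊥ (T ⊓ centralizer ({a} : Set S)) a haa bot_le hTa (by
      intro s hs
      rw [mem_bot] at hs ⊢
      rw [hs, mul_one, haa])
    (by
      intro x hx y hy
      rw [mem_bot, Tc x hx y hy]; group)
    (fun x hx => by rw [mem_bot]; exact Ts x hx)
    (by
      intro s
      rw [mem_inf, mem_centralizer_singleton_iff, mem_bot]
      constructor
      · rintro ⟨h1, h2⟩
        refine ⟨h1, ?_⟩
        rw [← h2, mul_assoc, haa, mul_one, inv_mul_cancel]
      · rintro ⟨h1, h2⟩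
        refine ⟨h1, ?_⟩
        have h3 : a * s * a = s := (inv_mul_eq_one.1 h2).symm
        calc s * a = (a * s * a) * a := by rw [h3]
          _ = a * s * (a * a) := by group
          _ = a * s := by rw [haa, mul_one])
  rwa [card_bot, mul_one] at h1

theorem XS.step3 (h : XS Q z) {V : Subgroup S} (Vn : ∀ v ∈ V, ∀ g : S, g * v * g⁻¹ ∈ V)
    (Vcomm : ∀ v ∈ V, ∀ w ∈ V, v * w = w * v) (Vsq : ∀ v ∈ V, v * v = 1)
    (Vmax : ∀ E : Subgroup S, E.Normal → (∀ v ∈ E, ∀ w ∈ E, v * w = w * v) → (∀ v ∈ E, v * v = 1) →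
      Nat.card E ≤ Nat.card V) (V8 : 8 ≤ Nat.card V) : R4 S := by
  have hzcom : ∀ k ∈ zpowers z, ∀ s : S, k * s = s * k := by
    intro k hk s
    rcases (h.zmem k).1 hk with rfl | rfl
    · rw [one_mul, mul_one]
    · exact (h.zc s).symm
  have hzV : z ∈ V := by
    by_contra hzV
    obtain ⟨B, hVB, hzB, hBd, hBc, hBcom, hBs, hBmin⟩ := ext_prop h.zz (fun k _ => h.zc k) hzV Vcomm Vsq
    have hBn : B.Normal := by
      constructor
      intro x hx g
      rcases hBd x hx with h1 | h1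
      · exact hVB (Vn x h1 g)
      · have h2 : g * x * g⁻¹ = (g * (x * z) * g⁻¹) * z⁻¹ := by
          calc g * x * g⁻¹ = g * x * (z * g⁻¹ * z⁻¹) := by rw [← h.zc g⁻¹]; group
            _ = _ := by group
        rw [h2]
        exact B.mul_mem (hVB (Vn _ h1 g)) (B.inv_mem hzB)
    have h1 := Vmax B hBn hBcom hBs
    omega
  obtain ⟨F, hF⟩ : ∃ F : Subgroup S, F = V ⊓ Q := ⟨_, rfl⟩
  have hFm : ∀ x, x ∈ F ↔ x ∈ V ∧ x ∈ Q := by intro x; rw [hF, mem_inf]
  have F8' := h.step1 Vn Vcomm Vsq hzV V8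
  rw [← hF] at F8'
  have hFV : F ≤ V := fun x hx => ((hFm x).1 hx).1
  have hzF : z ∈ F := (hFm z).2 ⟨hzV, h.zQ⟩
  obtain ⟨F8, A, hAQ, hzA, Ac, As, A8, hAF, hcent⟩ := h.step2 (fun x hx => ((hFm x).1 hx).2)
    (fun x hx y hy => Vcomm x (hFV hx) y (hFV hy)) (fun x hx => Vsq x (hFV hx)) hzF F8'
  have hZA : zpowers z ≤ A := by rw [zpowers_le]; exact hzA
  have hZF : zpowers z ≤ F := by rw [zpowers_le]; exact hzF
  have hAV : A ⊓ V = zpowers z := by
    apply le_antisymm
    · intro x hx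
      rw [h.zmem]
      exact hAF x hx.1 fun f hf => Vcomm x hx.2 f (hFV hf)
    · exact le_inf hZA (hZF.trans hFV)
  have X2 : Nat.card ↥(A ⊓ V) = 2 := by rw [hAV, h.card_z]
  have hcentV : ∀ s : S, (∀ a ∈ A, s * a = a * s) → (∀ v ∈ V, s * v = v * s) → s ∈ A := by
    intro s h1 h2
    rcases hcent s h1 (fun f hf => h2 f (hFV hf)) with h3 | h3
    · rw [h3]; exact one_mem _
    · rw [h3]; exact hzA
  have hW : HW A V := ⟨h.two, Ac, As, A8, hcentV, Vn, Vcomm, Vsq, Vmax⟩
  have hVA : ∀ v ∈ V, (∀ a ∈ A, v * a = a * v) → v = 1 ∨ v = z := fun v hv h1 =>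
    hcent v h1 (fun f hf => Vcomm v hv f (hFV hf))
  have hconj : ∀ a ∈ A, ∀ s ∈ V, a * s * a ∈ V := by
    intro a ha s hs
    have := Vn s hs a
    rwa [inv_eq_of_mul_eq_one_left (As a ha)] at this
  have hC4 : ∀ a ∈ A, a ∉ zpowers z → Nat.card ↥(V ⊓ centralizer ({a} : Set S)) ≤ 4 := by
    intro a ha haZ
    obtain ⟨b, hb, hbZ, hab⟩ := exists_third A (zpowers z) A8 h.card_z hZA a
    obtain ⟨T, hT⟩ : ∃ T : Subgroup S, T = V ⊓ centralizer ({a} : Set S) := ⟨_, rfl⟩
    have hTm : ∀ x, x ∈ T ↔ x ∈ V ∧ x * a = a * x := by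
      intro x; rw [hT, mem_inf, mem_centralizer_singleton_iff]
    rw [← hT]
    have h1 := fp T b (As b hb) (by
      intro s hs
      rw [hTm] at hs ⊢
      refine ⟨hconj b hb s hs.1, ?_⟩
      exact cm_mul (cm_mul (Ac b hb a ha) hs.2) (Ac b hb a ha)) (fun x hx y hy =>
        Vcomm x ((hTm x).1 hx).1 y ((hTm y).1 hy).1) (fun x hx => Vsq x ((hTm x).1 hx).1)
    have h2 : T ⊓ centralizer ({b} : Set S) ≤ zpowers z := by
      intro x hx
      have h3 := (hTm x).1 hx.1
      have h4 := mem_centralizer_singleton_iff.1 hx.2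
      rw [h.zmem]
      refine hVA x h3.1 fun c hc => ?_
      have h5 := gen3 A (zpowers z) (centralizer ({x} : Set S)) A8 h.card_z hZA ha haZ hb hbZ hab
        (fun y hy => mem_centralizer_singleton_iff.2 (hzcom y hy x))
        (mem_centralizer_singleton_iff.2 h3.2.symm) (mem_centralizer_singleton_iff.2 h4.symm) hc
      exact (mem_centralizer_singleton_iff.1 h5).symm
    have h3 := card_le_of_le h2
    rw [h.card_z] at h3
    calc Nat.card T ≤ _ := h1
      _ ≤ 2 * 2 := Nat.mul_le_mul h3 h3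
      _ = 4 := by norm_num
  have hV16 : Nat.card V ≤ 16 := by
    obtain ⟨b, hb, -, hbZ⟩ := exists_third A (zpowers z) A8 h.card_z hZA 1
    rw [inv_one, one_mul] at hbZ
    have h1 := fp V b (As b hb) (hconj b hb) Vcomm Vsq
    have h2 := hC4 b hb hbZ
    calc Nat.card V ≤ _ := h1
      _ ≤ 4 * 4 := Nat.mul_le_mul h2 h2
      _ = 16 := by norm_num
  have hV : Nat.card V = 8 ∨ Nat.card V = 16 := by
    obtain ⟨n, hn⟩ := (h.two.to_subgroup V).exists_card_eq
    rw [hn] at V8 hV16 ⊢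
    have h3 : n = 3 ∨ n = 4 := by
      by_contra hcon
      rcases lt_or_ge n 3 with h4 | h4
      · have := Nat.pow_le_pow_right (show 0 < 2 by norm_num) (show n ≤ 2 by omega)
        omega
      · have := Nat.pow_le_pow_right (show 0 < 2 by norm_num) (show 5 ≤ n by omega)
        omega
    rcases h3 with rfl | rfl
    · left; norm_num
    · right; norm_num
  rcases hV with hV | hV
  · exact Cfsg.Agent.H39.HarC.caseC hW hV X2
  -- `|V| = 16`
  · refine caseE (A := A) (V := V) ⟨hW, ?_⟩ hV X2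
    -- the index of `F` in `V` is two
    have hidx : ∀ v ∈ V, ∀ w ∈ V, v ∉ F → w ∉ F → v⁻¹ * w ∈ F := fun v hv w hw h1 h2 =>
      idx2 hFV (by omega) hv hw h1 h2
    obtain ⟨v, hvV, hvF⟩ : ∃ v ∈ V, v ∉ F := by
      by_contra hcon
      push Not at hcon
      have := card_le_of_le (H := V) (K := F) hcon
      omega
    have hFn : ∀ f ∈ F, ∀ a ∈ Q, a * f * a⁻¹ ∈ F := by
      intro f hf a ha
      exact (hFm _).2 ⟨Vn f (hFV hf) a, Q.mul_mem (Q.mul_mem ha ((hFm f).1 hf).2) (Q.inv_mem ha)⟩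
    have hDF : ∀ a ∈ A, v⁻¹ * (a * v * a⁻¹) ∈ F := by
      intro a ha
      refine hidx v hvV _ (Vn v hvV a) hvF ?_
      intro h1
      apply hvF
      have h2 := hFn _ h1 a⁻¹ (Q.inv_mem (hAQ ha))
      simpa [mul_assoc] using h2
    have hFz : ∀ f ∈ F, ∀ a ∈ A, ∃ k ∈ zpowers z, a * f * a⁻¹ = f * k := by
      intro f hf a ha
      rcases h.com a (hAQ ha) f ((hFm f).1 hf).2 with h1 | h1
      · refine ⟨1, one_mem _, ?_⟩
        calc a * f * a⁻¹ = (a * f * a⁻¹ * f⁻¹) * f := by group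
          _ = f * 1 := by rw [h1, one_mul, mul_one]
      · refine ⟨z, mem_zpowers _, ?_⟩
        calc a * f * a⁻¹ = (a * f * a⁻¹ * f⁻¹) * f := by group
          _ = f * z := by rw [h1, h.zc f]
    -- (ii)
    have hinj : ∀ w ∈ V, w ∉ F → ∀ a ∈ A, w⁻¹ * (a * w * a⁻¹) ∈ zpowers z → a ∈ zpowers z := by
      intro w hwV hwF a ha haw
      by_contra haZ
      have h1 := hC4 a ha haZ
      -- `[V, a] ≤ ⟨z⟩`
      have h2 : ∀ u ∈ V, a * u = u * a ∨ a * u = z * (u * a) := by
        have hwa : a * w = w * a ∨ a * w = z * (w * a) := by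
          rcases (h.zmem _).1 haw with h3 | h3
          · left
            have h4 : a * w * a⁻¹ = w := (inv_mul_eq_one.1 h3).symm
            calc a * w = (a * w * a⁻¹) * a := by group
              _ = w * a := by rw [h4]
          · right
            have h4 : a * w * a⁻¹ = w * z := by
              calc a * w * a⁻¹ = w * (w⁻¹ * (a * w * a⁻¹)) := by group
                _ = w * z := by rw [h3]
            calc a * w = (a * w * a⁻¹) * a := by group
              _ = z * (w * a) := by rw [h4, h.zc w, mul_assoc]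
        intro u hu
        by_cases huF : u ∈ F
        · exact h.com' (hAQ ha) ((hFm u).1 huF).2
        · have h3 := hidx w hwV u hu hwF huF
          have h4 := h.com' (hAQ ha) ((hFm _).1 h3).2
          have h5 : u = w * (w⁻¹ * u) := by group
          obtain ⟨f, hf⟩ : ∃ f, f = w⁻¹ * u := ⟨_, rfl⟩
          rw [← hf] at h4 h5
          rw [h5]
          rcases hwa with h6 | h6 <;> rcases h4 with h7 | h7
          · left
            calc a * (w * f) = (a * w) * f := by group
              _ = w * (a * f) := by rw [h6]; group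
              _ = w * f * a := by rw [h7]; group
          · right
            calc a * (w * f) = (a * w) * f := by group
              _ = w * (a * f) := by rw [h6]; group
              _ = (w * z) * f * a := by rw [h7]; group
              _ = z * (w * f * a) := by rw [h.zc w]; group
          · right
            calc a * (w * f) = (a * w) * f := by group
              _ = z * w * (a * f) := by rw [h6]; group
              _ = z * (w * f * a) := by rw [h7]; group
          · left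
            calc a * (w * f) = (a * w) * f := by group
              _ = z * w * (a * f) := by rw [h6]; group
              _ = z * (w * z) * f * a := by rw [h7]; group
              _ = (z * z) * (w * f * a) := by rw [h.zc w]; group
              _ = w * f * a := by rw [h.zz, one_mul]
      have h3 := card_le_two V (centralizer ({a} : Set S)) (by
        intro s hs s' hs' hsa hs'a
        rw [mem_centralizer_singleton_iff] at hsa hs'a ⊢
        have h4 : a * s = z * (s * a) := (h2 s hs).resolve_left (fun h5 => hsa h5.symm)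
        have h4' : a * s' = z * (s' * a) := (h2 s' hs').resolve_left (fun h5 => hs'a h5.symm)
        have h5 : s⁻¹ * a = z * (a * s⁻¹) := by
          have h6 : s⁻¹ * (a * s) * s⁻¹ = s⁻¹ * (z * (s * a)) * s⁻¹ := by rw [h4]
          have h7 : s⁻¹ * (a * s) * s⁻¹ = s⁻¹ * a := by group
          have h8 : s⁻¹ * (z * (s * a)) * s⁻¹ = z * (a * s⁻¹) := by
            calc s⁻¹ * (z * (s * a)) * s⁻¹ = (s⁻¹ * z) * (s * a) * s⁻¹ := by group
              _ = (z * s⁻¹) * (s * a) * s⁻¹ := by rw [h.zc s⁻¹]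
              _ = _ := by group
          rw [h7, h8] at h6
          exact h6
        calc s⁻¹ * s' * a = (s⁻¹ * s') * a := rfl
          _ = s⁻¹ * ((z * z) * (s' * a)) := by rw [h.zz]; group
          _ = s⁻¹ * z * (z * (s' * a)) := by group
          _ = z * s⁻¹ * (a * s') := by rw [← h4', h.zc s⁻¹]
          _ = z * (s⁻¹ * a) * s' := by group
          _ = z * (z * (a * s⁻¹)) * s' := by rw [h5]
          _ = (z * z) * (a * (s⁻¹ * s')) := by group
          _ = a * (s⁻¹ * s') := by rw [h.zz, one_mul])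
      rw [hV] at h3
      omega
    -- (iii)
    have hsurj : ∀ f ∈ F, ∃ a ∈ A, f⁻¹ * (v⁻¹ * (a * v * a⁻¹)) ∈ zpowers z := by
      have hZn : (zpowers z).Normal := by
        constructor
        intro k hk g
        rw [← hzcom k hk g, mul_inv_cancel_right]
        exact hk
      let π := QuotientGroup.mk' (zpowers z)
      have hπ : ∀ x y : S, π x = π y ↔ x⁻¹ * y ∈ zpowers z := fun x y => QuotientGroup.eq
      let D : A →* S ⧸ zpowers z :=
        { toFun := fun a => π (v⁻¹ * ((a : S) * v * (a : S)⁻¹))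
          map_one' := by
            rw [← map_one π]
            congr 1
            rw [OneMemClass.coe_one]; group
          map_mul' := by
            intro a b
            rw [← map_mul]
            obtain ⟨k, hk, hk'⟩ := hFz _ (hDF b b.2) a a.2
            have h1 : v⁻¹ * (((a * b : A) : S) * v * ((a * b : A) : S)⁻¹) =
                (v⁻¹ * ((a : S) * v * (a : S)⁻¹)) * ((a : S) * (v⁻¹ * ((b : S) * v * (b : S)⁻¹)) * (a : S)⁻¹) := by
              push_cast; group
            rw [h1, hk', ← mul_assoc, eq_comm, hπ]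
            have h2 : ∀ x : S, x⁻¹ * (x * k) = k := fun x => by group
            rw [h2]; exact hk }
      have hDa : ∀ a : A, D a = π (v⁻¹ * ((a : S) * v * (a : S)⁻¹)) := fun a => rfl
      have hker : Nat.card D.ker ≤ 2 := by
        have h1 : D.ker ≤ (zpowers z).subgroupOf A := by
          intro a ha
          rw [MonoidHom.mem_ker, hDa, ← map_one π, eq_comm, hπ, inv_one, one_mul] at ha
          rw [mem_subgroupOf]
          exact hinj v hvV hvF a a.2 ha
        have h2 := card_le_of_le h1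
        rw [Nat.card_congr (subgroupOfEquivOfLe hZA).toEquiv, h.card_z] at h2
        exact h2
      have hran : D.range ≤ F.map π := by
        rintro _ ⟨a, rfl⟩
        exact ⟨_, hDF a a.2, rfl⟩
      have hFm4 : Nat.card ↥(F.map π) ≤ 4 := by
        have h1 : (zpowers z).relIndex F = Nat.card ↥(F.map π) := by
          rw [← Subgroup.relIndex_ker F π, QuotientGroup.ker_mk']
        have h2 := Cfsg.Agent.H63.card_mul_relIndex hZF
        rw [h1, h.card_z, F8] at h2
        omega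
      have hrc : 4 ≤ Nat.card D.range := by
        have h1 := Subgroup.card_mul_index D.ker
        rw [Subgroup.index_ker, A8] at h1
        nlinarith
      have hre : D.range = F.map π := Subgroup.eq_of_le_of_card_ge hran (by omega)
      intro f hf
      have h1 : π f ∈ D.range := by rw [hre]; exact ⟨f, hf, rfl⟩
      obtain ⟨a, ha⟩ := h1
      refine ⟨a, a.2, ?_⟩
      rw [← hπ, ← hDa]; exact ha.symm
    -- `C_S(A) ≤ A`
    intro x hxA
    -- `x` normalizes `F`
    have hFx : ∀ f ∈ F, x * f * x⁻¹ ∈ F := by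
      intro f hf
      by_contra hcon
      obtain ⟨b, hb, -, hbZ⟩ := exists_third A (zpowers z) A8 h.card_z hZA 1
      rw [inv_one, one_mul] at hbZ
      apply hbZ
      refine hinj _ (Vn f (hFV hf) x) hcon b hb ?_
      obtain ⟨k, hk, hk'⟩ := hFz f hf b hb
      have h1 : b * (x * f * x⁻¹) * b⁻¹ = x * (b * f * b⁻¹) * x⁻¹ := by
        have h2 : b * x = x * b := (hxA b hb).symm
        have h3 : x⁻¹ * b⁻¹ = b⁻¹ * x⁻¹ := by rw [← mul_inv_rev, ← mul_inv_rev, h2]
        calc b * (x * f * x⁻¹) * b⁻¹ = (b * x) * f * (x⁻¹ * b⁻¹) := by group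
          _ = (x * b) * f * (b⁻¹ * x⁻¹) := by rw [h2, h3]
          _ = _ := by group
      rw [h1, hk']
      have h2 : (x * f * x⁻¹)⁻¹ * (x * (f * k) * x⁻¹) = x * k * x⁻¹ := by group
      rw [h2, ← hzcom k hk x, mul_inv_cancel_right]
      exact hk
    have hxv : v⁻¹ * (x * v * x⁻¹) ∈ F := by
      refine hidx v hvV _ (Vn v hvV x) hvF ?_
      intro h1
      apply hvF
      -- finite order argument replaced by: x⁻¹ also normalizes F
      have h2 : ∀ f ∈ F, x⁻¹ * f * x ∈ F := by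
        intro f hf
        by_contra hcon
        obtain ⟨b, hb, -, hbZ⟩ := exists_third A (zpowers z) A8 h.card_z hZA 1
        rw [inv_one, one_mul] at hbZ
        apply hbZ
        have hV' : x⁻¹ * f * x ∈ V := by have := Vn f (hFV hf) x⁻¹; rwa [inv_inv] at this
        refine hinj _ hV' hcon b hb ?_
        obtain ⟨k, hk, hk'⟩ := hFz f hf b hb
        have h1 : b * (x⁻¹ * f * x) * b⁻¹ = x⁻¹ * (b * f * b⁻¹) * x := by
          have h2 : x * b = b * x := hxA b hb
          have h3 : b * x⁻¹ = x⁻¹ * b := by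
            calc b * x⁻¹ = x⁻¹ * (x * b) * x⁻¹ := by group
              _ = x⁻¹ * (b * x) * x⁻¹ := by rw [h2]
              _ = _ := by group
          have h4 : x * b⁻¹ = b⁻¹ * x := by
            calc x * b⁻¹ = b⁻¹ * (b * x) * b⁻¹ := by group
              _ = b⁻¹ * (x * b) * b⁻¹ := by rw [h2]
              _ = _ := by group
          calc b * (x⁻¹ * f * x) * b⁻¹ = (b * x⁻¹) * f * (x * b⁻¹) := by group
            _ = (x⁻¹ * b) * f * (b⁻¹ * x) := by rw [h3, h4]
            _ = _ := by group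
        rw [h1, hk']
        have h2 : (x⁻¹ * f * x)⁻¹ * (x⁻¹ * (f * k) * x) = x⁻¹ * k * x := by group
        rw [h2]
        have h3 : x⁻¹ * k * x = k := by rw [← hzcom k hk x⁻¹]; group
        rw [h3]; exact hk
      have h3 := h2 _ h1
      have h4 : x⁻¹ * (x * v * x⁻¹) * x = v := by group
      rw [h4] at h3; exact h3
    obtain ⟨a, ha, haf⟩ := hsurj _ hxv
    -- `x v x⁻¹ ≡ a v a⁻¹` mod `⟨z⟩`
    obtain ⟨k, hk, hk'⟩ : ∃ k ∈ zpowers z, a * v * a⁻¹ = (x * v * x⁻¹) * k := by
      refine ⟨_, haf, ?_⟩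
      group
    obtain ⟨y, hy⟩ : ∃ y, y = a⁻¹ * x := ⟨_, rfl⟩
    have hyv : y * v * y⁻¹ = v * k⁻¹ := by
      have h1 : x * v * x⁻¹ = (a * v * a⁻¹) * k⁻¹ := by rw [hk']; group
      calc y * v * y⁻¹ = a⁻¹ * (x * v * x⁻¹) * a := by rw [hy]; group
        _ = a⁻¹ * ((a * v * a⁻¹) * k⁻¹) * a := by rw [h1]
        _ = v * (a⁻¹ * k⁻¹) * a := by group
        _ = v * (k⁻¹ * a⁻¹) * a := by rw [hzcom _ (inv_mem hk) a⁻¹]
        _ = v * k⁻¹ := by group
    have hyA : ∀ b ∈ A, y * b = b * y := by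
      intro b hb
      rw [hy]
      exact cm_mul (Ac a⁻¹ (A.inv_mem ha) b hb) (hxA b hb)
    -- `y` centralizes `[v, b]` for every `b`
    have hyF : ∀ f ∈ F, y * f = f * y := by
      intro f hf
      obtain ⟨b, hb, hbf⟩ := hsurj f hf
      obtain ⟨m, hm⟩ : ∃ m, m = v⁻¹ * (b * v * b⁻¹) := ⟨_, rfl⟩
      have h1 : y * m * y⁻¹ = m := by
        have h2 : y * b * y⁻¹ = b := by rw [hyA b hb, mul_inv_cancel_right]
        calc y * m * y⁻¹ = (y * v * y⁻¹)⁻¹ * ((y * b * y⁻¹) * (y * v * y⁻¹) * (y * b * y⁻¹)⁻¹) := by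
              rw [hm]; group
          _ = (v * k⁻¹)⁻¹ * (b * (v * k⁻¹) * b⁻¹) := by rw [h2, hyv]
          _ = k * v⁻¹ * b * v * (k⁻¹ * b⁻¹) := by group
          _ = k * v⁻¹ * b * v * (b⁻¹ * k⁻¹) := by rw [hzcom _ (inv_mem hk) b⁻¹]
          _ = k * (v⁻¹ * (b * v * b⁻¹)) * k⁻¹ := by group
          _ = (v⁻¹ * (b * v * b⁻¹)) * k * k⁻¹ := by rw [hzcom k hk]
          _ = m := by rw [hm, mul_inv_cancel_right]
      have h2 : y * m = m * y := by
        calc y * m = (y * m * y⁻¹) * y := by group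
          _ = m * y := by rw [h1]
      rw [← hm] at hbf
      -- `m = f * k'`
      have h3 : (f⁻¹ * m) * y = y * (f⁻¹ * m) := hzcom _ hbf y
      have h4 : Commute (m * (f⁻¹ * m)⁻¹) y := (show Commute m y from h2.symm).mul_left
        ((show Commute (f⁻¹ * m) y from h3).inv_left)
      have h5 : m * (f⁻¹ * m)⁻¹ = f := by group
      rw [h5] at h4
      exact h4.eq.symm
    have h1 : x = a * y := by rw [hy]; group
    rw [h1]
    refine A.mul_mem ha ?_
    rcases hcent y hyA hyF with h2 | h2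
    · rw [h2]; exact one_mem _
    · rw [h2]; exact hzA

end Cfsg.Agent.H10.QQ
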