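import Cfsg.Agent.H10.Q8Q8b
import Cfsg.Agent.H20.HarMain0

set_option autoImplicit false
set_option linter.unusedSectionVars false

namespace Cfsg.Agent.H10.QQ
open Subgroup Cfsg.Agent.H20.Har

theorem q8_comm : ∀ x y : QuaternionGroup 2, x * y * x⁻¹ * y⁻¹ = 1 ∨ x * y * x⁻¹ * y⁻¹ = QuaternionGroup.a 2 := by
  decide

theorem q8_sq : ∀ x : QuaternionGroup 2, x * x = 1 ∨ x * x = QuaternionGroup.a 2 := by
  decide

theorem q8_cent : ∀ x : QuaternionGroup 2, (∀ y : QuaternionGroup 2, x * y = y * x) →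
    x = 1 ∨ x = QuaternionGroup.a 2 := by
  decide

theorem q8_a2 : (QuaternionGroup.a 2 : QuaternionGroup 2) * QuaternionGroup.a 2 = 1 := by decide

theorem main {S : Type*} [Group S] [Finite S] (hS : IsPGroup 2 S) (Q Q₁ Q₂ : Subgroup S)
    (e₁ : Q₁ ≃* QuaternionGroup 2) (e₂ : Q₂ ≃* QuaternionGroup 2)
    (hcomm : ∀ a ∈ Q₁, ∀ b ∈ Q₂, a * b = b * a) (hQ : Q₁ ⊔ Q₂ = Q) (hQ32 : Nat.card Q = 32)
    (hC : Subgroup.centralizer (Q : Set S) ≤ Q) : Cfsg.SectionalPRankLE 2 4 S := by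
  have hQ1 : Q₁ ≤ Q := by rw [← hQ]; exact le_sup_left
  have hQ2 : Q₂ ≤ Q := by rw [← hQ]; exact le_sup_right
  have hcard : ∀ (K : Subgroup S) (e : K ≃* QuaternionGroup 2), Nat.card K = 8 := by
    intro K e
    rw [Nat.card_congr e.toEquiv, Nat.card_eq_fintype_card, QuaternionGroup.card]
  -- the transported facts
  have hfact : ∀ (K : Subgroup S) (e : K ≃* QuaternionGroup 2) (w : S), w ∈ K → w ≠ 1 →
      (∀ x ∈ K, w * x = x * w) →
      (∀ x ∈ K, ∀ y ∈ K, x * y * x⁻¹ * y⁻¹ = 1 ∨ x * y * x⁻¹ * y⁻¹ = w) ∧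
      (∀ x ∈ K, x * x = 1 ∨ x * x = w) ∧ (∀ x ∈ K, (∀ y ∈ K, x * y = y * x) → x = 1 ∨ x = w) ∧
      w * w = 1 := by
    intro K e w hwK hw1 hwc
    have hc : ∀ x (hx : x ∈ K), (∀ y ∈ K, x * y = y * x) → x ≠ 1 → e ⟨x, hx⟩ = QuaternionGroup.a 2 := by
      intro x hx hxc hx1
      refine (q8_cent (e ⟨x, hx⟩) (fun y => ?_)).resolve_left ?_
      · obtain ⟨y', rfl⟩ := e.surjective y
        rw [← map_mul, ← map_mul]
        congr 1
        exact Subtype.ext (hxc y' y'.2)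
      · intro h1
        rw [map_eq_one_iff e e.injective] at h1
        exact hx1 (congrArg Subtype.val h1)
    have hwe : e ⟨w, hwK⟩ = QuaternionGroup.a 2 := hc w hwK hwc hw1
    have hle : ∀ u : K, (e u = 1 ∨ e u = QuaternionGroup.a 2) → (u : S) = 1 ∨ (u : S) = w := by
      rintro u (h1 | h1)
      · left
        rw [map_eq_one_iff e e.injective] at h1
        rw [h1]; rfl
      · right
        rw [← hwe] at h1
        exact congrArg Subtype.val (e.injective h1)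
    refine ⟨?_, ?_, ?_, ?_⟩
    · intro x hx y hy
      have h1 := hle (⟨x, hx⟩ * ⟨y, hy⟩ * ⟨x, hx⟩⁻¹ * ⟨y, hy⟩⁻¹) (by
        rw [map_mul, map_mul, map_mul, map_inv, map_inv]
        exact q8_comm _ _)
      exact h1
    · intro x hx
      have h1 := hle (⟨x, hx⟩ * ⟨x, hx⟩) (by
        rw [map_mul]
        exact q8_sq _)
      exact h1
    · intro x hx hxc
      by_cases hx1 : x = 1
      · exact Or.inl hx1
      · exact hle ⟨x, hx⟩ (Or.inr (hc x hx hxc hx1))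
    · have h1 : e (⟨w, hwK⟩ * ⟨w, hwK⟩) = 1 := by
        rw [map_mul, hwe]; exact q8_a2
      rw [map_eq_one_iff e e.injective] at h1
      exact congrArg Subtype.val h1
  -- the element `z`
  obtain ⟨z, hz1, hz2, hzn⟩ : ∃ z, z ∈ Q₁ ∧ z ∈ Q₂ ∧ z ≠ 1 := by
    by_contra hcon
    push Not at hcon
    have h1 := card_mul_le (Q₁.subgroupOf Q) (Q₂.subgroupOf Q)
    rw [Nat.card_congr (subgroupOfEquivOfLe hQ1).toEquiv, Nat.card_congr (subgroupOfEquivOfLe hQ2).toEquiv,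
      hcard Q₁ e₁, hcard Q₂ e₂, hQ32] at h1
    have h2 : Q₁.subgroupOf Q ⊓ Q₂.subgroupOf Q = ⊥ := by
      rw [eq_bot_iff]
      intro x hx
      rw [mem_bot]
      exact Subtype.ext (hcon x (mem_subgroupOf.1 hx.1) (mem_subgroupOf.1 hx.2))
    rw [h2, card_bot] at h1
    omega
  obtain ⟨f11, f12, f13, hzz⟩ := hfact Q₁ e₁ z hz1 hzn (fun x hx => (hcomm x hx z hz2).symm)
  obtain ⟨f21, f22, f23, -⟩ := hfact Q₂ e₂ z hz2 hzn (fun x hx => hcomm z hz1 x hx)
  have hdec : ∀ q ∈ Q, ∃ x ∈ Q₁, ∃ y ∈ Q₂, q = x * y := by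
    intro q hq
    have hcm : ∀ (m : Q₁) (n : Q₂), Commute (Q₁.subtype m) (Q₂.subtype n) := fun m n => hcomm m m.2 n n.2
    have h1 := MonoidHom.noncommCoprod_range Q₁.subtype Q₂.subtype hcm
    rw [range_subtype, range_subtype, hQ] at h1
    rw [← h1] at hq
    obtain ⟨⟨x, y⟩, hxy⟩ := hq
    exact ⟨x, x.2, y, y.2, hxy.symm⟩
  have hzprod : ∀ a b : S, (a = 1 ∨ a = z) → (b = 1 ∨ b = z) → a * b = 1 ∨ a * b = z := by
    rintro a b (rfl | rfl) (rfl | rfl)
    · left; rw [mul_one]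
    · right; rw [one_mul]
    · right; rw [mul_one]
    · left; exact hzz
  have hcentral : ∀ s : S, (∀ q ∈ Q, s * q = q * s) → s = 1 ∨ s = z := by
    intro s hs
    have hsQ : s ∈ Q := hC (mem_centralizer_iff.2 fun q hq => (hs q hq).symm)
    obtain ⟨x, hx, y, hy, rfl⟩ := hdec s hsQ
    refine hzprod x y (f13 x hx fun u hu => ?_) (f23 y hy fun u hu => ?_)
    · exact cm_cancel' (hcomm u hu y hy).symm (hs u (hQ1 hu))
    · exact cm_cancel (hcomm x hx u hu) (hs u (hQ2 hu))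
  have hX : XS Q z := by
    refine ⟨hS, hQ1 hz1, hzn, hzz, ?_, ?_, ?_, hQ32, hcentral⟩
    · haveI : Nontrivial S := ⟨⟨z, 1, hzn⟩⟩
      haveI := Fact.mk Nat.prime_two
      haveI := hS.center_nontrivial
      obtain ⟨c, hc⟩ := exists_ne (1 : center S)
      have h1 := hcentral c (fun q _ => (mem_center_iff.1 c.2 q).symm)
      have h2 : (c : S) = z := h1.resolve_left (fun h2 => hc (Subtype.ext h2))
      intro s
      have := mem_center_iff.1 c.2 s
      rwa [h2] at this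
    · intro p hp q hq
      obtain ⟨x, hx, y, hy, rfl⟩ := hdec p hp
      obtain ⟨x', hx', y', hy', rfl⟩ := hdec q hq
      have h1 : (x * y) * (x' * y') * (x * y)⁻¹ * (x' * y')⁻¹ =
          (x * x' * x⁻¹ * x'⁻¹) * (y * y' * y⁻¹ * y'⁻¹) := by
        have c1 : Commute y x' := (hcomm x' hx' y hy).symm
        have c2 : Commute y x := (hcomm x hx y hy).symm
        have c3 : Commute y' x := (hcomm x hx y' hy').symm
        have c4 : Commute y' x' := (hcomm x' hx' y' hy').symm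
        have d1 : Commute (y * y' * y⁻¹ * y'⁻¹) (x⁻¹) :=
          (((c2.mul_left c3).mul_left c2.inv_left).mul_left c3.inv_left).inv_right
        have d2 : Commute (y * y' * y⁻¹) (x'⁻¹) := ((c1.mul_left c4).mul_left c1.inv_left).inv_right
        have e1 : Commute (y * y' * y⁻¹) (x⁻¹) :=
          ((c2.mul_left c3).mul_left c2.inv_left).inv_right
        calc (x * y) * (x' * y') * (x * y)⁻¹ * (x' * y')⁻¹
            = x * (y * x') * y' * y⁻¹ * x⁻¹ * y'⁻¹ * x'⁻¹ := by group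
          _ = x * (x' * y) * y' * y⁻¹ * x⁻¹ * y'⁻¹ * x'⁻¹ := by rw [c1.eq]
          _ = x * x' * ((y * y' * y⁻¹) * x⁻¹) * (y'⁻¹ * x'⁻¹) := by group
          _ = x * x' * (x⁻¹ * (y * y' * y⁻¹)) * (x'⁻¹ * y'⁻¹) := by
              rw [e1.eq, (c4.inv_inv).eq]
          _ = x * x' * x⁻¹ * ((y * y' * y⁻¹) * x'⁻¹) * y'⁻¹ := by group
          _ = x * x' * x⁻¹ * (x'⁻¹ * (y * y' * y⁻¹)) * y'⁻¹ := by rw [d2.eq]
          _ = _ := by group
      rw [h1]
      exact hzprod _ _ (f11 x hx x' hx') (f21 y hy y' hy')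
    · intro p hp
      obtain ⟨x, hx, y, hy, rfl⟩ := hdec p hp
      have h1 : (x * y) * (x * y) = (x * x) * (y * y) := by
        have c2 := hcomm x hx y hy
        calc (x * y) * (x * y) = x * (y * x) * y := by group
          _ = x * (x * y) * y := by rw [c2]
          _ = _ := by group
      rw [h1]
      exact hzprod _ _ (f12 x hx) (f22 y hy)
  rcases exists_V hS with h1 | ⟨V, Vn, Vc, Vs, Vmax, V8⟩
  · exact h1
  · exact of_R4 (hX.step3 Vn Vc Vs Vmax V8)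

end Cfsg.Agent.H10.QQ
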