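import Cfsg.Agent.H10.QuadSL4

set_option autoImplicit false

/-! Quadratic action, `p` odd: main theorems (owner: helper10). -/

namespace Cfsg.Agent.H10

open Matrix MatrixGroups

/-- A surjective homomorphism from a subgroup gives a section. -/
theorem section_of_hom {G Q : Type*} [Group G] [Group Q] (K : Subgroup G) (f : K →* Q)
    (hf : Function.Surjective f) :
    ∃ (L : Subgroup G) (_ : (L.subgroupOf K).Normal), Nonempty ((K ⧸ L.subgroupOf K) ≃* Q) := by
  have h1 : (f.ker.map K.subtype).subgroupOf K = f.ker := by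
    rw [Subgroup.subgroupOf, Subgroup.comap_map_eq_self_of_injective K.subtype_injective]
  have h2 : ((f.ker.map K.subtype).subgroupOf K).Normal := by rw [h1]; infer_instance
  exact ⟨f.ker.map K.subtype, h2, ⟨(QuotientGroup.quotientMulEquivOfEq h1).trans
    (QuotientGroup.quotientKerEquivOfSurjective f hf)⟩⟩

theorem quad_pair_main {G : Type*} [Group G] [Finite G] {p : ℕ} [Fact p.Prime] (hp2 : p ≠ 2)
    (V H : Subgroup G)
    (hV : Cfsg.IsElementaryAbelian p V) (hHV : H ≤ Subgroup.normalizer (V : Set G))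
    (hf : H ⊓ Subgroup.centralizer (V : Set G) = ⊥) (a b : G) (hab : H = Subgroup.closure {a, b})
    (ha : ⁅⁅V, Subgroup.zpowers a⁆, Subgroup.zpowers a⁆ = ⊥)
    (hb : ⁅⁅V, Subgroup.zpowers b⁆, Subgroup.zpowers b⁆ = ⊥) (hnp : ¬ IsPGroup p H) :
    (∀ T : Sylow 2 H, ¬ IsMulCommutative T) ∧
    (∃ (K L : Subgroup G) (_ : (L.subgroupOf K).Normal), K ≤ H ∧
      Nonempty ((K ⧸ L.subgroupOf K) ≃* Matrix.SpecialLinearGroup (Fin 2) (ZMod 3))) ∧
    (Cfsg.IsPSolvable p H → p = 3) := by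
  obtain ⟨a', b', -, -, hgen, ha', hb', m, hm, φ, hφ⟩ :=
    exists_sl_hom V H hV hHV hf a b hab ha hb hnp
  have hcardK : Nat.card (GaloisField p m) = p ^ m := GaloisField.card p m hm
  have hfinK : Finite (GaloisField p m) := by
    apply Nat.finite_of_card_ne_zero
    rw [hcardK]
    exact pow_ne_zero _ (Fact.out : p.Prime).ne_zero
  have h1 : φ a' ^ p = 1 := by rw [← map_pow, ha', map_one]
  have h2 : φ b' ^ p = 1 := by rw [← map_pow, hb', map_one]
  refine ⟨fun T => sylow_two_not_comm_of_sl hp2 φ a' b' hgen h1 h2 hφ T, ?_, ?_⟩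
  · obtain ⟨A, B, hB, ⟨e⟩⟩ := section_of_sl hp2 φ a' b' hgen h1 h2 hφ
    let K' : Subgroup H := A.comap φ.rangeRestrict
    let g : K' →* A := φ.rangeRestrict.subgroupComap A
    have hg : Function.Surjective g :=
      MonoidHom.subgroupComap_surjective_of_surjective _ _ φ.rangeRestrict_surjective
    let f : (K'.map H.subtype) →* Matrix.SpecialLinearGroup (Fin 2) (ZMod 3) :=
      ((e.toMonoidHom.comp (QuotientGroup.mk' (B.subgroupOf A))).comp g).comp
        (K'.equivMapOfInjective H.subtype H.subtype_injective).symm.toMonoidHom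
    have hf : Function.Surjective f :=
      ((e.surjective.comp (QuotientGroup.mk'_surjective _)).comp hg).comp
        (K'.equivMapOfInjective H.subtype H.subtype_injective).symm.surjective
    obtain ⟨L, hL, hiso⟩ := section_of_hom (K'.map H.subtype) f hf
    exact ⟨_, L, hL, Subgroup.map_subtype_le _, hiso⟩
  · intro hs
    exact eq_three_of_pSolvable hp2 φ a' b' hgen h1 h2 hφ
      (Cfsg.Agent.H76.isPSolvable_of_surjective φ.rangeRestrict φ.rangeRestrict_surjective hs)

/-- conjugation preserves quadratic action -/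
theorem quad_of_conj {G : Type*} [Group G] {V : Subgroup G} {a g : G}
    (hg : g ∈ Subgroup.normalizer (V : Set G))
    (ha : ⁅⁅V, Subgroup.zpowers a⁆, Subgroup.zpowers a⁆ = ⊥) :
    ⁅⁅V, Subgroup.zpowers (g * a * g⁻¹)⁆, Subgroup.zpowers (g * a * g⁻¹)⁆ = ⊥ := by
  have h1 : V.map (MulAut.conj g).toMonoidHom = V := Subgroup.mem_normalizer_iff_map_conj_eq.mp hg
  have h2 : (Subgroup.zpowers a).map (MulAut.conj g).toMonoidHom = Subgroup.zpowers (g * a * g⁻¹) := by
    rw [MonoidHom.map_zpowers]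
    simp
  have h3 := congrArg (Subgroup.map (MulAut.conj g).toMonoidHom) ha
  rw [Subgroup.map_commutator, Subgroup.map_commutator, h1, h2, Subgroup.map_bot] at h3
  exact h3

/-- `closure {a, g a g⁻¹}` inside a subgroup `H`. -/
theorem closure_pair_map {G : Type*} [Group G] {H : Subgroup G} (a g : H) :
    (Subgroup.closure {a, g * a * g⁻¹}).map H.subtype =
      Subgroup.closure {(a : G), (g : G) * a * (g : G)⁻¹} := by
  rw [MonoidHom.map_closure, Set.image_pair]
  rfl

/-- A quadratic element outside `O_p(H)` generates a non-`p`-group with some conjugate. -/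
theorem exists_conj_not_pGroup {G : Type*} [Group G] [Finite G] {p : ℕ} [Fact p.Prime]
    (H : Subgroup G) (a : G) (haH : a ∈ H) (hna : a ∉ (Cfsg.pCore p H).map H.subtype) :
    ∃ g ∈ H, ¬ IsPGroup p (Subgroup.closure {a, g * a * g⁻¹}) := by
  by_contra hcon
  push Not at hcon
  have key : ∀ g : H, IsPGroup p (Subgroup.closure ({(⟨a, haH⟩ : H), g * ⟨a, haH⟩ * g⁻¹} : Set H)) := by
    intro g
    have h1 := hcon g g.2
    have e := closure_pair_map (⟨a, haH⟩ : H) g
    generalize Subgroup.closure ({(⟨a, haH⟩ : H), g * ⟨a, haH⟩ * g⁻¹} : Set H) = C at e ⊢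
    have h2 : IsPGroup p (C.map H.subtype) := by
      rw [e]
      exact h1
    exact h2.of_injective (C.equivMapOfInjective H.subtype H.subtype_injective).toMonoidHom
      (C.equivMapOfInjective H.subtype H.subtype_injective).injective
  obtain ⟨N, hN, hNp, haN⟩ := Cfsg.Agent.H4.baer_suzuki_elem (p := p) (⟨a, haH⟩ : H) key
  exact hna ⟨_, Cfsg.Agent.Solv.le_pCore hN hNp haN, rfl⟩

/-- The main theorem for a quadratic element outside `O_p(H)`. -/
theorem quad_elem_main {G : Type*} [Group G] [Finite G] {p : ℕ} [Fact p.Prime] (hp2 : p ≠ 2)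
    (V H : Subgroup G)
    (hV : Cfsg.IsElementaryAbelian p V) (hHV : H ≤ Subgroup.normalizer (V : Set G))
    (hf : H ⊓ Subgroup.centralizer (V : Set G) = ⊥) (a g : G) (haH : a ∈ H) (hgH : g ∈ H)
    (ha : ⁅⁅V, Subgroup.zpowers a⁆, Subgroup.zpowers a⁆ = ⊥)
    (hnp : ¬ IsPGroup p (Subgroup.closure {a, g * a * g⁻¹})) :
    (∀ T : Sylow 2 H, ¬ IsMulCommutative T) ∧
    (∃ (K L : Subgroup G) (_ : (L.subgroupOf K).Normal), K ≤ H ∧
      Nonempty ((K ⧸ L.subgroupOf K) ≃* Matrix.SpecialLinearGroup (Fin 2) (ZMod 3))) ∧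
    (Cfsg.IsPSolvable p (Subgroup.closure {a, g * a * g⁻¹}) → p = 3) := by
  set H₀ : Subgroup G := Subgroup.closure {a, g * a * g⁻¹} with hH₀
  have hle : H₀ ≤ H := by
    rw [hH₀, Subgroup.closure_le]
    rintro x (rfl | rfl)
    · exact haH
    · exact mul_mem (mul_mem hgH haH) (inv_mem hgH)
  have hf₀ : H₀ ⊓ Subgroup.centralizer (V : Set G) = ⊥ := by
    rw [eq_bot_iff, ← hf]
    exact inf_le_inf_right _ hle
  obtain ⟨h1, ⟨K, L, hL, hK, hiso⟩, h3⟩ := quad_pair_main hp2 V H₀ hV (hle.trans hHV) hf₀ a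
    (g * a * g⁻¹) rfl ha (quad_of_conj (hHV hgH) ha) hnp
  refine ⟨?_, ⟨K, L, hL, hK.trans hle, hiso⟩, h3⟩
  intro T hT
  have : Fact (Nat.Prime 2) := ⟨Nat.prime_two⟩
  let T₀ : Sylow 2 H₀ := default
  apply h1 T₀
  -- T₀ embeds in a Sylow 2-subgroup of H
  have h4 : IsPGroup 2 ((T₀ : Subgroup H₀).map (Subgroup.inclusion hle)) := T₀.2.map _
  obtain ⟨T₁, hT₁⟩ := h4.exists_le_sylow
  obtain ⟨x, hx⟩ := MulAction.exists_smul_eq H T₁ T
  refine ⟨⟨fun u v => ?_⟩⟩
  apply Subtype.ext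
  have hmem : ∀ u : T₀, x * Subgroup.inclusion hle (u : H₀) * x⁻¹ ∈ (T : Subgroup H) := by
    intro u
    rw [← hx]
    exact ⟨_, hT₁ ⟨_, u.2, rfl⟩, rfl⟩
  have h5 : (⟨_, hmem u⟩ : T) * ⟨_, hmem v⟩ = ⟨_, hmem v⟩ * ⟨_, hmem u⟩ := mul_comm' _ _
  have h6 := congrArg Subtype.val h5
  have h7 : x * Subgroup.inclusion hle ((u : H₀) * v) * x⁻¹ =
      x * Subgroup.inclusion hle ((v : H₀) * u) * x⁻¹ := by
    rw [map_mul, map_mul]
    calc x * (Subgroup.inclusion hle (u : H₀) * Subgroup.inclusion hle (v : H₀)) * x⁻¹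
        = (x * Subgroup.inclusion hle (u : H₀) * x⁻¹) * (x * Subgroup.inclusion hle (v : H₀) * x⁻¹) := by
          group
      _ = (x * Subgroup.inclusion hle (v : H₀) * x⁻¹) * (x * Subgroup.inclusion hle (u : H₀) * x⁻¹) := h6
      _ = _ := by group
  have h8 := mul_left_cancel (mul_right_cancel h7)
  exact Subgroup.inclusion_injective hle h8

end Cfsg.Agent.H10
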