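import Mathlib.LinearAlgebra.Eigenspace.Minpoly
import Mathlib.FieldTheory.Finite.Basic
import Mathlib.LinearAlgebra.Matrix.SpecialLinearGroup
import Mathlib.LinearAlgebra.Matrix.ToLin
import Mathlib.LinearAlgebra.Matrix.Charpoly.Coeff
import Mathlib.GroupTheory.PGroup
import Mathlib.Tactic

set_option autoImplicit false

/-! Two quadratically acting elements and `SL(2,q)` (owner: helper10). -/

namespace Cfsg.Agent.H10

open Polynomial Module

section
variable {G : Type*} [Group G] {K : Type*} [Field K] {W : Type*} [AddCommGroup W] [Module K W]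

/-- Every element of `G` acts unipotently (as a `p`-element). -/
def UnipRep (p : ℕ) (ρ : G →* Module.End K W) : Prop := ∀ g : G, ∃ n : ℕ, (ρ g) ^ (p ^ n) = 1

theorem map_inv_of_quad (ρ : G →* Module.End K W) (a : G) (h : (ρ a - 1) * (ρ a - 1) = 0) :
    ρ a⁻¹ = 2 - ρ a := by
  have h1 : ρ a * (2 - ρ a) = 1 := by
    have h2 : ρ a * (2 - ρ a) = 1 - (ρ a - 1) * (ρ a - 1) := by noncomm_ring
    rw [h2, h, sub_zero]
  have h3 : ρ a⁻¹ * ρ a = 1 := by rw [← map_mul, inv_mul_cancel, map_one]
  calc ρ a⁻¹ = ρ a⁻¹ * (ρ a * (2 - ρ a)) := by rw [h1, mul_one]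
    _ = (ρ a⁻¹ * ρ a) * (2 - ρ a) := by rw [mul_assoc]
    _ = 2 - ρ a := by rw [h3, one_mul]

theorem quad_apply (ρ : G →* Module.End K W) (a : G) (h : (ρ a - 1) * (ρ a - 1) = 0) (w : W) :
    ρ a (ρ a w) = (2 : K) • ρ a w - w := by
  have h1 := LinearMap.congr_fun h w
  simp only [Module.End.mul_apply, LinearMap.sub_apply, Module.End.one_apply, map_sub,
    LinearMap.zero_apply] at h1
  have h2 : ρ a (ρ a w) = ρ a w + ρ a w - w := by
    rw [← sub_eq_zero, ← h1]; abel
  rw [h2, two_smul]

theorem quad_inv_apply (ρ : G →* Module.End K W) (a : G) (h : (ρ a - 1) * (ρ a - 1) = 0) (w : W) :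
    ρ a⁻¹ w = (2 : K) • w - ρ a w := by
  rw [map_inv_of_quad ρ a h, LinearMap.sub_apply, two_smul]
  congr 1
  have : (2 : Module.End K W) = 1 + 1 := by norm_num
  rw [this]
  rfl

theorem exists_eigen_of_pow [Finite K] {p : ℕ} [hp : Fact p.Prime] [CharP K p] [FiniteDimensional K W]
    [Nontrivial W] (z : Module.End K W) {e k : ℕ} (hz : z ^ (p ^ e * k) = 1)
    (hk : k ∣ Nat.card K - 1) : ∃ μ : K, ∃ v : W, v ≠ 0 ∧ z v = μ • v := by
  have : Fintype K := Fintype.ofFinite K
  rw [Nat.card_eq_fintype_card] at hk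
  obtain ⟨c, hc⟩ := hk
  set q := Fintype.card K with hq
  have hq1 : 1 ≤ q := Fintype.card_pos
  have hq2 : 1 < q := Fintype.one_lt_card
  have hzq : z ^ (p ^ e * q) = z ^ (p ^ e) := by
    have h1 : p ^ e * q = p ^ e * k * c + p ^ e := by
      have : q = k * c + 1 := by omega
      conv_lhs => rw [this]
      ring
    rw [h1, pow_add, pow_mul, hz, one_pow, one_mul]
  have hcz : CharP (Module.End K W) p := by
    exact charP_of_injective_algebraMap' K p
  have hann : aeval z ((X ^ q - X : K[X]) ^ p ^ e) = 0 := by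
    rw [map_pow, map_sub, map_pow, aeval_X, sub_pow_char_pow_of_commute (p := p) (x := z ^ q) (y := z) _ (Commute.pow_left (Commute.refl z) q),
      ← pow_mul, mul_comm q, hzq, sub_self]
  have hdvd := minpoly.dvd K z hann
  have hne : (X ^ q - X : K[X]) ≠ 0 := FiniteField.X_pow_card_sub_X_ne_zero _ hq2
  have hsplit : (X ^ q - X : K[X]).Splits := by
    rw [Polynomial.splits_iff_card_roots, FiniteField.roots_X_pow_card_sub_X K,
      FiniteField.X_pow_card_sub_X_natDegree_eq _ hq2]
    simp [hq]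
  have hsp2 := (hsplit.pow (p ^ e)).of_dvd (pow_ne_zero _ hne) hdvd
  have hint : IsIntegral K z := Algebra.IsIntegral.isIntegral z
  have hdeg : (minpoly K z).degree ≠ 0 := (minpoly.degree_pos hint).ne'
  obtain ⟨μ, hμ⟩ := hsp2.exists_eval_eq_zero hdeg
  have hev := Module.End.hasEigenvalue_of_isRoot hμ
  obtain ⟨v, hv⟩ := hev.exists_hasEigenvector
  exact ⟨μ, v, hv.2, hv.apply_eq_smul⟩

/-- In the irreducible case the dimension is at most two. -/
theorem finrank_le_two_of_irreducible [Finite K] {p : ℕ} [hp : Fact p.Prime] [CharP K p]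
    [FiniteDimensional K W] [Nontrivial W] (ρ : G →* Module.End K W) (a b : G)
    (hgen : Subgroup.closure {a, b} = ⊤)
    (ha : (ρ a - 1) * (ρ a - 1) = 0) (hb : (ρ b - 1) * (ρ b - 1) = 0) {e k : ℕ}
    (hz : (a * b) ^ (p ^ e * k) = 1) (hk : k ∣ Nat.card K - 1)
    (hirr : ∀ U : Submodule K W, (∀ g : G, ∀ u ∈ U, ρ g u ∈ U) → U = ⊥ ∨ U = ⊤) :
    finrank K W ≤ 2 := by
  obtain ⟨μ, v, hv, hμ⟩ := exists_eigen_of_pow (ρ (a * b)) (e := e) (k := k)
    (by rw [← map_pow, hz, map_one]) hk
  have hμ0 : μ ≠ 0 := by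
    rintro rfl
    rw [zero_smul] at hμ
    apply hv
    have h1 : ρ (a * b)⁻¹ (ρ (a * b) v) = v := by
      rw [← Module.End.mul_apply, ← map_mul, inv_mul_cancel, map_one]; rfl
    rw [hμ, map_zero] at h1
    exact h1.symm
  set S : Submodule K W := Submodule.span K {v, ρ a v} with hS
  have hvS : v ∈ S := Submodule.subset_span (by simp)
  have havS : ρ a v ∈ S := Submodule.subset_span (by simp)
  -- B v = μ (2 v - A v)
  have hbv : ρ b v = μ • ((2 : K) • v - ρ a v) := by
    have h1 : ρ a⁻¹ (ρ (a * b) v) = ρ b v := by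
      rw [← Module.End.mul_apply, ← map_mul, inv_mul_cancel_left]
    rw [← h1, hμ, map_smul, quad_inv_apply ρ a ha]
  have hbvS : ρ b v ∈ S := by
    rw [hbv]
    exact S.smul_mem _ (S.sub_mem (S.smul_mem _ hvS) havS)
  have hav : ρ a v = (2 : K) • v - μ⁻¹ • ρ b v := by
    rw [hbv, smul_smul, inv_mul_cancel₀ hμ0, one_smul]; abel
  have hbavS : ρ b (ρ a v) ∈ S := by
    rw [hav, map_sub, map_smul, map_smul, quad_apply ρ b hb]
    exact S.sub_mem (S.smul_mem _ hbvS)
      (S.smul_mem _ (S.sub_mem (S.smul_mem _ hbvS) hvS))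
  have haavS : ρ a (ρ a v) ∈ S := by
    rw [quad_apply ρ a ha]
    exact S.sub_mem (S.smul_mem _ havS) hvS
  have hinv : ∀ (x : G), (ρ x - 1) * (ρ x - 1) = 0 → ρ x v ∈ S → ρ x (ρ a v) ∈ S →
      ∀ u ∈ S, ρ x u ∈ S ∧ ρ x⁻¹ u ∈ S := by
    intro x hx h1 h2 u hu
    have h3 : ρ x u ∈ S := by
      have h4 : S ≤ S.comap (ρ x) := by
        rw [hS, Submodule.span_le]
        rintro w (rfl | rfl)
        · exact h1
        · exact h2
      exact h4 hu
    refine ⟨h3, ?_⟩
    rw [quad_inv_apply ρ x hx]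
    exact S.sub_mem (S.smul_mem _ hu) h3
  have hall : ∀ g : G, ∀ u ∈ S, ρ g u ∈ S ∧ ρ g⁻¹ u ∈ S := by
    intro g
    have hg : g ∈ Subgroup.closure {a, b} := by rw [hgen]; trivial
    induction hg using Subgroup.closure_induction with
    | mem x hx =>
      rcases hx with rfl | rfl
      · exact hinv _ ha havS haavS
      · exact hinv _ hb hbvS hbavS
    | one => intro u hu; simpa using hu
    | mul x y _ _ hx hy =>
      intro u hu
      rw [mul_inv_rev, map_mul, map_mul, Module.End.mul_apply, Module.End.mul_apply]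
      exact ⟨(hx _ (hy _ hu).1).1, (hy _ (hx _ hu).2).2⟩
    | inv x _ hx =>
      intro u hu
      rw [inv_inv]
      exact ⟨(hx u hu).2, (hx u hu).1⟩
  have hStop : S = ⊤ := by
    rcases hirr S (fun g u hu => (hall g u hu).1) with h | h
    · exfalso
      rw [h, Submodule.mem_bot] at hvS
      exact hv hvS
    · exact h
  have h1 : finrank K S ≤ 2 := by
    have h2 := finrank_range_le_card (R := K) ![v, ρ a v]
    rw [Matrix.range_cons, Matrix.range_cons, Matrix.range_empty, Set.union_empty,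
      Set.singleton_union] at h2
    simpa [Set.finrank, hS] using h2
  rw [hStop, finrank_top] at h1
  exact h1

theorem det_eq_one_of_quad (A : Matrix (Fin 2) (Fin 2) K) (h : (A - 1) * (A - 1) = 0) :
    A.det = 1 := by
  set N := A - 1 with hN
  have hA : A = 1 + N := by rw [hN]; abel
  have h00 := congrFun (congrFun h 0) 0
  have h01 := congrFun (congrFun h 0) 1
  have h10 := congrFun (congrFun h 1) 0
  have h11 := congrFun (congrFun h 1) 1
  simp only [Matrix.mul_apply, Fin.sum_univ_two, Matrix.zero_apply] at h00 h01 h10 h11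
  have hdet : N 0 0 * N 1 1 - N 0 1 * N 1 0 = 0 := by
    have h2 : (N * N).det = 0 := by rw [h]; simp
    rw [Matrix.det_mul, Matrix.det_fin_two] at h2
    exact mul_self_eq_zero.mp h2
  have htr : N 0 0 + N 1 1 = 0 := by
    have h3 : (N 0 0 + N 1 1) * (N 0 0 + N 1 1) = 0 := by
      linear_combination h00 + h11 + 2 * hdet
    exact mul_self_eq_zero.mp h3
  rw [hA, Matrix.det_fin_two]
  simp only [Matrix.add_apply, Matrix.one_apply_eq, Matrix.one_apply_ne (by decide : (0 : Fin 2) ≠ 1),
    Matrix.one_apply_ne (by decide : (1 : Fin 2) ≠ 0), zero_add]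
  linear_combination htr + hdet

theorem hom_eq_one_of_gen (ρ : G →* Module.End K W) (a b : G)
    (hgen : Subgroup.closure {a, b} = ⊤) (ha : ρ a = 1) (hb : ρ b = 1) (g : G) : ρ g = 1 := by
  have hg : g ∈ Subgroup.closure {a, b} := by rw [hgen]; trivial
  induction hg using Subgroup.closure_induction with
  | mem x hx =>
    rcases hx with rfl | rfl
    · exact ha
    · exact hb
  | one => exact map_one ρ
  | mul x y _ _ hx hy => rw [map_mul, hx, hy, one_mul]
  | inv x _ hx =>
    have h1 : ρ x⁻¹ * ρ x = 1 := by rw [← map_mul, inv_mul_cancel, map_one]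
    rwa [hx, mul_one] at h1

theorem irreducible_case [Finite K] {p : ℕ} [hp : Fact p.Prime] [CharP K p]
    [FiniteDimensional K W] [Nontrivial W] (ρ : G →* Module.End K W) (a b : G)
    (hgen : Subgroup.closure {a, b} = ⊤)
    (ha : (ρ a - 1) * (ρ a - 1) = 0) (hb : (ρ b - 1) * (ρ b - 1) = 0) {e k : ℕ}
    (hz : (a * b) ^ (p ^ e * k) = 1) (hk : k ∣ Nat.card K - 1)
    (hirr : ∀ U : Submodule K W, (∀ g : G, ∀ u ∈ U, ρ g u ∈ U) → U = ⊥ ∨ U = ⊤) :
    UnipRep p ρ ∨ ∃ φ : G →* Matrix.SpecialLinearGroup (Fin 2) K, ¬ IsPGroup p φ.range := by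
  have hle := finrank_le_two_of_irreducible ρ a b hgen ha hb hz hk hirr
  have hpos : 0 < finrank K W := finrank_pos
  rcases (by omega : finrank K W = 1 ∨ finrank K W = 2) with h1 | h2
  · left
    have key : ∀ x : G, (ρ x - 1) * (ρ x - 1) = 0 → ρ x = 1 := by
      intro x hx
      obtain ⟨v, hv, hv2⟩ := finrank_eq_one_iff'.mp h1
      obtain ⟨c, hc⟩ := hv2 (ρ x v)
      have h3 := quad_apply ρ x hx v
      rw [← hc, map_smul, ← hc, smul_smul, smul_smul] at h3
      have h4 : (c * c - (2 * c - 1)) • v = 0 := by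
        rw [sub_smul, h3, sub_smul, one_smul, sub_self]
      rcases smul_eq_zero.mp h4 with h5 | h5
      · have h6 : (c - 1) * (c - 1) = 0 := by linear_combination h5
        have h7 : c = 1 := sub_eq_zero.mp (mul_self_eq_zero.mp h6)
        apply LinearMap.ext
        intro w
        obtain ⟨d, rfl⟩ := hv2 w
        rw [map_smul, ← hc, h7, one_smul]
        rfl
      · exact absurd h5 hv
    intro g
    refine ⟨0, ?_⟩
    rw [pow_zero, pow_one]
    exact hom_eq_one_of_gen ρ a b hgen (key a ha) (key b hb) g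
  · let B : Basis (Fin 2) K W := finBasisOfFinrankEq K W h2
    let Θ : Module.End K W ≃ₐ[K] Matrix (Fin 2) (Fin 2) K := LinearMap.toMatrixAlgEquiv B
    have hdet : ∀ g : G, (Θ (ρ g)).det = 1 := by
      intro g
      have key : ∀ x : G, (ρ x - 1) * (ρ x - 1) = 0 → (Θ (ρ x)).det = 1 := by
        intro x hx
        apply det_eq_one_of_quad
        rw [← map_one Θ, ← map_sub, ← map_mul, hx, map_zero]
      have hg : g ∈ Subgroup.closure {a, b} := by rw [hgen]; trivial
      induction hg using Subgroup.closure_induction with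
      | mem x hx =>
        rcases hx with rfl | rfl
        · exact key _ ha
        · exact key _ hb
      | one => rw [map_one, map_one, Matrix.det_one]
      | mul x y _ _ hx hy => rw [map_mul, map_mul, Matrix.det_mul, hx, hy, one_mul]
      | inv x _ hx =>
        have h1 : (Θ (ρ x⁻¹)).det * (Θ (ρ x)).det = 1 := by
          rw [← Matrix.det_mul, ← map_mul, ← map_mul, inv_mul_cancel, map_one, map_one, Matrix.det_one]
        rwa [hx, mul_one] at h1
    let φ : G →* Matrix.SpecialLinearGroup (Fin 2) K :=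
      { toFun := fun g => ⟨Θ (ρ g), hdet g⟩
        map_one' := by
          apply Subtype.ext
          show Θ (ρ 1) = 1
          rw [map_one, map_one]
        map_mul' := fun x y => by
          apply Subtype.ext
          show Θ (ρ (x * y)) = Θ (ρ x) * Θ (ρ y)
          rw [map_mul, map_mul] }
    by_cases hφ : IsPGroup p φ.range
    · left
      intro g
      obtain ⟨n, hn⟩ := hφ ⟨φ g, ⟨g, rfl⟩⟩
      refine ⟨n, ?_⟩
      have h3 : φ g ^ p ^ n = 1 := congrArg Subtype.val hn
      have h4 : (Θ (ρ g)) ^ p ^ n = 1 := by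
        have := congrArg Subtype.val h3
        rw [Matrix.SpecialLinearGroup.coe_pow] at this
        exact this
      rw [← map_pow, ← map_one Θ] at h4
      exact Θ.injective h4
    · exact Or.inr ⟨φ, hφ⟩

/-- Restriction of a representation to an invariant subspace. -/
def subRep (ρ : G →* Module.End K W) (U : Submodule K W) (hU : ∀ g : G, ∀ u ∈ U, ρ g u ∈ U) :
    G →* Module.End K U where
  toFun g := (ρ g).restrict (hU g)
  map_one' := by
    apply LinearMap.ext
    intro x
    apply Subtype.ext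
    show ρ 1 (x : W) = x
    rw [map_one]; rfl
  map_mul' g h := by
    apply LinearMap.ext
    intro x
    apply Subtype.ext
    show ρ (g * h) (x : W) = ρ g (ρ h x)
    rw [map_mul]; rfl

/-- The quotient representation. -/
def quotRep (ρ : G →* Module.End K W) (U : Submodule K W) (hU : ∀ g : G, ∀ u ∈ U, ρ g u ∈ U) :
    G →* Module.End K (W ⧸ U) where
  toFun g := U.mapQ U (ρ g) (hU g)
  map_one' := by
    apply LinearMap.ext
    intro x
    obtain ⟨x, rfl⟩ := Submodule.Quotient.mk_surjective U x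
    rw [Submodule.mapQ_apply, map_one]; rfl
  map_mul' g h := by
    apply LinearMap.ext
    intro x
    obtain ⟨x, rfl⟩ := Submodule.Quotient.mk_surjective U x
    rw [Submodule.mapQ_apply, map_mul]; rfl

theorem subRep_apply (ρ : G →* Module.End K W) (U : Submodule K W)
    (hU : ∀ g : G, ∀ u ∈ U, ρ g u ∈ U) (g : G) (u : U) : (subRep ρ U hU g u : W) = ρ g u := rfl

theorem quotRep_apply (ρ : G →* Module.End K W) (U : Submodule K W)
    (hU : ∀ g : G, ∀ u ∈ U, ρ g u ∈ U) (g : G) (w : W) :
    quotRep ρ U hU g (Submodule.Quotient.mk w) = Submodule.Quotient.mk (ρ g w) := rfl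

theorem quad_iff (ρ : G →* Module.End K W) (a : G) :
    (ρ a - 1) * (ρ a - 1) = 0 ↔ ∀ w, ρ a (ρ a w) = (2 : K) • ρ a w - w := by
  constructor
  · intro h w; exact quad_apply ρ a h w
  · intro h
    apply LinearMap.ext
    intro w
    simp only [Module.End.mul_apply, LinearMap.sub_apply, Module.End.one_apply, map_sub,
      LinearMap.zero_apply]
    rw [h w, two_smul]
    abel

theorem quad_subRep (ρ : G →* Module.End K W) (U : Submodule K W)
    (hU : ∀ g : G, ∀ u ∈ U, ρ g u ∈ U) {a : G} (ha : (ρ a - 1) * (ρ a - 1) = 0) :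
    (subRep ρ U hU a - 1) * (subRep ρ U hU a - 1) = 0 := by
  rw [quad_iff] at ha ⊢
  intro w
  apply Subtype.ext
  exact ha w

theorem quad_quotRep (ρ : G →* Module.End K W) (U : Submodule K W)
    (hU : ∀ g : G, ∀ u ∈ U, ρ g u ∈ U) {a : G} (ha : (ρ a - 1) * (ρ a - 1) = 0) :
    (quotRep ρ U hU a - 1) * (quotRep ρ U hU a - 1) = 0 := by
  rw [quad_iff] at ha ⊢
  intro w
  obtain ⟨w, rfl⟩ := Submodule.Quotient.mk_surjective U w
  rw [quotRep_apply, quotRep_apply, ha]
  rfl

theorem unip_of_sub_quot [Nontrivial W] {p : ℕ} [hp : Fact p.Prime] [CharP K p] (ρ : G →* Module.End K W)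
    (U : Submodule K W) (hU : ∀ g : G, ∀ u ∈ U, ρ g u ∈ U) (h1 : UnipRep p (subRep ρ U hU))
    (h2 : UnipRep p (quotRep ρ U hU)) : UnipRep p ρ := by
  intro g
  obtain ⟨m, hm⟩ := h1 g
  obtain ⟨n, hn⟩ := h2 g
  have hcz : CharP (Module.End K W) p := charP_of_injective_algebraMap' K p
  set h := g ^ p ^ (m + n) with hh
  have h3 : ∀ u ∈ U, ρ h u = u := by
    intro u hu
    have h4 : subRep ρ U hU h = 1 := by
      rw [hh, map_pow, pow_add, pow_mul, hm, one_pow]
    have h5 := LinearMap.congr_fun h4 ⟨u, hu⟩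
    exact congrArg Subtype.val h5
  have h4 : ∀ w : W, ρ h w - w ∈ U := by
    intro w
    have h5 : quotRep ρ U hU h = 1 := by
      rw [hh, map_pow, pow_add, mul_comm, pow_mul, hn, one_pow]
    have h6 := LinearMap.congr_fun h5 (Submodule.Quotient.mk w)
    rw [quotRep_apply] at h6
    exact (Submodule.Quotient.eq U).mp h6
  have h5 : (ρ h - 1) * (ρ h - 1) = 0 := by
    apply LinearMap.ext
    intro w
    have h6 := h3 _ (h4 w)
    simp only [Module.End.mul_apply, LinearMap.sub_apply, Module.End.one_apply, LinearMap.zero_apply]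
    rw [h6, sub_self]
  refine ⟨m + n + 1, ?_⟩
  have h6 : ρ g ^ p ^ (m + n + 1) = (ρ h) ^ p := by
    rw [hh, map_pow, ← pow_mul, ← pow_succ]
  rw [h6, ← sub_eq_zero]
  have h7 : (ρ h) ^ p - 1 = (ρ h - 1) ^ p := by
    rw [sub_pow_char_of_commute _ (Commute.one_right _), one_pow]
  have h8 : 2 ≤ p := hp.1.two_le
  obtain ⟨j, rfl⟩ := Nat.exists_eq_add_of_le h8
  rw [h7, pow_add, pow_two, h5, zero_mul]

theorem unip_or_sl_two [Finite K] {p : ℕ} [hp : Fact p.Prime] [CharP K p] (a b : G)
    (hgen : Subgroup.closure {a, b} = ⊤) {e k : ℕ}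
    (hz : (a * b) ^ (p ^ e * k) = 1) (hk : k ∣ Nat.card K - 1) (n : ℕ) :
    ∀ (W : Type*) [AddCommGroup W] [Module K W] [FiniteDimensional K W], finrank K W = n →
      ∀ (ρ : G →* Module.End K W), (ρ a - 1) * (ρ a - 1) = 0 → (ρ b - 1) * (ρ b - 1) = 0 →
      UnipRep p ρ ∨ ∃ φ : G →* Matrix.SpecialLinearGroup (Fin 2) K, ¬ IsPGroup p φ.range := by
  induction n using Nat.strong_induction_on with
  | _ n ih =>
    intro W _ _ _ hW ρ ha hb
    rcases subsingleton_or_nontrivial W with hs | hnt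
    · left
      intro g
      refine ⟨0, ?_⟩
      apply LinearMap.ext
      intro w
      exact Subsingleton.elim _ _
    by_cases hirr : ∀ U : Submodule K W, (∀ g : G, ∀ u ∈ U, ρ g u ∈ U) → U = ⊥ ∨ U = ⊤
    · exact irreducible_case ρ a b hgen ha hb hz hk hirr
    · push Not at hirr
      obtain ⟨U, hU, hU1, hU2⟩ := hirr
      have hlt : finrank K U < n := by
        rw [← hW]
        exact Submodule.finrank_lt hU2
      have hlt2 : finrank K (W ⧸ U) < n := by
        have h1 := Submodule.finrank_quotient_add_finrank U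
        have h2 : 0 < finrank K U := by
          rw [Module.finrank_pos_iff, Submodule.nontrivial_iff_ne_bot]
          exact hU1
        omega
      rcases ih _ hlt U rfl (subRep ρ U hU) (quad_subRep ρ U hU ha) (quad_subRep ρ U hU hb) with h1 | h1
      · rcases ih _ hlt2 (W ⧸ U) rfl (quotRep ρ U hU) (quad_quotRep ρ U hU ha)
          (quad_quotRep ρ U hU hb) with h2 | h2
        · exact Or.inl (unip_of_sub_quot ρ U hU h1 h2)
        · exact Or.inr h2
      · exact Or.inr h1

end

end Cfsg.Agent.H10
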