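import Cfsg.Agent.H10.QuadSL
import Cfsg.Agent.H25.OddGL2
import Cfsg.Agent.Schur.SL2
import Cfsg.Agent.Schur.SL2b
import Cfsg.Agent.S0106
import Mathlib.GroupTheory.Transfer

set_option autoImplicit false

/-! Subgroups of `SL(2,q)` generated by two `p`-elements (owner: helper10). -/

namespace Cfsg.Agent.H10

open Matrix MatrixGroups

section
variable {K : Type*} [Field K] {p : ℕ} [hp : Fact p.Prime] [CharP K p]

theorem sl_pow_eq_one_of_fixed (g : SL(2, K)) (v : Fin 2 → K) (hv : v ≠ 0)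
    (h : (g : Matrix (Fin 2) (Fin 2) K) *ᵥ v = v) : g ^ p = 1 := by
  set A : Matrix (Fin 2) (Fin 2) K := (g : Matrix (Fin 2) (Fin 2) K) with hA
  have hdet : A 0 0 * A 1 1 - A 0 1 * A 1 0 = 1 := by
    rw [← Matrix.det_fin_two]; exact g.2
  have h1 : (A - 1).det = 0 := by
    rw [← Matrix.exists_mulVec_eq_zero_iff]
    refine ⟨v, hv, ?_⟩
    rw [Matrix.sub_mulVec, h, Matrix.one_mulVec, sub_self]
  have h2 : (A 0 0 - 1) * (A 1 1 - 1) - A 0 1 * A 1 0 = 0 := by
    rw [Matrix.det_fin_two] at h1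
    simpa using h1
  have htr : A 0 0 + A 1 1 = 2 := by linear_combination hdet - h2
  have h3 : (A - 1) * (A - 1) = 0 := by
    ext i j
    fin_cases i <;> fin_cases j <;> simp [Matrix.mul_apply, Fin.sum_univ_two]
    · linear_combination (A 0 0) * htr - hdet
    · linear_combination (A 0 1) * htr
    · linear_combination (A 1 0) * htr
    · linear_combination (A 1 1) * htr - hdet
  have hpow : A ^ p = 1 := by
    have h7 : A ^ p - 1 = (A - 1) ^ p := by
      rw [sub_pow_char_of_commute _ (Commute.one_right _), one_pow]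
    have h8 : 2 ≤ p := hp.1.two_le
    obtain ⟨j, rfl⟩ := Nat.exists_eq_add_of_le h8
    rw [← sub_eq_zero, h7, pow_add, pow_two, h3, zero_mul]
  apply Subtype.ext
  rw [Matrix.SpecialLinearGroup.coe_pow]
  exact hpow

theorem sl_fixed_of_pow_eq_one (x : SL(2, K)) (hx : x ^ p = 1) (v : Fin 2 → K) (hv : v ≠ 0) (c : K)
    (h : (x : Matrix (Fin 2) (Fin 2) K) *ᵥ v = c • v) :
    (x : Matrix (Fin 2) (Fin 2) K) *ᵥ v = v := by
  have h1 : ∀ n : ℕ, ((x : Matrix (Fin 2) (Fin 2) K) ^ n) *ᵥ v = c ^ n • v := by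
    intro n
    induction n with
    | zero => simp
    | succ n ih => rw [pow_succ', ← Matrix.mulVec_mulVec, ih, Matrix.mulVec_smul, h, smul_smul, pow_succ]
  have h2 := h1 p
  rw [← Matrix.SpecialLinearGroup.coe_pow, hx, Matrix.SpecialLinearGroup.coe_one,
    Matrix.one_mulVec] at h2
  have h3 : (c ^ p - 1) • v = 0 := by rw [sub_smul, ← h2, one_smul, sub_self]
  have h4 : c ^ p - 1 = 0 := (smul_eq_zero.mp h3).resolve_right hv
  have h5 : (c - 1) ^ p = 0 := by rw [sub_pow_char, one_pow, h4]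
  have h6 : c = 1 := sub_eq_zero.mp (pow_eq_zero_iff hp.1.ne_zero |>.mp h5)
  rw [h, h6, one_smul]

/-- A subgroup of `SL(2,K)` generated by two `p`-elements and having an invariant line is a `p`-group. -/
theorem isPGroup_of_invariant_line (X : Subgroup SL(2, K)) (x y : SL(2, K))
    (hX : X = Subgroup.closure {x, y}) (hx : x ^ p = 1) (hy : y ^ p = 1) (v : Fin 2 → K) (hv : v ≠ 0)
    (h : ∀ g ∈ X, (g : Matrix (Fin 2) (Fin 2) K) *ᵥ v ∈ Submodule.span K {v}) : IsPGroup p X := by
  have hfix : ∀ g ∈ X, (g : Matrix (Fin 2) (Fin 2) K) *ᵥ v = v := by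
    intro g hg
    rw [hX] at hg
    have key : ∀ z ∈ X, z ^ p = 1 → (z : Matrix (Fin 2) (Fin 2) K) *ᵥ v = v := by
      intro z hz hzp
      obtain ⟨c, hc⟩ := Submodule.mem_span_singleton.mp (h z hz)
      exact sl_fixed_of_pow_eq_one z hzp v hv c hc.symm
    induction hg using Subgroup.closure_induction with
    | mem z hz =>
      have hzX : z ∈ X := by rw [hX]; exact Subgroup.subset_closure hz
      rcases hz with rfl | rfl
      · exact key _ hzX hx
      · exact key _ hzX hy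
    | one => simp
    | mul a b _ _ ha hb => rw [Matrix.SpecialLinearGroup.coe_mul, ← Matrix.mulVec_mulVec, hb, ha]
    | inv a _ ha =>
      have h1 : ((a⁻¹ * a : SL(2, K)) : Matrix (Fin 2) (Fin 2) K) *ᵥ v = v := by
        rw [inv_mul_cancel]; simp
      rw [Matrix.SpecialLinearGroup.coe_mul, ← Matrix.mulVec_mulVec, ha] at h1
      exact h1
  rintro ⟨g, hg⟩
  refine ⟨1, Subtype.ext ?_⟩
  rw [pow_one]
  exact sl_pow_eq_one_of_fixed g v hv (hfix g hg)

/-- Odd order subgroups of `SL(2,K)` generated by two `p`-elements are `p`-groups, `p` odd. -/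
theorem isPGroup_of_odd [Finite K] (hp2 : p ≠ 2) (X : Subgroup SL(2, K)) (x y : SL(2, K))
    (hX : X = Subgroup.closure {x, y}) (hx : x ^ p = 1) (hy : y ^ p = 1)
    (hodd : Odd (Nat.card X)) : IsPGroup p X := by
  by_contra hnp
  set H : Subgroup (GL (Fin 2) K) := X.map Matrix.SpecialLinearGroup.toGL with hH
  have hcard : Nat.card H = Nat.card X :=
    Subgroup.card_map_of_injective Matrix.SpecialLinearGroup.toGL_injective
  have hFin : Finite H := by
    have : Finite (GL (Fin 2) K) := inferInstance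
    infer_instance
  have h1 : ¬ p ∣ Nat.card H := by
    apply Cfsg.Agent.H25.gl2_odd_irreducible p hp2 H (by rw [hcard]; exact hodd)
    intro v hv
    by_contra hcon
    push Not at hcon
    apply hnp
    apply isPGroup_of_invariant_line X x y hX hx hy v hv
    intro g hg
    exact hcon _ ⟨g, hg, rfl⟩
  rw [hcard] at h1
  have h2 : ∀ z ∈ X, z ^ p = 1 → z = 1 := by
    intro z hz hzp
    by_contra hz1
    apply h1
    have h3 : orderOf z = p := orderOf_eq_prime hzp hz1
    rw [← h3, ← Subgroup.orderOf_mk z hz]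
    exact orderOf_dvd_natCard _
  have hx1 := h2 x (by rw [hX]; exact Subgroup.subset_closure (by simp)) hx
  have hy1 := h2 y (by rw [hX]; exact Subgroup.subset_closure (by simp)) hy
  apply hnp
  have h3 : X = ⊥ := by rw [hX, hx1, hy1]; simp
  rw [h3]
  exact IsPGroup.of_bot

end

/-- A finite group generated by two elements of odd prime order with a normal 2-complement has odd order. -/
theorem odd_of_hasNPC {X : Type*} [Group X] [Finite X] {p : ℕ} [hp : Fact p.Prime] (hp2 : p ≠ 2)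
    (x y : X) (hX : Subgroup.closure {x, y} = ⊤) (hx : x ^ p = 1) (hy : y ^ p = 1)
    (h : Cfsg.HasNormalPComplement 2 X) : Odd (Nat.card X) := by
  obtain ⟨P, N, hN, hc⟩ := h
  obtain ⟨k, hk⟩ := IsPGroup.iff_card.mp P.2
  have hidx : N.index = 2 ^ k := by
    rw [← hk]
    exact hc.symm.index_eq_card
  have h1 : ∀ z : X, z ^ p = 1 → z ∈ N := by
    intro z hz
    rw [← QuotientGroup.eq_one_iff, ← orderOf_eq_one_iff]
    apply Nat.eq_one_of_dvd_coprimes (a := p) (b := 2 ^ k)
    · exact Nat.Coprime.pow_right _ ((Nat.coprime_primes hp.1 Nat.prime_two).mpr hp2)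
    · apply orderOf_dvd_of_pow_eq_one
      rw [← QuotientGroup.mk_pow, hz, QuotientGroup.mk_one]
    · rw [← hidx, Subgroup.index_eq_card]
      exact orderOf_dvd_natCard _
  have h2 : N = ⊤ := by
    rw [eq_top_iff, ← hX, Subgroup.closure_le]
    rintro z (rfl | rfl)
    · exact h1 _ hx
    · exact h1 _ hy
  rw [h2, Subgroup.index_top] at hidx
  rw [← hidx] at hk
  have h3 : P.1.index = Nat.card X := by
    have h4 := P.1.card_mul_index
    rw [hk, one_mul] at h4
    exact h4
  rw [← h3]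
  rw [← Nat.not_even_iff_odd, even_iff_two_dvd]
  have : Fact (Nat.Prime 2) := ⟨Nat.prime_two⟩
  exact P.not_dvd_index

theorem odd_of_cyclic_sylow {X : Type*} [Group X] [Finite X] {p : ℕ} [hp : Fact p.Prime] (hp2 : p ≠ 2)
    (x y : X) (hX : Subgroup.closure {x, y} = ⊤) (hx : x ^ p = 1) (hy : y ^ p = 1)
    (P : Sylow 2 X) (hP : IsCyclic P) : Odd (Nat.card X) := by
  by_cases ho : Odd (Nat.card X)
  · exact ho
  rw [Nat.not_odd_iff_even, even_iff_two_dvd] at ho
  have h2 : (Nat.card X).minFac = 2 := (Nat.minFac_eq_two_iff _).mpr ho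
  have : Fact (Nat.Prime 2) := ⟨Nat.prime_two⟩
  have h3 := IsCyclic.isComplement' h2 hP
  exact odd_of_hasNPC hp2 x y hX hx hy ⟨P, _, inferInstance, h3⟩

theorem not_comm_quaternion {n : ℕ} (hn : 1 ≤ n) :
    ∃ x y : QuaternionGroup (2 ^ n), x * y ≠ y * x := by
  refine ⟨.a 1, .xa 0, ?_⟩
  rw [QuaternionGroup.a_mul_xa, QuaternionGroup.xa_mul_a]
  intro h
  have h1 : (0 : ZMod (2 * 2 ^ n)) - 1 = 0 + 1 := QuaternionGroup.xa.inj h
  have h2 : ((2 : ℕ) : ZMod (2 * 2 ^ n)) = 0 := by
    push_cast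
    linear_combination -h1
  rw [ZMod.natCast_eq_zero_iff] at h2
  have h3 := Nat.le_of_dvd (by norm_num) h2
  have h4 : 2 ≤ 2 ^ n := by
    calc 2 = 2 ^ 1 := by norm_num
      _ ≤ 2 ^ n := Nat.pow_le_pow_right (by norm_num) hn
  omega

section
variable {K : Type*} [Field K] {p : ℕ} [hp : Fact p.Prime] [CharP K p]

theorem closure_range {G : Type*} [Group G] {H : Type*} [Group H] (φ : G →* H) (a b : G)
    (hgen : Subgroup.closure {a, b} = ⊤) : φ.range = Subgroup.closure {φ a, φ b} := by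
  rw [MonoidHom.range_eq_map, ← hgen, MonoidHom.map_closure, Set.image_pair]

theorem closure_rangeRestrict {G : Type*} [Group G] {H : Type*} [Group H] (φ : G →* H) (a b : G)
    (hgen : Subgroup.closure {a, b} = ⊤) :
    Subgroup.closure {φ.rangeRestrict a, φ.rangeRestrict b} = ⊤ := by
  rw [← Set.image_pair, ← MonoidHom.map_closure, hgen, ← MonoidHom.range_eq_map,
    MonoidHom.range_eq_top]
  exact φ.rangeRestrict_surjective

theorem not_odd_range [Finite K] (hp2 : p ≠ 2) {G : Type*} [Group G] (φ : G →* SL(2, K)) (a b : G)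
    (hgen : Subgroup.closure {a, b} = ⊤) (ha : φ a ^ p = 1) (hb : φ b ^ p = 1)
    (hnp : ¬ IsPGroup p φ.range) : ¬ Odd (Nat.card φ.range) := fun hodd =>
  hnp (isPGroup_of_odd hp2 φ.range (φ a) (φ b) (closure_range φ a b hgen) ha hb hodd)

theorem quat_sylow_of_sl [Finite K] (hp2 : p ≠ 2) {G : Type*} [Group G] (φ : G →* SL(2, K))
    (a b : G) (hgen : Subgroup.closure {a, b} = ⊤) (ha : φ a ^ p = 1) (hb : φ b ^ p = 1)
    (hnp : ¬ IsPGroup p φ.range) (T : Sylow 2 φ.range) :
    ∃ n : ℕ, 1 ≤ n ∧ Nonempty ((T : Subgroup φ.range) ≃* QuaternionGroup (2 ^ n)) := by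
  have hfin : Finite SL(2, K) := inferInstance
  have h2 : (2 : K) ≠ 0 := by
    intro h
    have : ((2 : ℕ) : K) = 0 := by exact_mod_cast h
    rw [CharP.cast_eq_zero_iff K p] at this
    exact hp2 ((Nat.prime_dvd_prime_iff_eq hp.1 Nat.prime_two).1 this)
  have hno := not_odd_range hp2 φ a b hgen ha hb hnp
  have hncyc : ¬ IsCyclic T := by
    intro hc
    exact hno (odd_of_cyclic_sylow hp2 (φ.rangeRestrict a) (φ.rangeRestrict b)
      (closure_rangeRestrict φ a b hgen) (Subtype.ext ha) (Subtype.ext hb) T hc)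
  let e := (T : Subgroup φ.range).equivMapOfInjective φ.range.subtype φ.range.subtype_injective
  rcases Cfsg.Agent.Schur.two_subgroup h2 ((T : Subgroup φ.range).map φ.range.subtype)
    (T.2.map _) with h | ⟨n, ⟨f⟩⟩
  · exfalso
    apply hncyc
    exact isCyclic_of_injective e.toMonoidHom e.injective
  · refine ⟨n, ?_, ⟨e.trans f⟩⟩
    by_contra hn
    have hn0 : n = 0 := by omega
    subst hn0
    apply hncyc
    have h3 : IsCyclic (QuaternionGroup (2 ^ 0)) := QuaternionGroup.quaternionGroup_one_isCyclic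
    exact isCyclic_of_injective (e.trans f).toMonoidHom (e.trans f).injective

theorem section_of_sl [Finite K] (hp2 : p ≠ 2) {G : Type*} [Group G] (φ : G →* SL(2, K))
    (a b : G) (hgen : Subgroup.closure {a, b} = ⊤) (ha : φ a ^ p = 1) (hb : φ b ^ p = 1)
    (hnp : ¬ IsPGroup p φ.range) : ∃ (H L : Subgroup φ.range) (_ : (L.subgroupOf H).Normal),
      Nonempty ((H ⧸ L.subgroupOf H) ≃* Matrix.SpecialLinearGroup (Fin 2) (ZMod 3)) := by
  have hfin : Finite SL(2, K) := inferInstance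
  obtain ⟨n, hn, hT⟩ := quat_sylow_of_sl hp2 φ a b hgen ha hb hnp default
  rcases Cfsg.Agent.S0106.result default n hn hT with h | h
  · exact absurd (odd_of_hasNPC hp2 (φ.rangeRestrict a) (φ.rangeRestrict b)
      (closure_rangeRestrict φ a b hgen) (Subtype.ext ha) (Subtype.ext hb) h)
      (not_odd_range hp2 φ a b hgen ha hb hnp)
  · exact h

theorem sylow_two_not_comm_of_sl [Finite K] (hp2 : p ≠ 2) {G : Type*} [Group G] [Finite G]
    (φ : G →* SL(2, K)) (a b : G) (hgen : Subgroup.closure {a, b} = ⊤) (ha : φ a ^ p = 1)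
    (hb : φ b ^ p = 1) (hnp : ¬ IsPGroup p φ.range) (T : Sylow 2 G) : ¬ IsMulCommutative T := by
  intro hT
  have hfin : Finite SL(2, K) := inferInstance
  have : Fact (Nat.Prime 2) := ⟨Nat.prime_two⟩
  obtain ⟨n, hn, ⟨e⟩⟩ := quat_sylow_of_sl hp2 φ a b hgen ha hb hnp
    (T.mapSurjective φ.rangeRestrict_surjective)
  obtain ⟨x, y, hxy⟩ := not_comm_quaternion hn
  apply hxy
  apply e.symm.injective
  rw [map_mul, map_mul]
  obtain ⟨x', hx', hx2⟩ : (e.symm x : φ.range) ∈ (T : Subgroup G).map φ.rangeRestrict := (e.symm x).2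
  obtain ⟨y', hy', hy2⟩ : (e.symm y : φ.range) ∈ (T : Subgroup G).map φ.rangeRestrict := (e.symm y).2
  apply Subtype.ext
  rw [Subgroup.coe_mul, Subgroup.coe_mul, ← hx2, ← hy2, ← map_mul, ← map_mul]
  congr 1
  have h1 : (⟨x', hx'⟩ : T) * ⟨y', hy'⟩ = ⟨y', hy'⟩ * ⟨x', hx'⟩ := mul_comm' _ _
  exact congrArg Subtype.val h1

end

end Cfsg.Agent.H10
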