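import Cfsg.Agent.H10.QuadSL2
import Cfsg.Agent.H25.OddStable
import Cfsg.Agent.H10.Quad
import Mathlib.FieldTheory.Finite.GaloisField

set_option autoImplicit false

/-! Faithful groups generated by two quadratic elements map to `SL(2,q)` (owner: helper10). -/

namespace Cfsg.Agent.H10

open Matrix MatrixGroups

section
variable {p : ℕ} [hp : Fact p.Prime]

/-- Base change of endomorphisms from `F_p` to an extension field. -/
noncomputable def endBase (K : Type*) [Field K] [Algebra (ZMod p) K] (V : Type*) [AddCommGroup V]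
    [Module (ZMod p) V] [FiniteDimensional (ZMod p) V] :
    Module.End (ZMod p) V →+* Module.End K (Fin (Module.finrank (ZMod p) V) → K) :=
  ((Matrix.toLinAlgEquiv' (R := K)
    (n := Fin (Module.finrank (ZMod p) V))).toAlgHom.toRingHom.comp
    (RingHom.mapMatrix (algebraMap (ZMod p) K))).comp
    (LinearMap.toMatrixAlgEquiv (Module.finBasis (ZMod p) V)).toAlgHom.toRingHom

theorem endBase_injective (K : Type*) [Field K] [Algebra (ZMod p) K] (V : Type*) [AddCommGroup V]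
    [Module (ZMod p) V] [FiniteDimensional (ZMod p) V] :
    Function.Injective (endBase (p := p) K V) := by
  intro f g h
  have h1 := (Matrix.toLinAlgEquiv' (R := K)
    (n := Fin (Module.finrank (ZMod p) V))).injective h
  have h2 : (LinearMap.toMatrixAlgEquiv (Module.finBasis (ZMod p) V)) f =
      (LinearMap.toMatrixAlgEquiv (Module.finBasis (ZMod p) V)) g := by
    ext i j
    have := congrFun (congrFun h1 i) j
    exact (algebraMap (ZMod p) K).injective this
  exact (LinearMap.toMatrixAlgEquiv (Module.finBasis (ZMod p) V)).injective h2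

theorem exists_field_degree {k : ℕ} (hk : k.Coprime p) (hk0 : k ≠ 0) :
    ∃ m : ℕ, m ≠ 0 ∧ k ∣ p ^ m - 1 := by
  refine ⟨k.totient, (Nat.totient_pos.mpr (Nat.pos_of_ne_zero hk0)).ne', ?_⟩
  have h1 := Nat.ModEq.pow_totient hk.symm
  exact (Nat.modEq_iff_dvd' (Nat.one_le_pow _ _ hp.1.pos)).mp h1.symm

theorem exists_sl_hom_end {V : Type*} [AddCommGroup V] [Finite V] [Module (ZMod p) V]
    {Γ : Type*} [Group Γ] [Finite Γ] (ρ : Γ →* Module.End (ZMod p) V) (hinj : Function.Injective ρ)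
    (a b : Γ) (hgen : Subgroup.closure {a, b} = ⊤) (ha : (ρ a - 1) * (ρ a - 1) = 0)
    (hb : (ρ b - 1) * (ρ b - 1) = 0) (hnp : ¬ IsPGroup p Γ) :
    ∃ (m : ℕ) (_ : m ≠ 0) (φ : Γ →* SL(2, GaloisField p m)), ¬ IsPGroup p φ.range := by
  have hfd : FiniteDimensional (ZMod p) V := Module.Finite.of_finite
  set N := orderOf (a * b) with hN
  have hN0 : N ≠ 0 := (orderOf_pos (a * b)).ne'
  obtain ⟨e, k, hpk, hek⟩ := Nat.exists_eq_pow_mul_and_not_dvd hN0 p hp.1.ne_one
  have hkc : k.Coprime p := ((Nat.Prime.coprime_iff_not_dvd hp.1).2 hpk).symm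
  have hk0 : k ≠ 0 := by
    rintro rfl
    exact hpk (dvd_zero p)
  obtain ⟨m, hm, hkm⟩ := exists_field_degree hkc hk0
  refine ⟨m, hm, ?_⟩
  have hcardK : Nat.card (GaloisField p m) = p ^ m := GaloisField.card p m hm
  have hfinK : Finite (GaloisField p m) := by
    apply Nat.finite_of_card_ne_zero
    rw [hcardK]
    exact pow_ne_zero _ hp.1.ne_zero
  set Θ := endBase (p := p) (GaloisField p m) V with hΘ
  let ρ' : Γ →* Module.End (GaloisField p m) (Fin (Module.finrank (ZMod p) V) → GaloisField p m) :=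
    (Θ : _ →* _).comp ρ
  have e1 : ∀ g, ρ' g - 1 = Θ (ρ g - 1) := fun g => by rw [map_sub, map_one]; rfl
  rcases unip_or_sl_two (K := GaloisField p m) (p := p) a b hgen (e := e) (k := k)
    (by rw [← hek]; exact pow_orderOf_eq_one _) (by rw [hcardK]; exact hkm) _
    (Fin (Module.finrank (ZMod p) V) → GaloisField p m) rfl ρ'
    (by rw [e1, ← map_mul, ha, map_zero]) (by rw [e1, ← map_mul, hb, map_zero]) with h | h
  · exfalso
    apply hnp
    intro g
    obtain ⟨n, hn⟩ := h g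
    refine ⟨n, hinj ?_⟩
    rw [map_one]
    apply endBase_injective (GaloisField p m) V
    rw [map_one, ← hn, ← map_pow]
    rfl
  · exact h

theorem exists_sl_hom_mulAut_aux {V : Type*} [CommGroup V] [Finite V] [Module (ZMod p) (Additive V)]
    {Γ : Type*} [Group Γ] [Finite Γ] (α : Γ →* MulAut V) (hinj : Function.Injective α) (a b : Γ)
    (hgen : Subgroup.closure {a, b} = ⊤) (ha : ∀ v, α a (α a v * v⁻¹) = α a v * v⁻¹)
    (hb : ∀ v, α b (α b v * v⁻¹) = α b v * v⁻¹) (hnp : ¬ IsPGroup p Γ) :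
    ∃ (m : ℕ) (_ : m ≠ 0) (φ : Γ →* SL(2, GaloisField p m)), ¬ IsPGroup p φ.range := by
  have hfd : FiniteDimensional (ZMod p) (Additive V) := Module.Finite.of_finite
  let ρ : Γ →* Module.End (ZMod p) (Additive V) := Cfsg.Agent.H25.mulAutRep p α
  have hρ : ∀ (g : Γ) (v : V), ρ g (Additive.ofMul v) = Additive.ofMul (α g v) := fun g v => rfl
  have hρ1 : ∀ (g : Γ) (v : V), (ρ g - 1) (Additive.ofMul v) = Additive.ofMul (α g v * v⁻¹) := by
    intro g v
    rw [LinearMap.sub_apply, hρ, Module.End.one_apply, sub_eq_add_neg]; rfl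
  have hquad : ∀ g : Γ, (∀ v, α g (α g v * v⁻¹) = α g v * v⁻¹) → (ρ g - 1) * (ρ g - 1) = 0 := by
    intro g hg
    apply LinearMap.ext
    intro v
    show (ρ g - 1) ((ρ g - 1) (Additive.ofMul v.toMul)) = 0
    rw [hρ1, hρ1, hg, mul_inv_cancel]; rfl
  refine exists_sl_hom_end ρ ?_ a b hgen (hquad a ha) (hquad b hb) hnp
  intro g h hgh
  apply hinj
  apply MulEquiv.ext
  intro v
  have h1 := LinearMap.congr_fun hgh (Additive.ofMul v)
  rw [hρ, hρ] at h1
  exact congrArg Additive.toMul h1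

theorem exists_sl_hom_mulAut {V : Type*} [CommGroup V] [Finite V] (hV : ∀ v : V, v ^ p = 1)
    {Γ : Type*} [Group Γ] [Finite Γ] (α : Γ →* MulAut V) (hinj : Function.Injective α) (a b : Γ)
    (hgen : Subgroup.closure {a, b} = ⊤) (ha : ∀ v, α a (α a v * v⁻¹) = α a v * v⁻¹)
    (hb : ∀ v, α b (α b v * v⁻¹) = α b v * v⁻¹) (hnp : ¬ IsPGroup p Γ) :
    ∃ (m : ℕ) (_ : m ≠ 0) (φ : Γ →* SL(2, GaloisField p m)), ¬ IsPGroup p φ.range := by
  let _ : Module (ZMod p) (Additive V) := AddCommGroup.zmodModule (n := p) (by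
    intro v
    exact congrArg Additive.ofMul (hV v.toMul))
  exact exists_sl_hom_mulAut_aux α hinj a b hgen ha hb hnp

end

open scoped commutatorElement in
theorem quad_conj {G : Type*} [Group G] {V : Subgroup G} {a : G}
    (hq : ⁅⁅V, Subgroup.zpowers a⁆, Subgroup.zpowers a⁆ = ⊥) {v : G} (hv : v ∈ V) :
    Commute a (a * v * a⁻¹ * v⁻¹) := by
  have h1 : ⁅v, a⁆ ∈ ⁅V, Subgroup.zpowers a⁆ :=
    Subgroup.commutator_mem_commutator hv (Subgroup.mem_zpowers a)
  have h2 : ⁅⁅v, a⁆, a⁆ ∈ ⁅⁅V, Subgroup.zpowers a⁆, Subgroup.zpowers a⁆ :=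
    Subgroup.commutator_mem_commutator h1 (Subgroup.mem_zpowers a)
  rw [hq, Subgroup.mem_bot, commutatorElement_eq_one_iff_commute] at h2
  have h3 : a * v * a⁻¹ * v⁻¹ = ⁅v, a⁆⁻¹ := by
    rw [commutatorElement_inv, commutatorElement_def]
  rw [h3]
  exact h2.symm.inv_right

open scoped IsMulCommutative in
/-- Main dichotomy for subgroups acting faithfully on an elementary abelian subgroup. -/
theorem exists_sl_hom {G : Type*} [Group G] [Finite G] {p : ℕ} [Fact p.Prime] (V H : Subgroup G)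
    (hV : Cfsg.IsElementaryAbelian p V) (hHV : H ≤ Subgroup.normalizer (V : Set G))
    (hf : H ⊓ Subgroup.centralizer (V : Set G) = ⊥) (a b : G) (hab : H = Subgroup.closure {a, b})
    (ha : ⁅⁅V, Subgroup.zpowers a⁆, Subgroup.zpowers a⁆ = ⊥)
    (hb : ⁅⁅V, Subgroup.zpowers b⁆, Subgroup.zpowers b⁆ = ⊥) (hnp : ¬ IsPGroup p H) :
    ∃ (a' b' : H), (a' : G) = a ∧ (b' : G) = b ∧ Subgroup.closure {a', b'} = ⊤ ∧ a' ^ p = 1 ∧
      b' ^ p = 1 ∧
      ∃ (m : ℕ) (_ : m ≠ 0) (φ : H →* SL(2, GaloisField p m)), ¬ IsPGroup p φ.range := by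
  have haH : a ∈ H := by rw [hab]; exact Subgroup.subset_closure (by simp)
  have hbH : b ∈ H := by rw [hab]; exact Subgroup.subset_closure (by simp)
  have hgen : Subgroup.closure {(⟨a, haH⟩ : H), ⟨b, hbH⟩} = ⊤ := by
    apply Subgroup.map_injective H.subtype_injective
    rw [MonoidHom.map_closure, ← MonoidHom.range_eq_map, Subgroup.range_subtype]
    rw [Set.image_pair]
    exact hab.symm
  have hp1 : ∀ x ∈ H, ⁅⁅V, Subgroup.zpowers x⁆, Subgroup.zpowers x⁆ = ⊥ → x ^ p = 1 := by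
    intro x hx hq
    have h6 : x ^ p ∈ H ⊓ Subgroup.centralizer (V : Set G) :=
      ⟨pow_mem hx p, pow_mem_centralizer_of_quadratic hV
        (by rw [Subgroup.zpowers_le]; exact hHV hx) hq (Subgroup.mem_zpowers x)⟩
    rw [hf] at h6
    exact h6
  refine ⟨⟨a, haH⟩, ⟨b, hbH⟩, rfl, rfl, hgen, Subtype.ext (hp1 a haH ha),
    Subtype.ext (hp1 b hbH hb), ?_⟩
  have : IsMulCommutative V := hV.1
  let α : H →* MulAut V := V.normalizerMonoidHom.comp (Subgroup.inclusion hHV)
  have hα : ∀ (g : H) (v : V), ((α g v : V) : G) = (g : G) * v * (g : G)⁻¹ := fun g v => rfl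
  refine exists_sl_hom_mulAut (p := p) (V := V) (fun v => Subtype.ext (hV.2 v v.2)) α ?_
    ⟨a, haH⟩ ⟨b, hbH⟩ hgen ?_ ?_ hnp
  · rw [injective_iff_map_eq_one]
    intro g hg
    have h1 : (g : G) ∈ H ⊓ Subgroup.centralizer (V : Set G) := by
      refine ⟨g.2, ?_⟩
      show (g : G) ∈ Subgroup.centralizer (V : Set G)
      rw [Subgroup.mem_centralizer_iff]
      intro v hv
      have h2 : ((α g ⟨v, hv⟩ : V) : G) = v := by rw [hg]; rfl
      rw [hα] at h2
      exact (mul_inv_eq_iff_eq_mul.mp h2).symm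
    rw [hf, Subgroup.mem_bot] at h1
    exact Subtype.ext h1
  · intro v
    apply Subtype.ext
    rw [hα, Subgroup.coe_mul, hα, Subgroup.coe_inv]
    have := (quad_conj ha v.2).eq
    show a * (a * (v : G) * a⁻¹ * (v : G)⁻¹) * a⁻¹ = a * (v : G) * a⁻¹ * (v : G)⁻¹
    rw [this]; group
  · intro v
    apply Subtype.ext
    rw [hα, Subgroup.coe_mul, hα, Subgroup.coe_inv]
    have := (quad_conj hb v.2).eq
    show b * (b * (v : G) * b⁻¹ * (v : G)⁻¹) * b⁻¹ = b * (v : G) * b⁻¹ * (v : G)⁻¹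
    rw [this]; group

end Cfsg.Agent.H10
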