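import Cfsg.Agent.H10.QuadSL3
import Cfsg.Agent.H10.Thompson
import Cfsg.Agent.H76.PSolvable
import Cfsg.Agent.Cop.Basic
import Cfsg.Agent.Solv.Core
import Cfsg.Agent.H4.BaerSuzuki
import Cfsg.Agent.H49.Core

set_option autoImplicit false

/-! `p`-solvable groups generated by two quadratic elements (owner: helper10). -/

namespace Cfsg.Agent.H10

open Matrix MatrixGroups

section
variable {K : Type*} [Field K] {p : ℕ} [hp : Fact p.Prime] [CharP K p]

open scoped commutatorElement in
/-- An element of order `p` (odd) of `SL(2,q)` acting nontrivially on an `r`-subgroup, `r ≠ p`: `p = 3`. -/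
theorem eq_three_of_normalizes [Finite K] (hp2 : p ≠ 2) {r : ℕ} [hr : Fact r.Prime] (hrp : r ≠ p)
    (R : Subgroup SL(2, K)) (hR : IsPGroup r R) (z : SL(2, K)) (hz : z ^ p = 1)
    (hzR : z ∈ Subgroup.normalizer (R : Set SL(2, K)))
    (hzc : z ∉ Subgroup.centralizer (R : Set SL(2, K))) : p = 3 := by
  have hz1 : z ≠ 1 := by
    rintro rfl
    exact hzc (one_mem _)
  have hzo : orderOf z = p := orderOf_eq_prime hz hz1
  set Y : Subgroup SL(2, K) := R ⊔ Subgroup.zpowers z with hY
  have hRY : R ≤ Y := le_sup_left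
  have hzY : z ∈ Y := Subgroup.mem_sup_right (Subgroup.mem_zpowers z)
  have hYN : Y ≤ Subgroup.normalizer (R : Set SL(2, K)) :=
    sup_le Subgroup.le_normalizer (by rw [Subgroup.zpowers_le]; exact hzR)
  obtain ⟨k, hk⟩ := IsPGroup.iff_card.mp hR
  -- order of Y
  have hRn : (R.subgroupOf Y).Normal := (Subgroup.normal_subgroupOf_iff_le_normalizer hRY).mpr hYN
  have hcop : (p : ℕ).Coprime (r ^ k) :=
    Nat.Coprime.pow_right _ ((Nat.coprime_primes hp.1 hr.1).mpr hrp.symm)
  have hcz : Nat.card (Subgroup.zpowers z) = p := by rw [Nat.card_zpowers, hzo]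
  have hcardY : Nat.card Y = r ^ k * p := by
    have h1 := card_sup_mul_card_inf (H := Subgroup.zpowers z) (K := R)
      (by rw [Subgroup.zpowers_le]; exact hzR)
    have h2 : Subgroup.zpowers z ⊓ R = ⊥ := by
      apply Disjoint.eq_bot
      apply Subgroup.disjoint_of_coprime_natCard
      rw [hcz, hk]
      exact hcop
    rw [h2, Subgroup.card_bot, mul_one, sup_comm, hcz, hk] at h1
    rw [hY, h1, mul_comm]
  have hpY : p ∣ Nat.card Y := by
    rw [← hzo, ← Subgroup.orderOf_mk z hzY]
    exact orderOf_dvd_natCard _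
  by_cases hr2 : r = 2
  · subst hr2
    have h2ne : (2 : K) ≠ 0 := by
      intro h
      have : ((2 : ℕ) : K) = 0 := by exact_mod_cast h
      rw [CharP.cast_eq_zero_iff K p] at this
      exact hp2 ((Nat.prime_dvd_prime_iff_eq hp.1 Nat.prime_two).1 this)
    have hzodd : Nat.Coprime (orderOf z) 2 := by
      rw [hzo]
      exact (Nat.coprime_primes hp.1 Nat.prime_two).mpr hp2
    have hncyc : ¬ IsCyclic R := by
      intro hc
      exact hzc (Cfsg.Agent.S0106.mem_centralizer_of_cyclic R hR z hzR hzodd)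
    have hR' : IsPGroup 2 (R.subgroupOf Y) := hR.comap_subtype
    have hcR' : Nat.card (R.subgroupOf Y) = 2 ^ k := by
      rw [← hk]
      exact Nat.card_congr (Subgroup.subgroupOfEquivOfLe hRY).toEquiv
    have hidx : (R.subgroupOf Y).index = p := by
      have h1 := (R.subgroupOf Y).card_mul_index
      rw [hcR', hcardY] at h1
      exact Nat.eq_of_mul_eq_mul_left (pow_pos (by norm_num) k) h1
    have hnd : ¬ 2 ∣ (R.subgroupOf Y).index := by
      rw [hidx]
      intro h
      exact hp2 ((Nat.prime_dvd_prime_iff_eq Nat.prime_two hp.1).1 h).symm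
    let T : Sylow 2 Y := hR'.toSylow hnd
    have hT : (T : Subgroup Y) = R.subgroupOf Y := rfl
    rcases Cfsg.Agent.Schur.two_subgroup h2ne R hR with h | ⟨n, ⟨f⟩⟩
    · exact absurd h hncyc
    have hn : 1 ≤ n := by
      by_contra hn
      have hn0 : n = 0 := by omega
      subst hn0
      apply hncyc
      have h3 : IsCyclic (QuaternionGroup (2 ^ 0)) := QuaternionGroup.quaternionGroup_one_isCyclic
      exact isCyclic_of_injective f.toMonoidHom f.injective
    have e : (T : Subgroup Y) ≃* QuaternionGroup (2 ^ n) :=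
      (Subgroup.subgroupOfEquivOfLe hRY).trans f
    rcases Cfsg.Agent.S0106.result T n hn ⟨e⟩ with h | ⟨A, B, hB, ⟨g⟩⟩
    · exfalso
      obtain ⟨P, N, hN, hc⟩ := h
      apply hzc
      rw [Subgroup.mem_centralizer_iff]
      intro s hs
      have hPc : Nat.card P = 2 ^ k := by
        rw [← hcR']
        exact Nat.card_congr (Sylow.equiv P T).toEquiv
      have hNidx : N.index = 2 ^ k := by rw [← hPc]; exact hc.symm.index_eq_card
      have hNc : Nat.card N = p := by
        have h1 := N.card_mul_index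
        rw [hNidx, hcardY, mul_comm] at h1
        exact Nat.eq_of_mul_eq_mul_left (pow_pos (by norm_num) k) h1
      have hzN : (⟨z, hzY⟩ : Y) ∈ N := by
        rw [← QuotientGroup.eq_one_iff, ← orderOf_eq_one_iff]
        apply Nat.eq_one_of_dvd_coprimes (a := p) (b := 2 ^ k)
        · exact hcop
        · apply orderOf_dvd_of_pow_eq_one
          rw [← QuotientGroup.mk_pow]
          have : (⟨z, hzY⟩ : Y) ^ p = 1 := Subtype.ext hz
          rw [this, QuotientGroup.mk_one]
        · rw [← hNidx, Subgroup.index_eq_card]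
          exact orderOf_dvd_natCard _
      have h1 : ⁅(⟨s, hRY hs⟩ : Y), ⟨z, hzY⟩⁆ ∈ N := by
        rw [commutatorElement_def]
        have := hN.conj_mem _ hzN ⟨s, hRY hs⟩
        exact mul_mem this (inv_mem hzN)
      have h2 : ⁅(⟨s, hRY hs⟩ : Y), ⟨z, hzY⟩⁆ ∈ R.subgroupOf Y := by
        rw [Subgroup.mem_subgroupOf]
        have h3 : z * s⁻¹ * z⁻¹ ∈ R := (Subgroup.mem_normalizer_iff.mp hzR _).mp (inv_mem hs)
        have h4 : ((⁅(⟨s, hRY hs⟩ : Y), ⟨z, hzY⟩⁆ : Y) : SL(2, K)) = s * (z * s⁻¹ * z⁻¹) := by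
          rw [commutatorElement_def]
          show s * z * s⁻¹ * z⁻¹ = _
          group
        rw [h4]
        exact mul_mem hs h3
      have h3 : N ⊓ R.subgroupOf Y = ⊥ := by
        apply Disjoint.eq_bot
        apply Subgroup.disjoint_of_coprime_natCard
        rw [hNc, hcR']
        exact hcop
      have h4 : ⁅(⟨s, hRY hs⟩ : Y), ⟨z, hzY⟩⁆ ∈ N ⊓ R.subgroupOf Y := ⟨h1, h2⟩
      rw [h3, Subgroup.mem_bot, commutatorElement_eq_one_iff_mul_comm] at h4
      exact congrArg Subtype.val h4
    · have h3 : 3 ∣ Nat.card Y := by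
        have h4 : Nat.card (A ⧸ B.subgroupOf A) ∣ Nat.card A := Subgroup.card_quotient_dvd_card _
        have h5 : Nat.card A ∣ Nat.card Y := Subgroup.card_subgroup_dvd_card A
        have h6 : Nat.card (A ⧸ B.subgroupOf A) = 24 := by
          rw [Nat.card_congr g.toEquiv, Nat.card_eq_fintype_card]
          decide +kernel
        have h7 : 24 ∣ Nat.card Y := h6 ▸ h4.trans h5
        exact (by norm_num : 3 ∣ 24).trans h7
      rw [hcardY] at h3
      rcases (Nat.prime_three.dvd_mul).mp h3 with h4 | h4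
      · have := Nat.prime_three.dvd_of_dvd_pow h4
        norm_num at this
      · exact ((Nat.prime_dvd_prime_iff_eq Nat.prime_three hp.1).mp h4).symm
  · -- odd case
    exfalso
    have hoddY : Odd (Nat.card Y) := by
      have h1 : Odd (r ^ k * p) := by
        rw [Nat.odd_mul]
        exact ⟨(hr.1.odd_of_ne_two hr2).pow, hp.1.odd_of_ne_two hp2⟩
      rw [hcardY]
      exact h1
    set H : Subgroup (GL (Fin 2) K) := Y.map Matrix.SpecialLinearGroup.toGL with hH
    have hcard : Nat.card H = Nat.card Y :=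
      Subgroup.card_map_of_injective Matrix.SpecialLinearGroup.toGL_injective
    have hFin : Finite H := by
      have : Finite (GL (Fin 2) K) := inferInstance
      infer_instance
    have hline : ∃ v : Fin 2 → K, v ≠ 0 ∧ ∀ g ∈ Y, (g : Matrix (Fin 2) (Fin 2) K) *ᵥ v ∈
        Submodule.span K {v} := by
      by_contra hcon
      push Not at hcon
      have := Cfsg.Agent.H25.gl2_odd_irreducible p hp2 H (by rw [hcard]; exact hoddY) (by
        intro v hv
        obtain ⟨g, hg, hgv⟩ := hcon v hv
        exact ⟨_, ⟨g, hg, rfl⟩, hgv⟩)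
      rw [hcard] at this
      exact this hpY
    obtain ⟨v, hv, hvY⟩ := hline
    apply hzc
    rw [Subgroup.mem_centralizer_iff]
    intro s hs
    have hc1 : ∀ g ∈ Y, ∃ c : K, (g : Matrix (Fin 2) (Fin 2) K) *ᵥ v = c • v := by
      intro g hg
      obtain ⟨c, hc⟩ := Submodule.mem_span_singleton.mp (hvY g hg)
      exact ⟨c, hc.symm⟩
    have hfix : ((⁅s, z⁆ : SL(2, K)) : Matrix (Fin 2) (Fin 2) K) *ᵥ v = v := by
      obtain ⟨c, hc⟩ := hc1 s (hRY hs)
      obtain ⟨d, hd⟩ := hc1 z hzY
      have hzs : ((z * s : SL(2, K)) : Matrix (Fin 2) (Fin 2) K) *ᵥ v = (d * c) • v := by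
        rw [Matrix.SpecialLinearGroup.coe_mul, ← Matrix.mulVec_mulVec, hc, Matrix.mulVec_smul, hd,
          smul_smul, mul_comm]
      have hsz : ((s * z : SL(2, K)) : Matrix (Fin 2) (Fin 2) K) *ᵥ v = (d * c) • v := by
        rw [Matrix.SpecialLinearGroup.coe_mul, ← Matrix.mulVec_mulVec, hd, Matrix.mulVec_smul, hc,
          smul_smul]
      have he : s * z = ⁅s, z⁆ * (z * s) := by rw [commutatorElement_def]; group
      have hdc : d * c ≠ 0 := by
        intro h0
        rw [h0, zero_smul] at hzs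
        have h1 : (((z * s)⁻¹ * (z * s) : SL(2, K)) : Matrix (Fin 2) (Fin 2) K) *ᵥ v = 0 := by
          rw [Matrix.SpecialLinearGroup.coe_mul, ← Matrix.mulVec_mulVec, hzs, Matrix.mulVec_zero]
        rw [inv_mul_cancel] at h1
        simp only [Matrix.SpecialLinearGroup.coe_one, Matrix.one_mulVec] at h1
        exact hv h1
      rw [he, Matrix.SpecialLinearGroup.coe_mul, ← Matrix.mulVec_mulVec, hzs,
        Matrix.mulVec_smul] at hsz
      exact smul_right_injective _ hdc hsz
    have h1 : ⁅s, z⁆ ^ p = 1 := sl_pow_eq_one_of_fixed _ v hv hfix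
    have h2 : ⁅s, z⁆ ∈ R := by
      have h3 : z * s⁻¹ * z⁻¹ ∈ R := (Subgroup.mem_normalizer_iff.mp hzR _).mp (inv_mem hs)
      have h4 : ⁅s, z⁆ = s * (z * s⁻¹ * z⁻¹) := by rw [commutatorElement_def]; group
      rw [h4]
      exact mul_mem hs h3
    obtain ⟨j, hj⟩ := hR ⟨_, h2⟩
    have hj' : ⁅s, z⁆ ^ r ^ j = 1 := congrArg Subtype.val hj
    have h3 : orderOf ⁅s, z⁆ = 1 := by
      apply Nat.eq_one_of_dvd_coprimes (a := p) (b := r ^ j)
      · exact Nat.Coprime.pow_right _ ((Nat.coprime_primes hp.1 hr.1).mpr hrp.symm)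
      · exact orderOf_dvd_of_pow_eq_one h1
      · exact orderOf_dvd_of_pow_eq_one hj'
    rw [orderOf_eq_one_iff] at h3
    exact commutatorElement_eq_one_iff_mul_comm.mp h3

theorem eq_one_of_two_fixed (g : SL(2, K)) (v w : Fin 2 → K) (hv : v ≠ 0)
    (hw : w ∉ Submodule.span K {v})
    (h1 : (g : Matrix (Fin 2) (Fin 2) K) *ᵥ v = v) (h2 : (g : Matrix (Fin 2) (Fin 2) K) *ᵥ w = w) :
    g = 1 := by
  have hli : LinearIndependent K ![v, w] := by
    rw [LinearIndependent.pair_iff' hv]
    intro a ha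
    exact hw (Submodule.mem_span_singleton.mpr ⟨a, ha⟩)
  have hspan := hli.span_eq_top_of_card_eq_finrank (by simp)
  apply Subtype.ext
  have h3 : Matrix.toLin' (g : Matrix (Fin 2) (Fin 2) K) = LinearMap.id := by
    apply LinearMap.ext_on_range hspan
    intro i
    fin_cases i
    · exact h1
    · exact h2
  have h4 : (g : Matrix (Fin 2) (Fin 2) K) = LinearMap.toMatrix' (Matrix.toLin' (g : Matrix (Fin 2) (Fin 2) K)) := by simp
  rw [h4, h3]
  simp

theorem normal_pgroup_eq_bot [Finite K] (X : Subgroup SL(2, K)) (x y : SL(2, K))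
    (hX : X = Subgroup.closure {x, y}) (hx : x ^ p = 1) (hy : y ^ p = 1) (hnp : ¬ IsPGroup p X)
    (N : Subgroup SL(2, K)) (hXN : X ≤ Subgroup.normalizer (N : Set SL(2, K)))
    (hN : IsPGroup p N) : N = ⊥ := by
  by_contra hne
  let _ : MulAction SL(2, K) (Fin 2 → K) :=
    { smul := fun g v => (g : Matrix (Fin 2) (Fin 2) K) *ᵥ v
      one_smul := fun v => by
        show ((1 : SL(2, K)) : Matrix (Fin 2) (Fin 2) K) *ᵥ v = v
        simp
      mul_smul := fun g h v => by
        show ((g * h : SL(2, K)) : Matrix (Fin 2) (Fin 2) K) *ᵥ v =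
          (g : Matrix (Fin 2) (Fin 2) K) *ᵥ ((h : Matrix (Fin 2) (Fin 2) K) *ᵥ v)
        rw [Matrix.SpecialLinearGroup.coe_mul, ← Matrix.mulVec_mulVec] }
  have hsmul : ∀ (g : N) (v : Fin 2 → K), g • v = ((g : SL(2, K)) : Matrix (Fin 2) (Fin 2) K) *ᵥ v :=
    fun g v => rfl
  have : Fintype K := Fintype.ofFinite K
  have hcard : p ∣ Nat.card (Fin 2 → K) := by
    obtain ⟨n, -, hn⟩ := FiniteField.card K p
    rw [Nat.card_eq_fintype_card, Fintype.card_fun, hn, Fintype.card_fin]
    exact dvd_pow (dvd_pow_self p n.ne_zero) (by norm_num)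
  obtain ⟨v, hv, hv0⟩ := hN.exists_fixed_point_of_prime_dvd_card_of_fixed_point (Fin 2 → K) hcard
    (a := 0) (by intro g; rw [hsmul, Matrix.mulVec_zero])
  apply hnp
  apply isPGroup_of_invariant_line X x y hX hx hy v hv0.symm
  intro g hg
  by_contra hw
  apply hne
  rw [eq_bot_iff]
  intro n hn
  rw [Subgroup.mem_bot]
  apply eq_one_of_two_fixed n v _ hv0.symm hw
  · exact hv ⟨n, hn⟩
  · have h1 : g⁻¹ * n * g ∈ N := by
      have := (Subgroup.mem_normalizer_iff.mp (inv_mem (hXN hg)) n).mp hn
      simpa using this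
    have h2 : ((g⁻¹ * n * g : SL(2, K)) : Matrix (Fin 2) (Fin 2) K) *ᵥ v = v := hv ⟨_, h1⟩
    have h3 : n * g = g * (g⁻¹ * n * g) := by group
    rw [Matrix.mulVec_mulVec, ← Matrix.SpecialLinearGroup.coe_mul, h3,
      Matrix.SpecialLinearGroup.coe_mul, ← Matrix.mulVec_mulVec, h2]
end

theorem exists_r_subgroup {X : Type*} [Group X] [Finite X] {p : ℕ} [hp : Fact p.Prime] (Q : Subgroup X)
    (hQ : (Nat.card Q).Coprime p) (z : X) (hz : z ^ p = 1)
    (hzQ : z ∈ Subgroup.normalizer (Q : Set X)) (hzc : z ∉ Subgroup.centralizer (Q : Set X)) :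
    ∃ (r : ℕ) (_ : r.Prime) (R : Subgroup X), r ≠ p ∧ IsPGroup r R ∧ R ≤ Q ∧
      z ∈ Subgroup.normalizer (R : Set X) ∧ z ∉ Subgroup.centralizer (R : Set X) := by
  by_contra hcon
  push Not at hcon
  have hz1 : z ≠ 1 := by
    rintro rfl
    exact hzc (one_mem _)
  have hzo : orderOf z = p := orderOf_eq_prime hz hz1
  set D : Subgroup X := Q ⊓ Subgroup.centralizer {z} with hD
  have hDQ : D ≤ Q := inf_le_left
  have hidx : D.relIndex Q ≠ 1 := by
    intro h
    rw [Subgroup.relIndex_eq_one] at h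
    apply hzc
    rw [Subgroup.mem_centralizer_iff]
    intro u hu
    have h1 := (h hu).2
    have h2 : u ∈ Subgroup.centralizer {z} := h1
    rw [Subgroup.mem_centralizer_singleton_iff] at h2
    exact h2
  obtain ⟨r, hr, hrd⟩ := Nat.exists_prime_and_dvd hidx
  have hrf : Fact r.Prime := ⟨hr⟩
  have hrQ : r ∣ Nat.card Q := hrd.trans (Subgroup.relIndex_dvd_card D Q)
  have hrp : r ≠ p := by
    rintro rfl
    exact hr.one_lt.ne' (hQ.symm.eq_one_of_dvd hrQ)
  obtain ⟨P, hP⟩ := Cfsg.Agent.Cop.exists_invariant_sylow (A := Subgroup.zpowers z) (K := Q)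
    (by rw [Subgroup.zpowers_le]; exact hzQ) (by rw [Nat.card_zpowers, hzo]; exact hQ.symm)
    (Or.inl inferInstance) r
  have h1 := hcon r hr ((P : Subgroup Q).map Q.subtype) hrp (P.2.map _) (Subgroup.map_subtype_le _)
    (hP (Subgroup.mem_zpowers z))
  have hPD : (P : Subgroup Q).map Q.subtype ≤ D := by
    intro u hu
    refine ⟨Subgroup.map_subtype_le _ hu, ?_⟩
    show u ∈ Subgroup.centralizer {z}
    rw [Subgroup.mem_centralizer_singleton_iff]
    exact (Subgroup.mem_centralizer_iff.mp h1 u hu)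
  have h2 : D.relIndex Q ∣ ((P : Subgroup Q).map Q.subtype).relIndex Q :=
    Subgroup.relIndex_dvd_of_le_left Q hPD
  have h3 : ((P : Subgroup Q).map Q.subtype).relIndex Q = (P : Subgroup Q).index := by
    rw [Subgroup.relIndex, Subgroup.subgroupOf, Subgroup.comap_map_eq_self_of_injective Q.subtype_injective]
  rw [h3] at h2
  exact P.not_dvd_index (hrd.trans h2)

theorem centralizer_pPrimeCore_le {G : Type*} [Group G] [Finite G] {p : ℕ} [hp : Fact p.Prime]
    (h : Cfsg.IsPSolvable p G) (hcore : Cfsg.pCore p G = ⊥) :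
    Subgroup.centralizer ((Cfsg.pPrimeCore p G : Subgroup G) : Set G) ≤ Cfsg.pPrimeCore p G := by
  obtain ⟨n, A, h0, hlast, hmono, hnorm, hfac⟩ := h
  set R := Cfsg.pPrimeCore p G with hR
  set C := Subgroup.centralizer ((R : Subgroup G) : Set G) with hC
  have hCn : C.Normal := inferInstance
  have hRp : (Nat.card R).Coprime p := Cfsg.Agent.Solv.pPrimeCore_card_coprime p
  have key : ∀ i : Fin (n + 1), A i ⊓ C ≤ R := by
    intro i
    induction i using Fin.induction with
    | zero => rw [h0, bot_inf_eq]; exact bot_le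
    | succ i ih =>
      have hn1 := hnorm i.castSucc
      have hn2 := hnorm i.succ
      have hle : A i.castSucc ≤ A i.succ := hmono (Fin.castSucc_lt_succ).le
      set D := A i.succ ⊓ C with hD
      have hDn : D.Normal := inferInstance
      set E := A i.castSucc ⊓ C with hE
      have hEn : E.Normal := inferInstance
      have hED : E ≤ D := inf_le_inf_right _ hle
      have hdvd : E.relIndex D ∣ (A i.castSucc).relIndex (A i.succ) := by
        have h1 : E.relIndex D = (A i.castSucc).relIndex D := by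
          have : E = A i.castSucc ⊓ D := by
            rw [hE, hD, ← inf_assoc, inf_eq_left.mpr hle]
          rw [this, Subgroup.inf_relIndex_right]
        rw [h1]
        exact Cfsg.Agent.H76.relIndex_dvd_relIndex_of_le inf_le_left
      have hEp : (Nat.card E).Coprime p :=
        Nat.Coprime.coprime_dvd_left (Subgroup.card_dvd_of_le ih) hRp
      rcases hfac i with ⟨m, hm⟩ | hc
      · rw [hm] at hdvd
        obtain ⟨l, -, hl⟩ := (Nat.dvd_prime_pow hp.1).mp hdvd
        have hEc : (E.subgroupOf D) ≤ Subgroup.center D := by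
          intro x hx
          rw [Subgroup.mem_center_iff]
          intro y
          apply Subtype.ext
          have hxR : (x : G) ∈ R := ih hx
          have hyC : (y : G) ∈ C := y.2.2
          exact (Subgroup.mem_centralizer_iff.mp hyC (x : G) hxR).symm
        have hq : IsPGroup p (D ⧸ E.subgroupOf D) := by
          apply IsPGroup.of_card (n := l)
          rw [← Subgroup.index_eq_card]
          exact hl
        have hqn : Group.IsNilpotent (D ⧸ E.subgroupOf D) := hq.isNilpotent
        have hDnil : Group.IsNilpotent D :=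
          Subgroup.isNilpotent_of_ker_le_center (QuotientGroup.mk' (E.subgroupOf D))
            (by rw [QuotientGroup.ker_mk']; exact hEc)
        let P : Sylow p D := default
        have htfae := (Group.isNilpotent_of_finite_tfae (G := D)).out 0 3
        have hPn : (P : Subgroup D).Normal := htfae.mp hDnil p hp P
        have hP1 : (P : Subgroup D) ≤ Cfsg.pCore p D := Cfsg.Agent.Solv.le_pCore hPn P.2
        have hP2 := Cfsg.Agent.Solv.map_subtype_pCore_le p D
        rw [hcore, le_bot_iff, Subgroup.map_eq_bot_iff_of_injective _ D.subtype_injective] at hP2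
        rw [hP2, le_bot_iff] at hP1
        have hpD : ¬ p ∣ Nat.card D := by
          intro h1
          have h2 := P.dvd_card_of_dvd_card h1
          have h3 : Nat.card (P : Subgroup D) = 1 := by rw [hP1, Subgroup.card_bot]
          rw [h3] at h2
          exact hp.1.one_lt.ne' (Nat.dvd_one.mp h2)
        have hl0 : l = 0 := by
          by_contra hl0
          apply hpD
          have h1 : p ∣ E.relIndex D := by rw [hl]; exact dvd_pow_self p hl0
          exact h1.trans (Subgroup.relIndex_dvd_card E D)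
        rw [hl0, pow_zero, Subgroup.relIndex_eq_one] at hl
        exact hl.trans ih
      · apply Cfsg.Agent.Solv.le_pPrimeCore hDn
        have h2 : Nat.card D = Nat.card E * E.relIndex D := by
          have := Subgroup.relIndex_mul_relIndex ⊥ E D bot_le hED
          rw [Subgroup.relIndex_bot_left, Subgroup.relIndex_bot_left] at this
          exact this.symm
        rw [h2]
        exact Nat.Coprime.mul_left hEp (Nat.Coprime.coprime_dvd_left hdvd hc)
  have := key (Fin.last n)
  rwa [hlast, top_inf_eq] at this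


section
variable {K : Type*} [Field K] {p : ℕ} [hp : Fact p.Prime] [CharP K p]

theorem eq_three_of_pSolvable [Finite K] (hp2 : p ≠ 2) {G : Type*} [Group G] (φ : G →* SL(2, K))
    (a b : G) (hgen : Subgroup.closure {a, b} = ⊤) (ha : φ a ^ p = 1) (hb : φ b ^ p = 1)
    (hnp : ¬ IsPGroup p φ.range) (hs : Cfsg.IsPSolvable p φ.range) : p = 3 := by
  have hX := closure_range φ a b hgen
  have hcore : Cfsg.pCore p φ.range = ⊥ := by
    have h1 := normal_pgroup_eq_bot φ.range (φ a) (φ b) hX ha hb hnp
      ((Cfsg.pCore p φ.range).map φ.range.subtype)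
      (Subgroup.le_normalizer.trans (Cfsg.Agent.H49.normalizer_le_normalizer_pCoreOf p φ.range))
      (Cfsg.Agent.H49.isPGroup_pCoreOf p φ.range)
    rwa [Subgroup.map_eq_bot_iff_of_injective _ φ.range.subtype_injective] at h1
  have hC := centralizer_pPrimeCore_le hs hcore
  set Q := Cfsg.pPrimeCore p φ.range with hQ
  have hQc : (Nat.card Q).Coprime p := Cfsg.Agent.Solv.pPrimeCore_card_coprime p
  obtain ⟨z, hz, hz1⟩ : ∃ z : φ.range, z ^ p = 1 ∧ z ≠ 1 := by
    by_contra hcon
    push Not at hcon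
    have h1 := hcon (φ.rangeRestrict a) (Subtype.ext ha)
    have h2 := hcon (φ.rangeRestrict b) (Subtype.ext hb)
    apply hnp
    have h3 : φ.range = ⊥ := by
      rw [hX, show φ a = 1 from congrArg Subtype.val h1, show φ b = 1 from congrArg Subtype.val h2]
      simp
    rw [h3]
    exact IsPGroup.of_bot
  have hzo : orderOf z = p := orderOf_eq_prime hz hz1
  have hzC : z ∉ Subgroup.centralizer (Q : Set φ.range) := by
    intro h
    have h1 : z ∈ Q := hC h
    have h2 : orderOf z ∣ Nat.card Q := by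
      rw [← Subgroup.orderOf_mk z h1]
      exact orderOf_dvd_natCard _
    rw [hzo] at h2
    exact hp.1.one_lt.ne' (hQc.symm.eq_one_of_dvd h2)
  obtain ⟨r, hr, R, hrp, hR, -, hzR, hzc⟩ := exists_r_subgroup Q hQc z hz
    (by rw [Subgroup.normalizer_eq_top_iff.mpr inferInstance]; trivial) hzC
  have hrf : Fact r.Prime := ⟨hr⟩
  apply eq_three_of_normalizes hp2 hrp (R.map φ.range.subtype) (hR.map _) (z : SL(2, K))
    (by exact congrArg Subtype.val hz)
  · rw [Subgroup.mem_normalizer_iff]
    intro x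
    constructor
    · rintro ⟨u, hu, rfl⟩
      exact ⟨z * u * z⁻¹, (Subgroup.mem_normalizer_iff.mp hzR u).mp hu, rfl⟩
    · rintro ⟨u, hu, hux⟩
      refine ⟨z⁻¹ * u * z, ?_, ?_⟩
      · have := (Subgroup.mem_normalizer_iff.mp (inv_mem hzR) u).mp hu
        simpa using this
      · show (z : SL(2, K))⁻¹ * (u : SL(2, K)) * (z : SL(2, K)) = x
        have h5 : (u : SL(2, K)) = (z : SL(2, K)) * x * (z : SL(2, K))⁻¹ := hux
        rw [h5]; group
  · intro h
    apply hzc
    rw [Subgroup.mem_centralizer_iff] at h ⊢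
    intro u hu
    exact Subtype.ext (h u ⟨u, hu, rfl⟩)

end

end Cfsg.Agent.H10
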