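import Cfsg.Agent.H10.MaxIndex
import Cfsg.Agent.H10.Factor
import Cfsg.Agent.H10.NilpHall
import Cfsg.Agent.Supersolvable.Basic
import Cfsg.Agent.Supersolvable.Structure
import Cfsg.Agent.Supersolvable.Hereditary
import Cfsg.Agent.Supersolvable.Criteria

set_option autoImplicit false

/-! P. Hall: supersolvable Hall subgroups of equal order are conjugate. -/

namespace Cfsg.Agent.H10

open Subgroup Pointwise

universe u

theorem sylow_normal_of_supersolvable {H : Type*} [Group H] [Finite H]
    (hH : Cfsg.IsSupersolvable H) {p : ℕ} [Fact p.Prime]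
    (hp : ∀ q : ℕ, q.Prime → q ∣ Nat.card H → q ≤ p) (P : Sylow p H) : (P : Subgroup H).Normal :=
  sylow_normal_of_maximal_prime_index (Cfsg.Agent.Supersolvable.prime_index_of_isCoatom hH) hp P

/-- A normal subgroup of `H`, mapped to `G`, is normalized by `H`. -/
theorem le_normalizer_map_subtype {G : Type*} [Group G] {H : Subgroup G} (M : Subgroup H)
    [hM : M.Normal] : H ≤ normalizer ((M.map H.subtype : Subgroup G) : Set G) := by
  intro k hk
  have h1 : M.map (MulAut.conj (⟨k, hk⟩ : H)).toMonoidHom = M :=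
    Subgroup.mem_normalizer_iff_map_conj_eq.mp (by rw [Subgroup.normalizer_eq_top_iff.mpr hM]; trivial)
  rw [Subgroup.mem_normalizer_iff_map_conj_eq]
  conv_rhs => rw [← h1]
  rw [Subgroup.map_map, Subgroup.map_map]
  rfl

theorem supersolvable_hall_conj (n : ℕ) : ∀ {G : Type u} [Group G] [Finite G], Nat.card G = n →
    ∀ H K : Subgroup G, Cfsg.IsSupersolvable H → Cfsg.IsSupersolvable K →
    Nat.card H = Nat.card K → (Nat.card H).Coprime H.index → ∃ x : G, MulAut.conj x • H = K := by
  induction n using Nat.strong_induction_on with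
  | _ n ih =>
    intro G _ _ hn H K hH hK hcard hHall
    have hHallK : (Nat.card K).Coprime K.index := by
      have h1 : K.index = H.index := by
        have h2 := H.card_mul_index
        have h3 := K.card_mul_index
        rw [← h2, hcard] at h3
        exact Nat.eq_of_mul_eq_mul_left Nat.card_pos h3
      rw [← hcard, h1]
      exact hHall
    by_cases h1 : Nat.card H ≤ 1
    · have hHb : H = ⊥ := by
        have := Nat.card_pos (α := H)
        exact Subgroup.card_eq_one.mp (by omega)
      have hKb : K = ⊥ := by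
        have := Nat.card_pos (α := K)
        exact Subgroup.card_eq_one.mp (by omega)
      exact ⟨1, by rw [hHb, hKb]; simp⟩
    push Not at h1
    obtain ⟨p, hp, hpH, hmax⟩ := exists_largest_prime h1
    have hpf : Fact p.Prime := ⟨hp⟩
    obtain ⟨S, hS⟩ := Cfsg.Agent.Transfer.exists_sylow_of_hall hHall hpH (default : Sylow p H)
    obtain ⟨T, hT⟩ := Cfsg.Agent.Transfer.exists_sylow_of_hall hHallK (hcard ▸ hpH) (default : Sylow p K)
    have hSn := sylow_normal_of_supersolvable hH hmax (default : Sylow p H)
    have hTn := sylow_normal_of_supersolvable hK (by rwa [← hcard]) (default : Sylow p K)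
    obtain ⟨g, hg⟩ := MulAction.exists_smul_eq G T S
    set P : Subgroup G := (S : Subgroup G) with hP
    have hPH : P ≤ H := by rw [hS]; exact Subgroup.map_subtype_le _
    have hHP : H ≤ normalizer (P : Set G) := by
      rw [hS]
      exact le_normalizer_map_subtype _
    set K' : Subgroup G := MulAut.conj g • K with hK'
    have hTP : MulAut.conj g • (T : Subgroup G) = P := by
      rw [hP, ← hg]
      rfl
    have hPK : P ≤ K' := by
      rw [← hTP]
      apply Cfsg.Agent.Hall.conj_smul_mono
      rw [hT]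
      exact Subgroup.map_subtype_le _
    have hKP : K' ≤ normalizer (P : Set G) := by
      rintro _ ⟨k, hk, rfl⟩
      have h2 : k ∈ normalizer ((T : Subgroup G) : Set G) := by
        rw [hT]
        exact le_normalizer_map_subtype (default : Sylow p K).1 hk
      rw [mem_normalizer_iff] at h2 ⊢
      intro x
      have h3 : ∀ y : G, y ∈ P ↔ g⁻¹ * y * g ∈ (T : Subgroup G) := by
        intro y
        rw [← hTP, Subgroup.mem_pointwise_smul_iff_inv_smul_mem]
        rw [← map_inv, MulAut.smul_def, MulAut.conj_apply, inv_inv]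
      rw [h3, h3, h2]
      have e : k * (g⁻¹ * x * g) * k⁻¹ = g⁻¹ * ((MulAut.conj g) k * x * ((MulAut.conj g) k)⁻¹) * g := by
        rw [MulAut.conj_apply]; group
      rw [e]
      rfl
    set N := normalizer (P : Set G) with hN
    have hPN : P ≤ N := Subgroup.le_normalizer
    set P' := P.subgroupOf N with hP'
    have hP'n : P'.Normal := Subgroup.normal_in_normalizer
    have hPne : P' ≠ ⊥ := by
      intro h2
      have h3 : P = ⊥ := by
        rw [hP', Subgroup.subgroupOf_eq_bot] at h2
        have := h2.eq_bot_of_le hPN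
        exact this
      have h4 : p ∣ Nat.card P := S.dvd_card_of_dvd_card (hpH.trans (Subgroup.card_subgroup_dvd_card H))
      rw [h3, Subgroup.card_bot] at h4
      exact hp.one_lt.ne' (Nat.dvd_one.mp h4)
    have hlt : Nat.card (N ⧸ P') < n := by
      refine lt_of_lt_of_le (Cfsg.Agent.Supersolvable.card_quotient_lt P' hPne) ?_
      rw [← hn]
      exact Subgroup.card_le_card_group N
    set H₁ := (H.subgroupOf N).map (QuotientGroup.mk' P') with hH₁
    set K₁ := (K'.subgroupOf N).map (QuotientGroup.mk' P') with hK₁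
    have hsuper : ∀ L : Subgroup G, L ≤ N → Cfsg.IsSupersolvable L →
        Cfsg.IsSupersolvable ((L.subgroupOf N).map (QuotientGroup.mk' P')) := by
      intro L hL hLs
      have h2 : Cfsg.IsSupersolvable (L.subgroupOf N) :=
        Cfsg.Agent.Supersolvable.of_mulEquiv (Subgroup.subgroupOfEquivOfLe hL).symm hLs
      exact Cfsg.Agent.Supersolvable.of_surjective
        ((QuotientGroup.mk' P').subgroupMap (L.subgroupOf N)) (MonoidHom.subgroupMap_surjective _ _) h2
    have hcardq : ∀ L : Subgroup G, P ≤ L → L ≤ N →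
        Nat.card ((L.subgroupOf N).map (QuotientGroup.mk' P')) * Nat.card P = Nat.card L := by
      intro L hPL hLN
      have h2 := Subgroup.relIndex_ker (f := QuotientGroup.mk' P') (K := L.subgroupOf N)
      have h3 : P'.relIndex (L.subgroupOf N) = P.relIndex L := Subgroup.relIndex_subgroupOf hLN
      rw [QuotientGroup.ker_mk', h3] at h2
      rw [← h2, mul_comm]
      exact Cfsg.Agent.H10.card_mul_relIndex P L hPL
    have hKcard : Nat.card K' = Nat.card K := Cfsg.Agent.Hall.card_conj_smul g K
    have hc1 := hcardq H hPH hHP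
    have hc2 := hcardq K' hPK hKP
    have hc3 : Nat.card H₁ = Nat.card K₁ := by
      apply Nat.eq_of_mul_eq_mul_right (Nat.card_pos (α := P))
      rw [hH₁, hK₁, hc1, hc2, hKcard, hcard]
    have hidx : H₁.index ∣ H.index := by
      refine (Subgroup.index_map_dvd _ (QuotientGroup.mk'_surjective P')).trans ?_
      exact Subgroup.relIndex_dvd_index_of_le hHP
    have hcop : (Nat.card H₁).Coprime H₁.index :=
      Nat.Coprime.coprime_dvd_left (Dvd.intro _ hc1) (Nat.Coprime.coprime_dvd_right hidx hHall)
    have hK's : Cfsg.IsSupersolvable K' :=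
      Cfsg.Agent.Supersolvable.of_mulEquiv (Subgroup.equivSMul (MulAut.conj g) K) hK
    obtain ⟨y, hy⟩ := ih _ hlt rfl H₁ K₁ (hsuper H hHP hH) (hsuper K' hKP hK's) hc3 hcop
    obtain ⟨x, rfl⟩ := QuotientGroup.mk'_surjective P' y
    have hle : MulAut.conj (x : G) • H ≤ K' := by
      rintro _ ⟨h, hh, rfl⟩
      have h2 : QuotientGroup.mk' P' (x * ⟨h, hHP hh⟩ * x⁻¹) ∈ K₁ := by
        rw [← hy, map_mul, map_mul, map_inv]
        exact ⟨_, mem_map_of_mem _ (show (⟨h, hHP hh⟩ : N) ∈ H.subgroupOf N from hh), rfl⟩
      obtain ⟨k, hk, hk2⟩ := h2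
      have h3 : k⁻¹ * (x * ⟨h, hHP hh⟩ * x⁻¹) ∈ P' := by
        rw [← QuotientGroup.eq_one_iff, ← QuotientGroup.mk'_apply, map_mul, map_inv, hk2, inv_mul_cancel]
      have h4 : (k : G)⁻¹ * ((x : G) * h * (x : G)⁻¹) ∈ K' := hPK h3
      have h5 : (k : G) ∈ K' := hk
      have h6 := K'.mul_mem h5 h4
      rw [mul_inv_cancel_left] at h6
      exact h6
    have heq : MulAut.conj (x : G) • H = K' := by
      apply Subgroup.eq_of_le_of_card_ge hle
      rw [hKcard, Cfsg.Agent.Hall.card_conj_smul, hcard]
    refine ⟨g⁻¹ * x, ?_⟩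
    rw [map_mul, mul_smul, heq, hK', smul_smul, ← map_mul, inv_mul_cancel, map_one, one_smul]

end Cfsg.Agent.H10
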